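import Mathlib
import Cfsg.Agent.H889.TensorPow
import Cfsg.Agent.H889.GammaNonmax
import Cfsg.Agent.H889.C7.Layer
import Cfsg.Agent.H889.C7.Free
set_option linter.all false

-- part: H889/C7/Tens
section
/-!
The concrete tensor power `T n = (Fin n → Fin k) → F` with its `n` slots.
-/

set_option autoImplicit false
set_option linter.unusedSectionVars false
set_option linter.unusedVariables false
set_option linter.unusedSimpArgs false

namespace Cfsg.Agent.H889.C7

open Module Cfsg.Agent.H889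

variable {F : Type*} [Field F] {k : ℕ}

/-- The tensor power. -/
abbrev T (F : Type*) (k n : ℕ) := (Fin n → Fin k) → F

theorem tp_ext {n : ℕ} {V' : Type*} [AddCommGroup V'] [Module F V'] {A A' : T F k n →ₗ[F] V'}
    (h : ∀ xs, A (tp xs) = A' (tp xs)) : A = A' := by
  refine (Pi.basisFun F (Fin n → Fin k)).ext fun a => ?_
  rw [Pi.basisFun_apply, single_eq_tp, h]

theorem tp_insertNth {n : ℕ} (i : Fin (n + 1)) (w : Fin k → F) (xs : Fin n → (Fin k → F))
    (a : Fin (n + 1) → Fin k) :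
    tp (i.insertNth w xs : Fin (n + 1) → (Fin k → F)) a = w (a i) * tp xs (i.removeNth a) := by
  rw [tp_apply, Fin.prod_univ_succAbove _ i, tp_apply]
  congr 1
  · rw [Fin.insertNth_apply_same]
  · refine Finset.prod_congr rfl fun j _ => ?_
    rw [Fin.insertNth_apply_succAbove]
    rfl

/-- `ι w b = w ⊗ b`, with `w` in slot `i`. -/
def ιT {n : ℕ} (i : Fin (n + 1)) : (Fin k → F) →ₗ[F] T F k n →ₗ[F] T F k (n + 1) :=
  LinearMap.mk₂ F (fun w b a => w (a i) * b (i.removeNth a))
    (fun w w' b => by funext a; simp only [Pi.add_apply, add_mul])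
    (fun c w b => by funext a; simp only [Pi.smul_apply, smul_eq_mul, mul_assoc])
    (fun w b b' => by funext a; simp only [Pi.add_apply, mul_add])
    (fun c w b => by funext a; simp only [Pi.smul_apply, smul_eq_mul]; ring)

theorem ιT_apply {n : ℕ} (i : Fin (n + 1)) (w : Fin k → F) (b : T F k n) (a : Fin (n + 1) → Fin k) :
    ιT i w b a = w (a i) * b (i.removeNth a) := rfl

theorem ιT_tp {n : ℕ} (i : Fin (n + 1)) (w : Fin k → F) (xs : Fin n → (Fin k → F)) :
    ιT i w (tp xs) = tp (i.insertNth w xs : Fin (n + 1) → (Fin k → F)) := by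
  funext a
  rw [ιT_apply, tp_insertNth]

/-- The contraction of slot `i` with `ω u`. -/
def κT (ω : LinearMap.BilinForm F (Fin k → F)) {n : ℕ} (i : Fin (n + 1)) :
    (Fin k → F) →ₗ[F] T F k (n + 1) →ₗ[F] T F k n :=
  LinearMap.mk₂ F (fun u v a => ∑ x, ω u (Pi.single x 1) * v (i.insertNth x a : Fin (n + 1) → Fin k))
    (fun u u' v => by
      funext a
      simp only [map_add, LinearMap.add_apply, Pi.add_apply, add_mul, Finset.sum_add_distrib])
    (fun c u v => by
      funext a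
      simp only [map_smul, LinearMap.smul_apply, smul_eq_mul, Pi.smul_apply, Finset.mul_sum, mul_assoc])
    (fun u v v' => by funext a; simp only [Pi.add_apply, mul_add, Finset.sum_add_distrib])
    (fun c u v => by
      funext a
      simp only [Pi.smul_apply, smul_eq_mul, Finset.mul_sum]
      exact Finset.sum_congr rfl fun x _ => by ring)

theorem κT_apply (ω : LinearMap.BilinForm F (Fin k → F)) {n : ℕ} (i : Fin (n + 1)) (u : Fin k → F)
    (v : T F k (n + 1)) (a : Fin n → Fin k) :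
    κT ω i u v a = ∑ x, ω u (Pi.single x 1) * v (i.insertNth x a : Fin (n + 1) → Fin k) := rfl

theorem ω_expand (ω : LinearMap.BilinForm F (Fin k → F)) (u w : Fin k → F) :
    ∑ x, ω u (Pi.single x 1) * w x = ω u w := by
  conv_rhs => rw [← TD.sum_single w]
  rw [map_sum]
  exact Finset.sum_congr rfl fun x _ => by rw [map_smul, smul_eq_mul, mul_comm]

/-- The decomposition with respect to slot `i`. -/
def DT {ω : LinearMap.BilinForm F (Fin k → F)} (hω : Symp ω) {n : ℕ} (i : Fin (n + 1)) :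
    TD ω (T F k n) (T F k (n + 1)) where
  ι := ιT i
  κ := κT ω i
  κι := by
    intro u w b
    funext a
    rw [κT_apply, Pi.smul_apply, smul_eq_mul, ← ω_expand, Finset.sum_mul]
    refine Finset.sum_congr rfl fun x _ => ?_
    rw [ιT_apply, Fin.insertNth_apply_same, Fin.removeNth_insertNth]
    ring
  inj := by
    intro v hv
    funext a
    have h1 := congrFun (hv (TD.dualv hω (a i))) (i.removeNth a)
    rw [κT_apply] at h1
    simp only [TD.ω_dualv] at h1
    rw [Finset.sum_eq_single (a i)] at h1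
    · rw [Pi.single_eq_same, one_mul, Fin.insertNth_self_removeNth] at h1
      exact h1
    · intro x _ hx
      rw [Pi.single_eq_of_ne (Ne.symm hx), zero_mul]
    · intro h
      exact absurd (Finset.mem_univ _) h

section

variable {ω : LinearMap.BilinForm F (Fin k → F)} (hω : Symp ω)

theorem DT_ι {n : ℕ} (i : Fin (n + 1)) : (DT hω i).ι = ιT i := rfl

theorem DT_κ {n : ℕ} (i : Fin (n + 1)) : (DT hω i).κ = κT ω i := rfl

theorem κT_tp {n : ℕ} (i : Fin (n + 1)) (u : Fin k → F) (xs : Fin (n + 1) → (Fin k → F)) :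
    κT ω i u (tp xs) = ω u (xs i) • tp (i.removeNth xs) := by
  funext a
  rw [κT_apply, Pi.smul_apply, smul_eq_mul, ← ω_expand, Finset.sum_mul]
  refine Finset.sum_congr rfl fun x _ => ?_
  have h : tp xs (i.insertNth x a : Fin (n + 1) → Fin k) = xs i x * tp (i.removeNth xs) a := by
    rw [tp_apply, Fin.prod_univ_succAbove _ i, tp_apply, Fin.insertNth_apply_same]
    congr 1
    refine Finset.prod_congr rfl fun j _ => ?_
    rw [Fin.insertNth_apply_succAbove]
    rfl
  rw [h]
  ring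

/-- The tensor power of `ω`. -/
noncomputable def fT (ω : LinearMap.BilinForm F (Fin k → F)) (n : ℕ) : LinearMap.BilinForm F (T F k n) :=
  Matrix.toBilin' (Matrix.of fun a b => ∏ i, ω (Pi.single (a i) 1) (Pi.single (b i) 1))

theorem fT_tp (n : ℕ) (xs ys : Fin n → (Fin k → F)) :
    fT ω n (tp xs) (tp ys) = ∏ i, ω (xs i) (ys i) := by
  have h := tensorPowerForm_tp (fun u v => ω u v) ⟨fun x y v => by simp, fun c x v => by simp,
    fun v x y => by simp, fun c v x => by simp⟩ xs ys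
  rw [← h, fT, Matrix.toBilin'_apply]
  rfl

theorem bilin_ext {n m : ℕ} {f g : T F k n →ₗ[F] T F k m →ₗ[F] F}
    (h : ∀ xs ys, f (tp xs) (tp ys) = g (tp xs) (tp ys)) : f = g :=
  tp_ext fun xs => tp_ext fun ys => h xs ys

theorem fT_adj {n : ℕ} (i : Fin (n + 1)) (w : Fin k → F) (b : T F k n) (v : T F k (n + 1)) :
    fT ω (n + 1) (ιT i w b) v = fT ω n b (κT ω i w v) := by
  have h : (fT ω (n + 1)) ∘ₗ (ιT i w) = ((fT ω n).compl₂ (κT ω i w)) := by
    refine bilin_ext fun xs ys => ?_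
    rw [LinearMap.comp_apply, ιT_tp, fT_tp, LinearMap.compl₂_apply, κT_tp, map_smul, fT_tp,
      Fin.prod_univ_succAbove _ i, Fin.insertNth_apply_same, smul_eq_mul]
    congr 1
    refine Finset.prod_congr rfl fun j _ => ?_
    rw [Fin.insertNth_apply_succAbove]
    rfl
  exact LinearMap.congr_fun (LinearMap.congr_fun h b) v

theorem fT_adj' (hω : Symp ω) {n : ℕ} (i : Fin (n + 1)) (w : Fin k → F) (b : T F k n)
    (v : T F k (n + 1)) :
    fT ω (n + 1) v (ιT i w b) = -fT ω n (κT ω i w v) b := by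
  have h : (fT ω (n + 1)).compl₂ (ιT i w) = -((fT ω n) ∘ₗ (κT ω i w)) := by
    refine bilin_ext fun ys xs => ?_
    rw [LinearMap.compl₂_apply, ιT_tp, fT_tp, LinearMap.neg_apply, LinearMap.neg_apply, LinearMap.comp_apply,
      κT_tp, map_smul, LinearMap.smul_apply, fT_tp,
      Fin.prod_univ_succAbove _ i, Fin.insertNth_apply_same, smul_eq_mul, hω.skew, neg_mul]
    congr 2
    refine Finset.prod_congr rfl fun j _ => ?_
    rw [Fin.insertNth_apply_succAbove]
    rfl
  exact LinearMap.congr_fun (LinearMap.congr_fun h v) b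

theorem tp_zero_eq (v : T F k 0) : v = v default • tp (fun i : Fin 0 => (0 : Fin k → F)) := by
  funext a
  rw [Pi.smul_apply, tp_apply, Fin.prod_univ_zero, smul_eq_mul, mul_one, Subsingleton.elim a default]

theorem fT_ndl (hω : Symp ω) : ∀ (n : ℕ) (b : T F k n), (∀ b', fT ω n b b' = 0) → b = 0 := by
  intro n
  induction n with
  | zero =>
    intro b hb
    have h1 := hb (tp fun i => 0)
    rw [tp_zero_eq b, map_smul, LinearMap.smul_apply, fT_tp, Fin.prod_univ_zero, smul_eq_mul, mul_one] at h1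
    rw [tp_zero_eq b, h1, zero_smul]
  | succ n ih =>
    intro v hv
    apply (DT hω (0 : Fin (n + 1))).inj
    intro u
    apply ih
    intro b
    have := fT_adj' hω 0 u b v
    rw [hv] at this
    rw [← neg_eq_zero, DT_κ, ← this]

theorem fT_ndr (hω : Symp ω) : ∀ (n : ℕ) (b' : T F k n), (∀ b, fT ω n b b' = 0) → b' = 0 := by
  intro n
  induction n with
  | zero =>
    intro b hb
    have h1 := hb (tp fun i => 0)
    rw [tp_zero_eq b, map_smul, fT_tp, Fin.prod_univ_zero, smul_eq_mul, mul_one] at h1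
    rw [tp_zero_eq b, h1, zero_smul]
  | succ n ih =>
    intro v hv
    apply (DT hω (0 : Fin (n + 1))).inj
    intro u
    apply ih
    intro b
    have := fT_adj (ω := ω) 0 u b v
    rw [hv] at this
    rw [DT_κ, ← this]

theorem DT_forms {n : ℕ} (i : Fin (n + 1)) : (DT hω i).Forms (fT ω n) (fT ω (n + 1)) where
  adj := fT_adj i
  adj' := fT_adj' hω i
  ndl := fT_ndl hω n
  ndr := fT_ndr hω n

/-! ### Nested slots -/

theorem ιT_swap {n : ℕ} (i : Fin (n + 2)) (j : Fin (n + 1)) (w u : Fin k → F) (b : T F k n) :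
    ιT i w (ιT j u b) = ιT (i.succAbove j) u (ιT (j.predAbove i) w b) := by
  funext a
  rw [ιT_apply, ιT_apply, ιT_apply, ιT_apply, ← Fin.removeNth_removeNth_eq_swap]
  have h1 : i.removeNth a j = a (i.succAbove j) := rfl
  have h2 : (i.succAbove j).removeNth a (j.predAbove i) = a i := by
    rw [Fin.removeNth_apply, Fin.succAbove_succAbove_predAbove]
  rw [h1, h2]
  ring

theorem removeNth_insertNth_swap {α : Type*} {n : ℕ} (i : Fin (n + 2)) (j : Fin (n + 1)) (x : α)
    (f : Fin (n + 1) → α) :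
    i.removeNth ((i.succAbove j).insertNth x f : Fin (n + 2) → α) =
      (j.insertNth x ((j.predAbove i).removeNth f) : Fin (n + 1) → α) := by
  funext m
  rcases Fin.eq_self_or_eq_succAbove j m with rfl | ⟨m', rfl⟩
  · rw [Fin.removeNth_apply, Fin.insertNth_apply_same, Fin.insertNth_apply_same]
  · rw [Fin.removeNth_apply, ← Fin.succAbove_succAbove_succAbove_predAbove, Fin.insertNth_apply_succAbove,
      Fin.insertNth_apply_succAbove, Fin.removeNth_apply]

theorem κT_ιT_swap {n : ℕ} (i : Fin (n + 2)) (j : Fin (n + 1)) (w u : Fin k → F) (b : T F k (n + 1)) :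
    κT ω i w (ιT (i.succAbove j) u b) = ιT j u (κT ω (j.predAbove i) w b) := by
  have h : κT ω i w ∘ₗ ιT (i.succAbove j) u = ιT j u ∘ₗ κT ω (j.predAbove i) w := by
    refine tp_ext fun xs => ?_
    rw [LinearMap.comp_apply, LinearMap.comp_apply, ιT_tp, κT_tp, κT_tp, map_smul, ιT_tp,
      removeNth_insertNth_swap]
    have e : ((i.succAbove j).insertNth u xs : Fin (n + 2) → (Fin k → F)) i = xs (j.predAbove i) := by
      have e1 := Fin.insertNth_apply_succAbove (α := fun _ => Fin k → F) (i.succAbove j) u xs (j.predAbove i)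
      rw [Fin.succAbove_succAbove_predAbove] at e1
      exact e1
    rw [e]
  exact LinearMap.congr_fun h b

theorem κT_swap {n : ℕ} (i : Fin (n + 2)) (j : Fin (n + 1)) (w u : Fin k → F) (v : T F k (n + 2)) :
    κT ω j u (κT ω i w v) = κT ω (j.predAbove i) w (κT ω (i.succAbove j) u v) := by
  have h : κT ω j u ∘ₗ κT ω i w = κT ω (j.predAbove i) w ∘ₗ κT ω (i.succAbove j) u := by
    refine tp_ext fun xs => ?_
    rw [LinearMap.comp_apply, LinearMap.comp_apply, κT_tp, map_smul, κT_tp, κT_tp, map_smul, κT_tp,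
      ← Fin.removeNth_removeNth_eq_swap, smul_smul, smul_smul]
    have h1 : i.removeNth xs j = xs (i.succAbove j) := rfl
    have h2 : (i.succAbove j).removeNth xs (j.predAbove i) = xs i := by
      rw [Fin.removeNth_apply, Fin.succAbove_succAbove_predAbove]
    rw [h1, h2, mul_comm]
  exact LinearMap.congr_fun h v

/-! ### Slot operators -/

/-- The operator `x` acting on slot `j`. -/
noncomputable def sE {n : ℕ} (j : Fin n) (x : Module.End F (Fin k → F)) : Module.End F (T F k n) :=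
  Matrix.toLin' (slot j (LinearMap.toMatrix' x))

theorem sE_tp {n : ℕ} (j : Fin n) (x : Module.End F (Fin k → F)) (xs : Fin n → (Fin k → F)) :
    sE j x (tp xs) = tp (Function.update xs j (x (xs j))) := by
  rw [sE, Matrix.toLin'_apply, slot_mulVec_tp]
  congr 2
  rw [← Matrix.toLin'_apply, Matrix.toLin'_toMatrix']

theorem sE_mul {n : ℕ} (j : Fin n) (x y : Module.End F (Fin k → F)) :
    sE j (x * y) = sE j x * sE j y := by
  refine tp_ext fun xs => ?_
  rw [Module.End.mul_apply, sE_tp, sE_tp, sE_tp, Function.update_idem, Function.update_self,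
    Module.End.mul_apply]

theorem sE_one {n : ℕ} (j : Fin n) : sE j (1 : Module.End F (Fin k → F)) = 1 := by
  refine tp_ext fun xs => ?_
  rw [sE_tp, Module.End.one_apply, Function.update_eq_self, Module.End.one_apply]

theorem sE_add {n : ℕ} (j : Fin n) (x y : Module.End F (Fin k → F)) :
    sE j (x + y) = sE j x + sE j y := by
  refine tp_ext fun xs => ?_
  rw [LinearMap.add_apply, sE_tp, sE_tp, sE_tp, LinearMap.add_apply, tp_update_add]

theorem sE_smul {n : ℕ} (j : Fin n) (c : F) (x : Module.End F (Fin k → F)) :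
    sE j (c • x) = c • sE j x := by
  refine tp_ext fun xs => ?_
  rw [LinearMap.smul_apply, sE_tp, sE_tp, LinearMap.smul_apply, tp_update_smul]

theorem sE_comm {n : ℕ} {j j' : Fin n} (h : j ≠ j') (x y : Module.End F (Fin k → F)) :
    sE j x * sE j' y = sE j' y * sE j x := by
  refine tp_ext fun xs => ?_
  rw [Module.End.mul_apply, Module.End.mul_apply, sE_tp, sE_tp, sE_tp, sE_tp, Function.update_of_ne h,
    Function.update_of_ne (Ne.symm h), Function.update_comm h]

theorem update_insertNth_ne {α : Type*} {n : ℕ} (i : Fin (n + 1)) (j : Fin n) (x y : α) (f : Fin n → α) :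
    Function.update (i.insertNth x f : Fin (n + 1) → α) (i.succAbove j) y =
      (i.insertNth x (Function.update f j y) : Fin (n + 1) → α) := by
  funext m
  rcases Fin.eq_self_or_eq_succAbove i m with rfl | ⟨m', rfl⟩
  · rw [Function.update_of_ne (Fin.succAbove_ne _ _).symm, Fin.insertNth_apply_same, Fin.insertNth_apply_same]
  · rw [Fin.insertNth_apply_succAbove]
    by_cases h : m' = j
    · subst h
      rw [Function.update_self, Function.update_self]
    · rw [Function.update_of_ne (fun h' => h (Fin.succAbove_right_injective h')), Function.update_of_ne h,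
        Fin.insertNth_apply_succAbove]

theorem sE_ιT_self {n : ℕ} (i : Fin (n + 1)) (x : Module.End F (Fin k → F)) (w : Fin k → F) (b : T F k n) :
    sE i x (ιT i w b) = ιT i (x w) b := by
  have h : sE i x ∘ₗ ιT i w = ιT i (x w) := by
    refine tp_ext fun xs => ?_
    rw [LinearMap.comp_apply, ιT_tp, sE_tp, ιT_tp, Fin.insertNth_apply_same, Fin.update_insertNth]
  exact LinearMap.congr_fun h b

theorem sE_ιT_ne {n : ℕ} (i : Fin (n + 1)) (j : Fin n) (x : Module.End F (Fin k → F)) (w : Fin k → F)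
    (b : T F k n) : sE (i.succAbove j) x (ιT i w b) = ιT i w (sE j x b) := by
  have h : sE (i.succAbove j) x ∘ₗ ιT i w = ιT i w ∘ₗ sE j x := by
    refine tp_ext fun xs => ?_
    rw [LinearMap.comp_apply, ιT_tp, sE_tp, LinearMap.comp_apply, sE_tp, ιT_tp, Fin.insertNth_apply_succAbove,
      update_insertNth_ne]
  exact LinearMap.congr_fun h b

theorem map_one_sE {n : ℕ} (i : Fin (n + 1)) (j : Fin n) (x : Module.End F (Fin k → F)) :
    (DT hω i).map hω 1 (sE j x) = sE (i.succAbove j) x := by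
  refine (DT hω i).ext hω fun w b => ?_
  rw [TD.map_ι, Module.End.one_apply, DT_ι, sE_ιT_ne]

theorem map_sE {n : ℕ} (i : Fin (n + 1)) (x : Module.End F (Fin k → F)) :
    (DT hω i).map hω x 1 = sE i x := by
  refine (DT hω i).ext hω fun w b => ?_
  rw [TD.map_ι, Module.End.one_apply, DT_ι, sE_ιT_self]

/-- The slot operator as a unit. -/
noncomputable def sU {n : ℕ} (j : Fin n) (x : (Module.End F (Fin k → F))ˣ) : (Module.End F (T F k n))ˣ where
  val := sE j x.1
  inv := sE j (x⁻¹).1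
  val_inv := by rw [← sE_mul, ← Units.val_mul, mul_inv_cancel, Units.val_one, sE_one]
  inv_val := by rw [← sE_mul, ← Units.val_mul, inv_mul_cancel, Units.val_one, sE_one]

theorem sU_val {n : ℕ} (j : Fin n) (x : (Module.End F (Fin k → F))ˣ) : (sU j x).1 = sE j x.1 := rfl

theorem sU_mul {n : ℕ} (j : Fin n) (x y : (Module.End F (Fin k → F))ˣ) :
    sU j (x * y) = sU j x * sU j y := Units.ext (sE_mul j _ _)

theorem sU_inv {n : ℕ} (j : Fin n) (x : (Module.End F (Fin k → F))ˣ) : (sU j x)⁻¹ = sU j x⁻¹ := by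
  rw [inv_eq_iff_mul_eq_one, ← sU_mul, mul_inv_cancel]
  exact Units.ext (sE_one j)

theorem mapU_sU {n : ℕ} (i : Fin (n + 1)) (x : (Module.End F (Fin k → F))ˣ) :
    (DT hω i).mapU hω x 1 = sU i x := Units.ext (map_sE hω i _)

theorem mapU_one_sU {n : ℕ} (i : Fin (n + 1)) (j : Fin n) (x : (Module.End F (Fin k → F))ˣ) :
    (DT hω i).mapU hω 1 (sU j x) = sU (i.succAbove j) x := Units.ext (map_one_sE hω i j _)

/-- `c_u` in a nested slot. -/
theorem map_one_cs {n : ℕ} (i : Fin (n + 2)) (j : Fin (n + 1)) (u : Fin k → F)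
    (s : Module.End F (T F k n)) :
    (DT hω i).map hω 1 ((DT hω j).cs u s) =
      (DT hω (i.succAbove j)).cs u ((DT hω (j.predAbove i)).map hω 1 s) := by
  refine (DT hω i).ext hω fun w b => ?_
  rw [TD.map_ι, Module.End.one_apply, TD.cs_apply, TD.cs_apply, DT_ι, DT_ι, DT_κ, DT_κ, DT_ι]
  have h1 : κT ω (i.succAbove j) u (ιT i w b) = ιT (j.predAbove i) w (κT ω j u b) := by
    have h := κT_ιT_swap (ω := ω) (i.succAbove j) (j.predAbove i) u w b
    rw [Fin.succAbove_succAbove_predAbove] at h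
    have h2 : (j.predAbove i).predAbove (i.succAbove j) = j := by
      have h3 := Fin.succAbove_succAbove_predAbove (i.succAbove j) (j.predAbove i)
      have h4 := Fin.succAbove_succAbove_predAbove i j
      have h5 : i.succAbove ((j.predAbove i).predAbove (i.succAbove j)) = i.succAbove j := by
        conv_rhs => rw [← h3]
        rw [h4]
      exact Fin.succAbove_right_injective h5
    rw [h2] at h
    exact h
  rw [h1]
  have h2 : (DT hω (j.predAbove i)).map hω 1 s (ιT (j.predAbove i) w (κT ω j u b)) =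
      ιT (j.predAbove i) w (s (κT ω j u b)) := by
    have := (DT hω (j.predAbove i)).map_ι hω 1 s w (κT ω j u b)
    rw [DT_ι, Module.End.one_apply] at this
    exact this
  rw [h2, ιT_swap]

end

end Cfsg.Agent.H889.C7
end

-- part: H889/C7/Step1
section
/-!
Elements of `M` normalising a root group `1 + λ c_a ⊗ 1` are decomposable `α ⊗ β`.
-/

set_option autoImplicit false
set_option linter.unusedSectionVars false
set_option linter.unusedVariables false
set_option linter.unusedSimpArgs false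

namespace Cfsg.Agent.H889.C7

open Module

variable {F : Type*} [Field F] {k : ℕ} {ω : LinearMap.BilinForm F (Fin k → F)} {B V : Type*}
  [AddCommGroup B] [Module F B] [AddCommGroup V] [Module F V]

/-- The conclusion of the layer theorem. -/
def LayerC (hω : Symp ω) (D : TD ω B V) (M : Subgroup (Module.End F V)ˣ) (a : Fin k → F) : Prop :=
  ∀ g ∈ M, InU D a g → ∃ α, IsoW ω α ∧ α.1 a = a ∧ g = D.mapU hω α 1

/-- `g` normalises the root group of `a`, with the induced map `g₃` on `B`. -/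
structure NC (D : TD ω B V) (a : Fin k → F) (μ : F) (g : (Module.End F V)ˣ)
    (g₃ : (Module.End F B)ˣ) : Prop where
  gι : ∀ b, g.1 (D.ι a b) = D.ι a (μ • g₃.1 b)
  κg : ∀ v, D.κ a (g.1 v) = g₃.1 (D.κ a v)

section

variable {D : TD ω B V} {a a' : Fin k → F} {μ : F} {g : (Module.End F V)ˣ}

theorem κ_fact (hω : Symp ω) (haa' : ω a a' = 1) (hμ : μ ≠ 0)
    (h : ∀ v, g.1 (D.cs a 1 v) = μ • D.cs a 1 (g.1 v)) (v : V) :
    D.κ a (g.1 v) = D.κ a (g.1 (D.ι a' (D.κ a v))) := by
  have ha : a ≠ 0 := by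
    rintro rfl
    simp at haa'
  have e1 : D.cs a 1 (g.1 v) = D.cs a 1 (g.1 (D.ι a' (D.κ a v))) := by
    have h1 := h v
    have h2 := h (D.ι a' (D.κ a v))
    have h3 : D.cs a 1 (D.ι a' (D.κ a v)) = D.cs a 1 v := by
      rw [TD.cs_apply, TD.cs_apply, D.κι, haa', one_smul]
    rw [h3, h1] at h2
    exact smul_right_injective V hμ h2
  rw [TD.cs_apply, TD.cs_apply, Module.End.one_apply, Module.End.one_apply] at e1
  rw [← sub_eq_zero]
  apply D.ι_inj hω ha
  rw [map_sub, e1, sub_self]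

theorem comm_inv (hμ : μ ≠ 0) (h : ∀ v, g.1 (D.cs a 1 v) = μ • D.cs a 1 (g.1 v)) (v : V) :
    (g⁻¹).1 (D.cs a 1 v) = μ⁻¹ • D.cs a 1 ((g⁻¹).1 v) := by
  have h1 := h ((g⁻¹).1 v)
  rw [apply_inv] at h1
  have h2 := congrArg (fun x => (g⁻¹).1 x) h1
  simp only [inv_apply] at h2
  rw [h2, map_smul, inv_smul_smul₀ hμ]

theorem exists_NC (hω : Symp ω) (haa' : ω a a' = 1) (hμ : μ ≠ 0)
    (h : ∀ v, g.1 (D.cs a 1 v) = μ • D.cs a 1 (g.1 v)) : ∃ g₃, NC D a μ g g₃ := by
  have hinv := comm_inv hμ h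
  have k1 := κ_fact hω haa' hμ h
  have k2 := κ_fact (g := g⁻¹) hω haa' (inv_ne_zero hμ) hinv
  let g₃ : (Module.End F B)ˣ :=
    { val := D.κ a ∘ₗ g.1 ∘ₗ D.ι a'
      inv := D.κ a ∘ₗ (g⁻¹).1 ∘ₗ D.ι a'
      val_inv := by
        refine LinearMap.ext fun b => ?_
        rw [Module.End.mul_apply, Module.End.one_apply]
        simp only [LinearMap.comp_apply]
        rw [← k1, apply_inv, D.κι, haa', one_smul]
      inv_val := by
        refine LinearMap.ext fun b => ?_
        rw [Module.End.mul_apply, Module.End.one_apply]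
        simp only [LinearMap.comp_apply]
        rw [← k2, inv_apply, D.κι, haa', one_smul] }
  refine ⟨g₃, ?_, ?_⟩
  · intro b
    have h1 := h (D.ι a' b)
    rw [TD.cs_apply, TD.cs_apply, D.κι, haa', one_smul, Module.End.one_apply,
      Module.End.one_apply] at h1
    rw [h1, map_smul]
    rfl
  · intro v
    exact k1 v

theorem NC.inv {g₃ : (Module.End F B)ˣ} (hμ : μ ≠ 0) (h : NC D a μ g g₃) :
    NC D a μ⁻¹ g⁻¹ g₃⁻¹ := by
  refine ⟨fun b => ?_, fun v => ?_⟩
  · have h1 := h.gι (μ⁻¹ • (g₃⁻¹).1 b)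
    rw [map_smul g₃.1, apply_inv, smul_inv_smul₀ hμ] at h1
    rw [← h1, inv_apply]
  · have h1 := h.κg ((g⁻¹).1 v)
    rw [apply_inv] at h1
    rw [h1, inv_apply]

theorem NC.conj {g₃ : (Module.End F B)ˣ} (hμ : μ ≠ 0) (h : NC D a μ g g₃)
    {x : (Module.End F V)ˣ} (hx : InU D a x) : InU D a (g * x * g⁻¹) := by
  have hi := h.inv hμ
  refine ⟨fun b => ?_, fun v => ?_, fun v hv => ?_⟩
  · rw [mul_app, mul_app, hi.gι, hx.fix, ← hi.gι, apply_inv]
  · rw [mul_app, mul_app, h.κg, hx.kap, ← h.κg, apply_inv]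
  · obtain ⟨b, hb⟩ := hx.mid ((g⁻¹).1 v) (by rw [hi.κg, hv, map_zero])
    refine ⟨μ • g₃.1 b, ?_⟩
    rw [mul_app, mul_app, hb, map_add, apply_inv, h.gι]

theorem NC.iso {fB : LinearMap.BilinForm F B} {fV : LinearMap.BilinForm F V} (hω : Symp ω)
    (hf : D.Forms fB fV) (hg : ∀ v w, fV (g.1 v) (g.1 w) = fV v w) (haa' : ω a a' = 1)
    {g₃ : (Module.End F B)ˣ} (h : NC D a μ g g₃) (b b' : B) :
    μ * fB (g₃.1 b) (g₃.1 b') = fB b b' := by
  have h1 := hg (D.ι a b) (D.ι a' b')
  rw [h.gι, hf.adj, h.κg, hf.ιι, haa', one_mul, D.κι, haa', one_smul, map_smul, LinearMap.smul_apply,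
    smul_eq_mul] at h1
  exact h1

end

section Main

variable {D : TD ω B V} {a a' : Fin k → F} {μ : F} {g : (Module.End F V)ˣ}
  {fB : LinearMap.BilinForm F B} {fV : LinearMap.BilinForm F V} {M : Subgroup (Module.End F V)ˣ}
  {g₃ : (Module.End F B)ˣ}

/-- First information on `g ι n`. -/
theorem e3 (hω : Symp ω) (hM : GoodM hω D fB fV M) (hL : LayerC hω D M a) (haa' : ω a a' = 1)
    (hμ : μ ≠ 0) (hgM : g ∈ M) (h : NC D a μ g g₃) {n : Fin k → F} (hn : ω a n = 0) :
    ∃ n'', ω a n'' = 0 ∧ ∀ b, ∃ y, g.1 (D.ι n b) = D.ι n'' (g₃.1 b) + D.ι a y := by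
  have hxM : D.mapU hω (sg hω hn) 1 ∈ M := hM.sp _ (isoW_sg hω hn)
  obtain ⟨α, hα, hαa, hαe⟩ := hL _ (M.mul_mem (M.mul_mem hgM hxM) (M.inv_mem hgM))
    (h.conj hμ (inU_sg hω D hn))
  refine ⟨α.1 a' - a', ?_, fun b => ?_⟩
  · rw [map_sub, haa', ← haa', ← hα a a', hαa, sub_self]
  have hU : InU D a (D.mapU hω α 1) := by
    rw [← hαe]; exact h.conj hμ (inU_sg hω D hn)
  obtain ⟨y, hy⟩ := hU.mid (g.1 (D.ι a' b) - D.ι a' (g₃.1 b)) (by
    rw [map_sub, h.κg, D.κι, D.κι, haa', one_smul, one_smul, sub_self])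
  have h1 : (g * D.mapU hω (sg hω hn) 1 * g⁻¹).1 (g.1 (D.ι a' b)) =
      g.1 (D.ι a' b) + g.1 (D.ι n b) + D.ι a (μ • g₃.1 (ω n a' • b)) := by
    rw [mul_app, mul_app, inv_apply, mapU_sg_val, LinearMap.add_apply, LinearMap.add_apply,
      Module.End.one_apply, LinearMap.comp_apply, LinearMap.comp_apply, D.κι, D.κι, haa', one_smul, map_add,
      map_add, h.gι]
    abel
  rw [hαe] at h1
  have h2 : (D.mapU hω α 1).1 (g.1 (D.ι a' b)) = D.ι (α.1 a') (g₃.1 b) +
      (g.1 (D.ι a' b) - D.ι a' (g₃.1 b) + D.ι a y) := by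
    have h3 : D.ι (α.1 a') (g₃.1 b) = (D.mapU hω α 1).1 (D.ι a' (g₃.1 b)) := by
      rw [D.mapU_ι hω]; rfl
    rw [← hy, h3, ← map_add]
    congr 1
    abel
  refine ⟨y - μ • g₃.1 (ω n a' • b), ?_⟩
  rw [h2] at h1
  rw [map_sub, map_sub, LinearMap.sub_apply]
  have h3 := sub_eq_zero.2 h1
  rw [← sub_eq_zero, ← neg_eq_zero, ← h3]
  abel

theorem tv_fix (hω : Symp ω) {n : Fin k → F} (hn : ω n a = 0) (c : F) : (tv hω c n).1 a = a := by
  rw [tv_apply, hn, mul_zero, zero_smul, add_zero]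

theorem mapU_tv_apply (hω : Symp ω) (D : TD ω B V) (c : F) (u : Fin k → F) (v : V) :
    (D.mapU hω (tv hω c u) 1).1 v = v + D.ι u (c • D.κ u v) := by
  rw [mapU_tv_val, LinearMap.add_apply, Module.End.one_apply, TD.cs_apply, LinearMap.smul_apply,
    Module.End.one_apply]

/-- `g ι n = ι n̂ g₃`. -/
theorem e6 [Nontrivial B] (hω : Symp ω) (hf : D.Forms fB fV) (hM : GoodM hω D fB fV M)
    (hL : LayerC hω D M a) (haa' : ω a a' = 1)
    (hμ : μ ≠ 0) (hgM : g ∈ M) (h : NC D a μ g g₃) {n : Fin k → F} (hn : ω a n = 0) :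
    ∃ n'', ω a n'' = 0 ∧ ∀ b, g.1 (D.ι n b) = D.ι n'' (g₃.1 b) := by
  have ha : a ≠ 0 := by
    rintro rfl
    simp at haa'
  by_cases hna : ∃ c : F, n = c • a
  · obtain ⟨c, rfl⟩ := hna
    refine ⟨(c * μ) • a, by rw [map_smul, hω.alt, smul_zero], fun b => ?_⟩
    rw [map_smul, LinearMap.smul_apply, map_smul, h.gι, map_smul, map_smul, LinearMap.smul_apply, smul_smul]
  push Not at hna
  have hn0 : n ≠ 0 := fun h0 => hna 0 (by rw [h0, zero_smul])
  obtain ⟨n₂, hn₂, hy⟩ := e3 hω hM hL haa' hμ hgM h hn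
  have hn₂' : ω n₂ a = 0 := by rw [hω.skew, hn₂, neg_zero]
  have hn' : ω n a = 0 := by rw [hω.skew, hn, neg_zero]
  have hiso := hM.isom g hgM
  -- the contraction
  have hk : ∀ v, D.κ a v = 0 → D.κ n₂ (g.1 v) = μ • g₃.1 (D.κ n v) := by
    intro v hv
    rw [← sub_eq_zero]
    apply hf.ndr
    intro b₁
    obtain ⟨b, rfl⟩ : ∃ b, b₁ = g₃.1 b := ⟨(g₃⁻¹).1 b₁, (apply_inv _ _).symm⟩
    obtain ⟨y, hy⟩ := hy b
    have h1 := hiso (D.ι n b) v
    rw [hy, map_add, LinearMap.add_apply, hf.adj, hf.adj, hf.adj, h.κg, hv, map_zero, map_zero,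
      add_zero] at h1
    rw [map_sub, h1, ← h.iso hω hf hiso haa', map_smul, smul_eq_mul, sub_self]
  -- conjugate of the transvection
  set t := D.mapU hω (tv hω 1 n) 1 with ht
  have htM : t ∈ M := hM.sp _ (isoW_tv hω _ _)
  set t₂ := D.mapU hω (tv hω μ⁻¹ n₂) 1 with ht₂
  have ht₂M : t₂ ∈ M := hM.sp _ (isoW_tv hω _ _)
  have hi := h.inv hμ
  have kt₂ : ∀ v, D.κ a (t₂.1 v) = D.κ a v := fun v => by
    rw [ht₂, mapU_tv_apply, map_add, D.κι, hn₂, zero_smul, add_zero]
  have kt : ∀ v, D.κ a (t.1 v) = D.κ a v := fun v => by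
    rw [ht, mapU_tv_apply, map_add, D.κι, hn, zero_smul, add_zero]
  have hU : InU D a (g * t * g⁻¹ * t₂⁻¹) := by
    refine ⟨fun b => ?_, fun v => ?_, fun v hv => ?_⟩
    · have h1 : (t₂⁻¹).1 (D.ι a b) = D.ι a b := by
        have : t₂.1 (D.ι a b) = D.ι a b := by
          rw [ht₂, mapU_tv_apply, D.κι, hn₂', zero_smul, smul_zero, map_zero, add_zero]
        conv_lhs => rw [← this]
        rw [inv_apply]
      have h2 : ∀ b, t.1 (D.ι a b) = D.ι a b := fun b => by
        rw [ht, mapU_tv_apply, D.κι, hn', zero_smul, smul_zero, map_zero, add_zero]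
      rw [mul_app, h1, mul_app, mul_app, hi.gι, h2, ← hi.gι, apply_inv]
    · rw [mul_app, mul_app, mul_app, h.κg, kt, ← h.κg, apply_inv, ← kt₂, apply_inv]
    · have hu : D.κ a ((t₂⁻¹).1 v) = 0 := by rw [← kt₂, apply_inv, hv]
      have e1 : v = (t₂⁻¹).1 v + D.ι n₂ (μ⁻¹ • D.κ n₂ ((t₂⁻¹).1 v)) := by
        have e0 := mapU_tv_apply hω D μ⁻¹ n₂ ((t₂⁻¹).1 v)
        rw [← ht₂, apply_inv] at e0
        exact e0
      set u := (t₂⁻¹).1 v with hu'
      obtain ⟨y, hy⟩ := hy (D.κ n ((g⁻¹).1 u))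
      refine ⟨y, ?_⟩
      have e2 := hk ((g⁻¹).1 u) (by rw [hi.κg, hu, map_zero])
      rw [apply_inv] at e2
      rw [mul_app, mul_app, mul_app, ← hu', ht, mapU_tv_apply, map_add, apply_inv, one_smul, hy]
      conv_rhs => rw [e1]
      rw [e2, inv_smul_smul₀ hμ, add_assoc]
  obtain ⟨α, hα, hαa, hαe⟩ := hL _ (M.mul_mem (M.mul_mem (M.mul_mem hgM htM) (M.inv_mem hgM))
    (M.inv_mem ht₂M)) hU
  set γ := α * tv hω μ⁻¹ n₂ with hγ
  have hγi : IsoW ω γ := hα.mul (isoW_tv hω _ _)
  have hγe : g * t * g⁻¹ = D.mapU hω γ 1 := by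
    rw [mul_inv_eq_iff_eq_mul] at hαe
    rw [hαe, ht₂, D.mapU_mul, mul_one]
  -- the fixed vector
  obtain ⟨y₀, hy₀a, hy₀n⟩ : ∃ y, ω a y = 1 ∧ ω n y = 0 := by
    obtain ⟨u, hu1, hu2⟩ := hω.exists_sep (w := a) (w' := n) (fun c hc => by
      by_cases hc0 : c = 0
      · rw [hc0, zero_smul] at hc; exact ha hc
      · exact hna c⁻¹ (by rw [hc, inv_smul_smul₀ hc0])) trivial
    refine ⟨-u, ?_, ?_⟩
    · rw [map_neg, hω.skew, neg_neg, hu1]
    · rw [map_neg, hω.skew, neg_neg, hu2]
  obtain ⟨b₀, hb₀⟩ := exists_ne (0 : B)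
  have hb₁ : g₃.1 b₀ ≠ 0 := fun h0 => hb₀ (by rw [← inv_apply g₃ b₀, h0, map_zero])
  obtain ⟨ψ, hψ⟩ : ∃ ψ : B →ₗ[F] F, ψ (g₃.1 b₀) ≠ 0 := by
    by_contra hcon
    push Not at hcon
    exact hb₁ ((Module.forall_dual_apply_eq_zero_iff F _).1 hcon)
  set v := g.1 (D.ι y₀ b₀) with hv
  have hvfix : (D.mapU hω γ 1).1 v = v := by
    rw [← hγe, mul_app, mul_app, hv, inv_apply, ht, mapU_tv_apply, D.κι, hy₀n, zero_smul, smul_zero, map_zero,
      add_zero]
  have hκv : ∀ x, D.κ (γ.1 x) v = D.κ x v := fun x => by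
    conv_lhs => rw [← hvfix]
    rw [κ_mapU hω D hγi, Units.val_one, Module.End.one_apply]
  obtain ⟨u₀, hu₀⟩ := hω.exists_repr (ψ ∘ₗ (D.κ.flip v))
  have hu₀' : ∀ x, ω u₀ x = ψ (D.κ x v) := fun x => by rw [hu₀]; rfl
  have hu₀a : ω u₀ a ≠ 0 := by
    rw [hu₀', hv, h.κg, D.κι, hy₀a, one_smul]; exact hψ
  have hγu : γ.1 u₀ = u₀ := by
    rw [← sub_eq_zero]
    apply hω.nd
    intro x
    rw [← apply_inv γ x, map_sub, LinearMap.sub_apply, hγi, hu₀', hu₀', hκv, sub_self]
  have hγu' : (γ⁻¹).1 u₀ = u₀ := by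
    conv_lhs => rw [← hγu]
    rw [inv_apply]
  -- the conclusion
  obtain ⟨m, hm⟩ := hω.exists_pair hn0
  have hker : ∀ b, D.κ u₀ (g.1 (D.ι n b)) = 0 := by
    intro b
    have h1 : (D.mapU hω γ 1).1 (g.1 (D.ι m b)) = g.1 (D.ι m b) + g.1 (D.ι n b) := by
      rw [← hγe, mul_app, mul_app, inv_apply, ht, mapU_tv_apply, D.κι, hm, one_smul, one_smul, map_add]
    have h2 := κ_mapU' hω D hγi 1 u₀ (g.1 (D.ι m b))
    rw [h1, hγu', map_add, Units.val_one, Module.End.one_apply, add_eq_left] at h2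
    exact h2
  refine ⟨n₂ - ((ω u₀ a)⁻¹ * ω u₀ n₂) • a, ?_, fun b => ?_⟩
  · rw [map_sub, hn₂, map_smul, hω.alt, smul_zero, sub_zero]
  · obtain ⟨y, hy⟩ := hy b
    have h1 := hker b
    rw [hy, map_add, D.κι, D.κι] at h1
    have h2 : y = -(((ω u₀ a)⁻¹ * ω u₀ n₂) • g₃.1 b) := by
      rw [mul_smul, ← smul_neg, ← eq_neg_of_add_eq_zero_right h1, inv_smul_smul₀ hu₀a]
    rw [hy, h2, map_sub, LinearMap.sub_apply, map_neg, map_smul, map_smul, LinearMap.smul_apply,
      sub_eq_add_neg]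

theorem alpha_of_choice [Nontrivial B] (hω : Symp ω) {T : Module.End F V} (g₃ : (Module.End F B)ˣ)
    (h : ∀ w, ∃ w', ∀ b, T (D.ι w b) = D.ι w' (g₃.1 b)) :
    ∃ α : Module.End F (Fin k → F), ∀ w b, T (D.ι w b) = D.ι (α w) (g₃.1 b) := by
  choose α hα using h
  obtain ⟨b₀, hb₀⟩ := exists_ne (0 : B)
  have hb₁ : g₃.1 b₀ ≠ 0 := fun h0 => hb₀ (by rw [← inv_apply g₃ b₀, h0, map_zero])
  have huniq : ∀ x y, D.ι x (g₃.1 b₀) = D.ι y (g₃.1 b₀) → x = y := by
    intro x y hxy
    by_contra hne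
    apply hb₁
    apply D.ι_inj hω (sub_ne_zero.2 hne)
    rw [map_sub, LinearMap.sub_apply, hxy, sub_self]
  refine ⟨{ toFun := α, map_add' := fun x y => ?_, map_smul' := fun c x => ?_ }, hα⟩
  · apply huniq
    rw [← hα, map_add, map_add, LinearMap.add_apply, LinearMap.add_apply, map_add, hα, hα]
  · apply huniq
    rw [← hα, RingHom.id_apply, map_smul, map_smul, LinearMap.smul_apply, LinearMap.smul_apply, map_smul, hα]

/-- `g = (α ⊗ g₃) (1 + c_a ⊗ s)`. -/
theorem e7 [Nontrivial B] (hω : Symp ω) (hf : D.Forms fB fV) (hM : GoodM hω D fB fV M)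
    (hL : LayerC hω D M a) (haa' : ω a a' = 1)
    (hμ : μ ≠ 0) (hgM : g ∈ M) (h : NC D a μ g g₃) :
    ∃ (α : (Module.End F (Fin k → F))ˣ) (h' : (Module.End F V)ˣ) (s : Module.End F B),
      (∀ u v, ω (α.1 u) (α.1 v) = μ * ω u v) ∧ α.1 a = μ • a ∧ h'.1 = 1 + D.cs a s ∧
      g = D.mapU hω α g₃ * h' := by
  have ha : a ≠ 0 := by
    rintro rfl
    simp at haa'
  have ha'a : ω a' a = -1 := by rw [hω.skew, haa']
  have hiso := hM.isom g hgM
  have h6 := fun n hn => e6 hω hf hM hL haa' hμ hgM h (n := n) hn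
  have h6' : ∀ m, ω a m = 0 → ∃ n, ω a n = 0 ∧ ∀ b, g.1 (D.ι n b) = D.ι m (g₃.1 b) := by
    intro m hm
    obtain ⟨n, hn, hn'⟩ := e6 hω hf hM hL haa' (inv_ne_zero hμ) (M.inv_mem hgM) (h.inv hμ) (n := m) hm
    refine ⟨n, hn, fun b => ?_⟩
    have h1 := hn' (g₃.1 b)
    rw [inv_apply] at h1
    rw [← h1, apply_inv]
  obtain ⟨b₀, hb₀⟩ := exists_ne (0 : B)
  have hb₁ : g₃.1 b₀ ≠ 0 := fun h0 => hb₀ (by rw [← inv_apply g₃ b₀, h0, map_zero])
  obtain ⟨ψ, hψ⟩ : ∃ ψ : B →ₗ[F] F, ψ (g₃.1 b₀) = 1 := by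
    obtain ⟨ψ, hψ⟩ : ∃ ψ : B →ₗ[F] F, ψ (g₃.1 b₀) ≠ 0 := by
      by_contra hcon
      push Not at hcon
      exact hb₁ ((Module.forall_dual_apply_eq_zero_iff F _).1 hcon)
    exact ⟨(ψ (g₃.1 b₀))⁻¹ • ψ, by rw [LinearMap.smul_apply, smul_eq_mul, inv_mul_cancel₀ hψ]⟩
  set r : Module.End F B := D.κ a' ∘ₗ g.1 ∘ₗ D.ι a' with hr
  obtain ⟨T, hT⟩ : ∃ T : Module.End F V, T = g.1 + D.ι a ∘ₗ r ∘ₗ D.κ a := ⟨_, rfl⟩
  -- contractions of `g ι a'`
  have hcon : ∀ u n, ω a u = 0 → ω a n = 0 → (∀ b, g.1 (D.ι n b) = D.ι u (g₃.1 b)) → ∀ b,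
      D.κ u (g.1 (D.ι a' b)) = (μ * ω n a') • g₃.1 b := by
    intro u n hu hn hn' b
    rw [← sub_eq_zero]
    apply hf.ndr
    intro b₁
    obtain ⟨b', rfl⟩ : ∃ b, b₁ = g₃.1 b := ⟨(g₃⁻¹).1 b₁, (apply_inv _ _).symm⟩
    have h1 := hiso (D.ι n b') (D.ι a' b)
    rw [hn', hf.adj, hf.ιι] at h1
    have h0 := h.iso hω hf hiso haa' b' b
    rw [map_sub, h1, map_smul, smul_eq_mul, ← h0]
    ring
  have hTn : ∀ n, ω a n = 0 → ∀ b, T (D.ι n b) = g.1 (D.ι n b) := by
    intro n hn b
    rw [hT, LinearMap.add_apply, LinearMap.comp_apply, LinearMap.comp_apply, D.κι, hn, zero_smul, map_zero,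
      map_zero, add_zero]
  have hTa' : ∀ b, T (D.ι a' b) = g.1 (D.ι a' b) + D.ι a (r b) := by
    intro b
    rw [hT, LinearMap.add_apply, LinearMap.comp_apply, LinearMap.comp_apply, D.κι, haa', one_smul]
  have hsc : ∀ u, ∃ θ : F, ∀ b, D.κ u (T (D.ι a' b)) = θ • g₃.1 b := by
    intro u
    set u' := u - ω a u • a' with hu'
    have hau' : ω a u' = 0 := by rw [hu', map_sub, map_smul, haa', smul_eq_mul, mul_one, sub_self]
    obtain ⟨n, hn, hn'⟩ := h6' u' hau'
    refine ⟨μ * ω n a', fun b => ?_⟩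
    have e1 : u = u' + ω a u • a' := by rw [hu']; abel
    have hu'a : ω u' a = 0 := by rw [hω.skew, hau', neg_zero]
    have e2 := hcon u' n hau' hn hn' b
    have e3 : r b = D.κ a' (g.1 (D.ι a' b)) := rfl
    have e4 : D.κ u (T (D.ι a' b)) = D.κ u' (T (D.ι a' b)) + ω a u • D.κ a' (T (D.ι a' b)) := by
      conv_lhs => rw [e1]
      rw [map_add, LinearMap.add_apply, map_smul, LinearMap.smul_apply]
    rw [e4, hTa', map_add, map_add, e2, D.κι, hu'a, zero_smul, add_zero, D.κι, ha'a, e3, neg_smul, one_smul,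
      add_neg_cancel, smul_zero, add_zero]
  obtain ⟨α, hα⟩ := alpha_of_choice (D := D) (T := T) hω g₃ (by
    intro w
    -- image of `a'`
    obtain ⟨x, hx⟩ := hω.exists_repr (ψ ∘ₗ (D.κ.flip (T (D.ι a' b₀))))
    have hx' : ∀ u, ω x u = ψ (D.κ u (T (D.ι a' b₀))) := fun u => by rw [hx]; rfl
    have hxa' : ∀ b, T (D.ι a' b) = D.ι (-x) (g₃.1 b) := by
      intro b
      rw [← sub_eq_zero]
      apply D.inj
      intro u
      obtain ⟨θ, hθ⟩ := hsc u
      rw [map_sub, hθ, D.κι, map_neg, ← hω.skew, hx', hθ, map_smul, hψ, smul_eq_mul, mul_one, sub_self]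
    set n := w - ω a w • a' with hn
    have han : ω a n = 0 := by rw [hn, map_sub, map_smul, haa', smul_eq_mul, mul_one, sub_self]
    obtain ⟨m, hm, hm'⟩ := h6 n han
    refine ⟨m + ω a w • (-x), fun b => ?_⟩
    have e1 : w = n + ω a w • a' := by rw [hn]; abel
    conv_lhs => rw [e1]
    rw [map_add, LinearMap.add_apply, map_add, hTn n han, hm', map_smul, LinearMap.smul_apply, map_smul, hxa',
      map_add, LinearMap.add_apply, map_smul, LinearMap.smul_apply])
  have hαu : ∀ x y, D.ι x (g₃.1 b₀) = D.ι y (g₃.1 b₀) → x = y := by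
    intro x y hxy
    by_contra hne
    apply hb₁
    apply D.ι_inj hω (sub_ne_zero.2 hne)
    rw [map_sub, LinearMap.sub_apply, hxy, sub_self]
  have hαn : ∀ n, ω a n = 0 → ∀ b, g.1 (D.ι n b) = D.ι (α n) (g₃.1 b) := fun n hn b => by
    rw [← hTn n hn, hα]
  have haα : ∀ n, ω a n = 0 → ω a (α n) = 0 := by
    intro n hn
    have h1 := h.κg (D.ι n b₀)
    rw [hαn n hn, D.κι, D.κι, hn, zero_smul, map_zero] at h1
    by_contra hne
    exact hb₁ ((smul_eq_zero.1 h1).resolve_left hne)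
  have hαa : α a = μ • a := by
    apply hαu
    rw [← hαn a (hω.alt a), h.gι, map_smul, map_smul, LinearMap.smul_apply]
  have hαnn : ∀ n n', ω a n = 0 → ω a n' = 0 → ω (α n) (α n') = μ * ω n n' := by
    intro n n' hn hn'
    obtain ⟨b', hb'⟩ : ∃ b', fB b₀ b' ≠ 0 := by
      by_contra hc
      push Not at hc
      exact hb₀ (hf.ndl _ hc)
    have h1 := hiso (D.ι n b₀) (D.ι n' b')
    rw [hαn n hn, hαn n' hn', hf.ιι, hf.ιι] at h1
    have h2 := h.iso hω hf hiso haa' b₀ b'
    rw [← h2] at h1 hb'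
    have h3 : fB (g₃.1 b₀) (g₃.1 b') ≠ 0 := right_ne_zero_of_mul hb'
    apply mul_right_cancel₀ h3
    rw [h1]; ring
  have hαna' : ∀ n, ω a n = 0 → ω (α n) (α a') = μ * ω n a' := by
    intro n hn
    have h1 := hcon (α n) n (haα n hn) hn (hαn n hn) b₀
    have h2 : D.κ (α n) (T (D.ι a' b₀)) = D.κ (α n) (g.1 (D.ι a' b₀)) := by
      rw [hTa', map_add, D.κι, hω.skew (α n) a, haα n hn, neg_zero, zero_smul, add_zero]
    rw [← h2, hα, D.κι] at h1
    exact smul_left_injective F hb₁ h1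
  have hsim : ∀ u v, ω (α u) (α v) = μ * ω u v := by
    intro u v
    set n := u - ω a u • a' with hn
    set n' := v - ω a v • a' with hn'
    have han : ω a n = 0 := by rw [hn, map_sub, map_smul, haa', smul_eq_mul, mul_one, sub_self]
    have han' : ω a n' = 0 := by rw [hn', map_sub, map_smul, haa', smul_eq_mul, mul_one, sub_self]
    have e1 : u = n + ω a u • a' := by rw [hn]; abel
    have e2 : v = n' + ω a v • a' := by rw [hn']; abel
    have e3 : ω (α a') (α n') = μ * ω a' n' := by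
      rw [hω.skew, hαna' n' han', hω.skew a' n']; ring
    rw [e1, e2]
    simp only [map_add, map_smul, LinearMap.add_apply, LinearMap.smul_apply, smul_eq_mul, hαnn n n' han han',
      hαna' n han, e3, hω.alt]
    ring
  have hinj : Function.Injective α := by
    rw [← LinearMap.ker_eq_bot, LinearMap.ker_eq_bot']
    intro u hu
    apply hω.nd
    intro v
    have h1 := hsim u v
    rw [hu, map_zero, LinearMap.zero_apply] at h1
    exact (mul_eq_zero.1 h1.symm).resolve_left hμ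
  have hunit : IsUnit α := (LinearMap.isUnit_iff_ker_eq_bot α).2 (LinearMap.ker_eq_bot.2 hinj)
  obtain ⟨αu, hαu'⟩ := hunit
  subst hαu'
  set A := D.mapU hω αu g₃ with hA
  have hAT : A.1 = T := by
    refine D.ext hω fun w b => ?_
    rw [hA, D.mapU_ι, hα]
  have hAa : ∀ b, (A⁻¹).1 (D.ι a b) = D.ι a (μ⁻¹ • (g₃⁻¹).1 b) := by
    intro b
    have h1 : A.1 (D.ι a (μ⁻¹ • (g₃⁻¹).1 b)) = D.ι a b := by
      rw [hA, D.mapU_ι, hαa, map_smul g₃.1, apply_inv, map_smul, map_smul, LinearMap.smul_apply, smul_smul,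
        inv_mul_cancel₀ hμ, one_smul]
    rw [← h1, inv_apply]
  refine ⟨αu, A⁻¹ * g, -(μ⁻¹ • ((g₃⁻¹).1 * r)), hsim, hαa, ?_, by rw [mul_inv_cancel_left]⟩
  refine LinearMap.ext fun v => ?_
  have h1 : g.1 v = A.1 v - D.ι a (r (D.κ a v)) := by
    rw [hAT, hT, LinearMap.add_apply, LinearMap.comp_apply, LinearMap.comp_apply, add_sub_cancel_right]
  rw [mul_app, h1, map_sub, inv_apply, hAa, LinearMap.add_apply, Module.End.one_apply, TD.cs_apply,
    LinearMap.neg_apply, map_neg, LinearMap.smul_apply, Module.End.mul_apply, sub_eq_add_neg]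

/-- A condition on `F` and `k` which allows to isolate a single root element. -/
def FieldOK (ω : LinearMap.BilinForm F (Fin k → F)) : Prop :=
  (∃ ζ : F, ζ ≠ 0 ∧ ζ ^ 2 ≠ 1) ∨
  ((2 : F) ≠ 0 ∧ ∃ u n : Fin k → F, ω u n = 0 ∧ u ≠ 0 ∧ n ≠ 0 ∧ n + u ≠ 0 ∧ n - u ≠ 0) ∨
  ((2 : F) = 0 ∧ ∃ u v w : Fin k → F, ω u v = 0 ∧ ω u w = 0 ∧ ω v w = 0 ∧ u ≠ 0 ∧ v ≠ 0 ∧ w ≠ 0 ∧
    u + v ≠ 0 ∧ u + w ≠ 0 ∧ v + w ≠ 0 ∧ u + v + w ≠ 0)

theorem cs_mul_cs (D : TD ω B V) (u u' : Fin k → F) (s s' : Module.End F B) :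
    D.cs u s * D.cs u' s' = ω u u' • (D.ι u ∘ₗ (s * s') ∘ₗ D.κ u') := by
  refine LinearMap.ext fun v => ?_
  rw [Module.End.mul_apply, TD.cs_apply, TD.cs_apply, D.κι, map_smul, map_smul]
  rfl

theorem cs_smul_vec (D : TD ω B V) (c : F) (u : Fin k → F) (s : Module.End F B) :
    D.cs (c • u) s = c ^ 2 • D.cs u s := by
  refine LinearMap.ext fun v => ?_
  rw [LinearMap.smul_apply, TD.cs_apply, TD.cs_apply, map_smul, map_smul, LinearMap.smul_apply, LinearMap.smul_apply,
    map_smul, map_smul, smul_smul, pow_two]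

theorem cs_add_vec (D : TD ω B V) (u u' : Fin k → F) (s : Module.End F B) :
    D.cs (u + u') s = D.cs u s + D.cs u' s + (D.ι u ∘ₗ s ∘ₗ D.κ u' + D.ι u' ∘ₗ s ∘ₗ D.κ u) := by
  refine LinearMap.ext fun v => ?_
  simp only [TD.cs_apply, LinearMap.add_apply, LinearMap.comp_apply, map_add]
  abel

/-- Isolating a single element. -/
theorem e8 (hω : Symp ω) (hM : GoodM hω D fB fV M) (hF : FieldOK ω) (ha : a ≠ 0) (s : Module.End F B)
    (hP : ∀ u u' : Fin k → F, u ≠ 0 → u' ≠ 0 → ∃ x ∈ M, x.1 = (1 + D.cs u s) * (1 - D.cs u' s)) :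
    ∃ τ : F, s = τ • 1 := by
  have hzero : ∀ u u' : Fin k → F, ω u u' = 0 → D.cs u s * D.cs u' s = 0 := fun u u' h => by
    rw [cs_mul_cs, h, zero_smul]
  have hP' : ∀ u u' : Fin k → F, u ≠ 0 → u' ≠ 0 → ω u u' = 0 →
      ∃ x ∈ M, x.1 = 1 + (D.cs u s - D.cs u' s) := by
    intro u u' hu hu' huu'
    obtain ⟨x, hx, hx'⟩ := hP u u' hu hu'
    refine ⟨x, hx, ?_⟩
    rw [hx', add_mul, mul_sub, mul_sub, hzero _ _ huu']
    simp only [mul_one, one_mul, sub_zero]
    abel
  rcases hF with ⟨ζ, hζ0, hζ1⟩ | ⟨h2, u, n, hun, hu, hn, hnu, hnu'⟩ | ⟨h2, u, v, w, huv, huw, hvw, hu, hv, hw,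
      huv', huw', hvw', huvw⟩
  · obtain ⟨x, hx, hx'⟩ := hP' a (ζ • a) ha (smul_ne_zero hζ0 ha) (by rw [map_smul, hω.alt, smul_zero])
    rw [cs_smul_vec] at hx'
    have e : D.cs a s - ζ ^ 2 • D.cs a s = D.cs a ((1 - ζ ^ 2) • s) := by
      refine LinearMap.ext fun v => ?_
      simp only [TD.cs_apply, LinearMap.sub_apply, LinearMap.smul_apply, map_smul, sub_smul, one_smul, map_sub]
    rw [e] at hx'
    obtain ⟨τ, hτ⟩ := hM.caseI a ha _ x hx hx'
    refine ⟨(1 - ζ ^ 2)⁻¹ * τ, ?_⟩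
    rw [mul_smul, ← hτ, inv_smul_smul₀ (sub_ne_zero.2 (Ne.symm hζ1))]
  · have hnu0 : ω n u = 0 := by rw [hω.skew, hun, neg_zero]
    obtain ⟨x, hx, hx'⟩ := hP' (n + u) n hnu hn (by
      simp only [map_add, LinearMap.add_apply, hω.alt, hun, hnu0, add_zero])
    obtain ⟨y, hy, hy'⟩ := hP' (n - u) n hnu' hn (by
      simp only [map_sub, LinearMap.sub_apply, hω.alt, hun, hnu0, sub_zero])
    have hadd := cs_add_vec D n u s
    have hsub := cs_add_vec D n (-u) s
    rw [← sub_eq_add_neg] at hsub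
    have hneg : D.cs (-u) s = D.cs u s := by
      have := cs_smul_vec D (-1) u s
      rwa [neg_one_smul, neg_one_sq, one_smul] at this
    have e : x.1 * y.1 = 1 + D.cs u ((2 : F) • s) := by
      have e1 : D.cs u ((2 : F) • s) = D.cs u s + D.cs u s := by
        refine LinearMap.ext fun v => ?_
        simp only [TD.cs_apply, LinearMap.add_apply, two_smul, map_add]
      have e2 : D.ι n ∘ₗ s ∘ₗ D.κ (-u) + D.ι (-u) ∘ₗ s ∘ₗ D.κ n =
          -(D.ι n ∘ₗ s ∘ₗ D.κ u + D.ι u ∘ₗ s ∘ₗ D.κ n) := by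
        refine LinearMap.ext fun v => ?_
        simp only [LinearMap.add_apply, LinearMap.comp_apply, map_neg, LinearMap.neg_apply, neg_add_rev]
        abel
      rw [hneg, e2] at hsub
      have z1 : D.cs (n + u) s * D.cs (n - u) s = 0 := hzero _ _ (by
        simp only [map_add, map_sub, LinearMap.add_apply, LinearMap.sub_apply, hω.alt, hun, hnu0]; ring)
      have z2 : D.cs (n + u) s * D.cs n s = 0 := hzero _ _ (by
        simp only [map_add, LinearMap.add_apply, hω.alt, hun]; ring)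
      have z3 : D.cs n s * D.cs (n - u) s = 0 := hzero _ _ (by
        simp only [map_sub, hω.alt, hnu0]; ring)
      have z4 : D.cs n s * D.cs n s = 0 := hzero _ _ (hω.alt n)
      rw [hx', hy', e1]
      simp only [add_mul, mul_add, sub_mul, mul_sub, z1, z2, z3, z4, one_mul, mul_one, sub_zero, add_zero]
      rw [hadd, hsub]
      abel
    obtain ⟨τ, hτ⟩ := hM.caseI u hu _ (x * y) (M.mul_mem hx hy) (by rw [Units.val_mul, e])
    exact ⟨2⁻¹ * τ, by rw [mul_smul, ← hτ, inv_smul_smul₀ h2]⟩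
  · have hvu : ω v u = 0 := by rw [hω.skew, huv, neg_zero]
    have hwu : ω w u = 0 := by rw [hω.skew, huw, neg_zero]
    have hwv : ω w v = 0 := by rw [hω.skew, hvw, neg_zero]
    have hT : ∀ x : Module.End F V, x + x = 0 := fun x => by
      rw [← two_smul F x, h2, zero_smul]
    have hneg : ∀ x : Module.End F V, -x = x := fun x => neg_eq_of_add_eq_zero_left (hT x)
    obtain ⟨x, hx, hx'⟩ := hP' u v hu hv huv
    obtain ⟨y, hy, hy'⟩ := hP' w (u + v) hw huv' (by
      simp only [map_add, hwu, hwv, add_zero])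
    obtain ⟨z, hz, hz'⟩ := hP' (u + w) (v + w) huw' hvw' (by
      simp only [map_add, LinearMap.add_apply, huv, huw, hwv, hω.alt, add_zero])
    have p1 := cs_add_vec D u v s
    have p2 := cs_add_vec D u w s
    have p3 := cs_add_vec D v w s
    have p4 := cs_add_vec D (u + v) w s
    have p5 : D.ι (u + v) ∘ₗ s ∘ₗ D.κ w + D.ι w ∘ₗ s ∘ₗ D.κ (u + v) =
        (D.ι u ∘ₗ s ∘ₗ D.κ w + D.ι w ∘ₗ s ∘ₗ D.κ u) + (D.ι v ∘ₗ s ∘ₗ D.κ w + D.ι w ∘ₗ s ∘ₗ D.κ v) := by
      refine LinearMap.ext fun v => ?_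
      simp only [LinearMap.add_apply, LinearMap.comp_apply, map_add]
      abel
    rw [p5] at p4
    have q1 : ∀ c d c' d' : Module.End F V, c * c' = 0 → c * d' = 0 → d * c' = 0 → d * d' = 0 →
        (1 + (c - d)) * (1 + (c' - d')) = 1 + ((c + c') - (d + d')) := by
      intro c d c' d' h1 h2 h3 h4
      simp only [add_mul, mul_add, sub_mul, mul_sub, h1, h2, h3, h4, one_mul, mul_one, sub_zero, add_zero]
      abel
    have hxy : x.1 * y.1 = 1 + ((D.cs u s + D.cs w s) - (D.cs v s + D.cs (u + v) s)) := by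
      rw [hx', hy']
      apply q1
      · exact hzero _ _ huw
      · exact hzero _ _ (by simp only [map_add, huv, hω.alt, add_zero])
      · exact hzero _ _ hvw
      · exact hzero _ _ (by simp only [map_add, hvu, hω.alt, add_zero])
    have hxyz : x.1 * y.1 * z.1 = 1 + ((D.cs u s + D.cs w s + D.cs (u + w) s) -
        (D.cs v s + D.cs (u + v) s + D.cs (v + w) s)) := by
      rw [hxy, hz']
      apply q1
      · rw [add_mul, hzero _ _ (show ω u (u + w) = 0 by simp only [map_add, huw, hω.alt, add_zero]),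
          hzero _ _ (show ω w (u + w) = 0 by simp only [map_add, hwu, hω.alt, add_zero]), add_zero]
      · rw [add_mul, hzero _ _ (show ω u (v + w) = 0 by simp only [map_add, huw, huv, add_zero]),
          hzero _ _ (show ω w (v + w) = 0 by simp only [map_add, hwv, hω.alt, add_zero]), add_zero]
      · rw [add_mul, hzero _ _ (show ω v (u + w) = 0 by simp only [map_add, hvw, hvu, add_zero]),
          hzero _ _ (show ω (u + v) (u + w) = 0 by
            simp only [map_add, LinearMap.add_apply, huw, hvw, hvu, hω.alt, add_zero]), add_zero]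
      · rw [add_mul, hzero _ _ (show ω v (v + w) = 0 by simp only [map_add, hvw, hω.alt, add_zero]),
          hzero _ _ (show ω (u + v) (v + w) = 0 by
            simp only [map_add, LinearMap.add_apply, huw, huv, hvw, hω.alt, add_zero]), add_zero]
    have hfin : x.1 * y.1 * z.1 = 1 + D.cs (u + v + w) s := by
      rw [hxyz, p4, p1, p2, p3]
      set A := D.cs u s
      set B' := D.cs v s
      set C := D.cs w s
      set P := D.ι u ∘ₗ s ∘ₗ D.κ v + D.ι v ∘ₗ s ∘ₗ D.κ u
      set Q := D.ι u ∘ₗ s ∘ₗ D.κ w + D.ι w ∘ₗ s ∘ₗ D.κ u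
      set R := D.ι v ∘ₗ s ∘ₗ D.κ w + D.ι w ∘ₗ s ∘ₗ D.κ v
      rw [sub_eq_add_neg, hneg]
      have e : A + C + (A + C + Q) + (B' + (A + B' + P) + (B' + C + R)) =
          A + B' + P + C + (Q + R) + (A + A) + (B' + B') + (C + C) := by abel
      rw [e, hT, hT, hT]
      abel
    obtain ⟨τ, hτ⟩ := hM.caseI _ huvw _ (x * y * z) (M.mul_mem (M.mul_mem hx hy) hz) (by
      rw [Units.val_mul, Units.val_mul, hfin])
    exact ⟨τ, hτ⟩

/-- **Step 1.** An element of `M` normalising a root group is decomposable. -/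
theorem step1 [Nontrivial B] (hω : Symp ω) (hf : D.Forms fB fV) (hM : GoodM hω D fB fV M)
    (hL : LayerC hω D M a) (hF : FieldOK ω) (ha : a ≠ 0) (hμ : μ ≠ 0) (hgM : g ∈ M)
    (hg : ∀ v, g.1 (D.cs a 1 v) = μ • D.cs a 1 (g.1 v)) :
    ∃ (α : (Module.End F (Fin k → F))ˣ) (β : (Module.End F B)ˣ),
      (∀ u v, ω (α.1 u) (α.1 v) = μ * ω u v) ∧ g = D.mapU hω α β := by
  obtain ⟨a', haa'⟩ := hω.exists_pair ha
  obtain ⟨g₃, h⟩ := exists_NC hω haa' hμ hg
  obtain ⟨α, x, s, hα, hαa, hx, hgx⟩ := e7 hω hf hM hL haa' hμ hgM h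
  set A := D.mapU hω α g₃ with hA
  -- contraction
  have hκA : ∀ u v, D.κ (α.1 u) (A.1 v) = μ • g₃.1 (D.κ u v) := by
    intro u v
    have h1 : D.κ (α.1 u) ∘ₗ A.1 = μ • (g₃.1 ∘ₗ D.κ u) := by
      refine D.ext hω fun w b => ?_
      rw [LinearMap.comp_apply, LinearMap.smul_apply, LinearMap.comp_apply, hA, D.mapU_ι, D.κι, D.κι, hα,
        map_smul, smul_smul]
    exact LinearMap.congr_fun h1 v
  have hκA' : ∀ u v, D.κ u ((A⁻¹).1 v) = μ⁻¹ • (g₃⁻¹).1 (D.κ (α.1 u) v) := by
    intro u v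
    have h1 := hκA u ((A⁻¹).1 v)
    rw [apply_inv] at h1
    rw [h1, map_smul, inv_apply, inv_smul_smul₀ hμ]
  set s' : Module.End F B := μ⁻¹ • (g₃.1 * s * (g₃⁻¹).1) with hs'
  have hAcs : ∀ u, A.1 * D.cs u s * (A⁻¹).1 = D.cs (α.1 u) s' := by
    intro u
    refine LinearMap.ext fun v => ?_
    rw [Module.End.mul_apply, Module.End.mul_apply, TD.cs_apply, hκA', hA, D.mapU_ι, TD.cs_apply, hs',
      LinearMap.smul_apply, Module.End.mul_apply, Module.End.mul_apply, map_smul, map_smul]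
  have hcs : ∀ (δ : (Module.End F (Fin k → F))ˣ), IsoW ω δ → ∀ u (s : Module.End F B),
      (D.mapU hω δ 1).1 * D.cs u s * ((D.mapU hω δ 1)⁻¹).1 = D.cs (δ.1 u) s := by
    intro δ hδ u s
    refine LinearMap.ext fun v => ?_
    rw [Module.End.mul_apply, Module.End.mul_apply, TD.cs_apply, D.mapU_inv hω, κ_mapU' hω D hδ.inv, inv_inv,
      inv_one, Units.val_one, Module.End.one_apply, D.mapU_ι, TD.cs_apply]
    rfl
  have hxinv : (x⁻¹).1 = 1 - D.cs a s := by
    have h1 : x.1 * (1 - D.cs a s) = 1 := by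
      rw [hx, add_mul, mul_sub, mul_sub, cs_mul_cs, hω.alt, zero_smul]
      simp
    have h2 : x⁻¹ = x⁻¹ * 1 := (mul_one _).symm
    calc (x⁻¹).1 = (x⁻¹).1 * (x.1 * (1 - D.cs a s)) := by rw [h1, mul_one]
      _ = 1 - D.cs a s := by rw [← mul_assoc, ← Units.val_mul, inv_mul_cancel, Units.val_one, one_mul]
  -- the elements `(1 + c_u s') (1 - c_u' s')`
  have hP0 : ∀ u', u' ≠ 0 → ∃ y ∈ M, y.1 = (1 + D.cs (α.1 a) s') * (1 - D.cs u' s') := by
    intro u' hu'
    have hu₁ : (α⁻¹).1 u' ≠ 0 := fun h0 => hu' (by rw [← apply_inv α u', h0, map_zero])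
    obtain ⟨γ, hγ, hγa⟩ := exists_iso_of_ne hω ha hu₁
    have hγ' : IsoW ω (α * γ * α⁻¹) := by
      intro u v
      have h1 : ∀ u v, ω ((α⁻¹).1 u) ((α⁻¹).1 v) = μ⁻¹ * ω u v := by
        intro u v
        have := hα ((α⁻¹).1 u) ((α⁻¹).1 v)
        rw [apply_inv, apply_inv] at this
        rw [this, inv_mul_cancel_left₀ hμ]
      rw [mul_app, mul_app, mul_app, mul_app, hα, hγ, h1, mul_inv_cancel_left₀ hμ]
    refine ⟨g * D.mapU hω γ 1 * g⁻¹ * (D.mapU hω (α * γ * α⁻¹) 1)⁻¹,
      M.mul_mem (M.mul_mem (M.mul_mem hgM (hM.sp _ hγ)) (M.inv_mem hgM)) (M.inv_mem (hM.sp _ hγ')), ?_⟩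
    have e1 : g * D.mapU hω γ 1 * g⁻¹ * (D.mapU hω (α * γ * α⁻¹) 1)⁻¹ =
        (A * x * A⁻¹) * (A * ((D.mapU hω γ 1) * x⁻¹ * (D.mapU hω γ 1)⁻¹) * A⁻¹) := by
      have e2 : (D.mapU hω (α * γ * α⁻¹) 1)⁻¹ = A * (D.mapU hω γ 1)⁻¹ * A⁻¹ := by
        rw [hA, D.mapU_inv hω, D.mapU_inv hω, D.mapU_inv hω, D.mapU_mul, D.mapU_mul]
        congr 1 <;> group
      rw [e2, hgx]
      group
    rw [e1, Units.val_mul]
    congr 1
    · rw [Units.val_mul, Units.val_mul, hx, mul_add, add_mul, mul_one, hAcs, ← Units.val_mul, mul_inv_cancel,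
        Units.val_one]
    · rw [Units.val_mul, Units.val_mul, Units.val_mul, Units.val_mul, hxinv, mul_sub, sub_mul, mul_one, hcs γ hγ,
        ← Units.val_mul, mul_inv_cancel, Units.val_one, mul_sub, sub_mul, mul_one, hAcs, ← Units.val_mul,
        mul_inv_cancel, Units.val_one, hγa, apply_inv]
  have hαa0 : α.1 a ≠ 0 := by rw [hαa]; exact smul_ne_zero hμ ha
  have hP : ∀ u u' : Fin k → F, u ≠ 0 → u' ≠ 0 →
      ∃ y ∈ M, y.1 = (1 + D.cs u s') * (1 - D.cs u' s') := by
    intro u u' hu hu'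
    obtain ⟨δ, hδ, hδa⟩ := exists_iso_of_ne hω hαa0 hu
    have hu₁ : (δ⁻¹).1 u' ≠ 0 := fun h0 => hu' (by rw [← apply_inv δ u', h0, map_zero])
    obtain ⟨y, hy, hy'⟩ := hP0 _ hu₁
    refine ⟨D.mapU hω δ 1 * y * (D.mapU hω δ 1)⁻¹, M.mul_mem (M.mul_mem (hM.sp _ hδ) hy)
      (M.inv_mem (hM.sp _ hδ)), ?_⟩
    have e1 : ((D.mapU hω δ 1)⁻¹).1 * (D.mapU hω δ 1).1 = 1 := by
      rw [← Units.val_mul, inv_mul_cancel, Units.val_one]
    have e2 : (D.mapU hω δ 1).1 * ((D.mapU hω δ 1)⁻¹).1 = 1 := by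
      rw [← Units.val_mul, mul_inv_cancel, Units.val_one]
    have e3 : ∀ X Y : Module.End F V, (D.mapU hω δ 1).1 * (X * Y) * ((D.mapU hω δ 1)⁻¹).1 =
        ((D.mapU hω δ 1).1 * X * ((D.mapU hω δ 1)⁻¹).1) * ((D.mapU hω δ 1).1 * Y * ((D.mapU hω δ 1)⁻¹).1) := by
      intro X Y
      calc _ = (D.mapU hω δ 1).1 * X * (1 * Y) * ((D.mapU hω δ 1)⁻¹).1 := by
            rw [one_mul]; simp only [mul_assoc]
        _ = _ := by rw [← e1]; simp only [mul_assoc]
    rw [Units.val_mul, Units.val_mul, hy', e3, mul_add, add_mul, mul_one, hcs δ hδ, e2, hδa, mul_sub, sub_mul,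
      mul_one, hcs δ hδ, e2, apply_inv]
  obtain ⟨τ, hτ⟩ := e8 hω hM hF ha s' hP
  -- `s` is scalar
  have hsτ : s = (μ * τ) • 1 := by
    have h1 : s = μ • ((g₃⁻¹).1 * s' * g₃.1) := by
      rw [hs', mul_smul_comm, smul_mul_assoc, smul_smul, mul_inv_cancel₀ hμ, one_smul]
      have e1 : (g₃⁻¹).1 * g₃.1 = 1 := by rw [← Units.val_mul, inv_mul_cancel, Units.val_one]
      calc s = ((g₃⁻¹).1 * g₃.1) * s * ((g₃⁻¹).1 * g₃.1) := by rw [e1, one_mul, mul_one]
        _ = _ := by simp only [mul_assoc]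
    rw [h1, hτ, mul_smul_comm, mul_one, smul_mul_assoc, ← Units.val_mul, inv_mul_cancel, Units.val_one, smul_smul]
  refine ⟨α * tv hω (μ * τ) a, g₃, ?_, ?_⟩
  · intro u v
    rw [mul_app, mul_app, hα, isoW_tv hω]
  · rw [hgx]
    have h1 : x = D.mapU hω (tv hω (μ * τ) a) 1 := by
      apply Units.ext
      rw [hx, mapU_tv_val, hsτ]
    rw [h1, hA, D.mapU_mul, mul_one]

end Main

end Cfsg.Agent.H889.C7
end

-- part: H889/C7/Triv
section
/-!
Irreducibility and Schur's lemma for the slot groups on `T n`; triviality of the layer.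
-/

set_option autoImplicit false
set_option linter.unusedSectionVars false
set_option linter.unusedVariables false
set_option linter.unusedSimpArgs false

namespace Cfsg.Agent.H889.C7

open Module Cfsg.Agent.H889

variable {F : Type*} [Field F] {k : ℕ}

section Vectors

variable {ω : LinearMap.BilinForm F (Fin k → F)} (hω : Symp ω)
include hω

theorem exists_perp_avoid {m : ℕ} (v : Fin m → (Fin k → F)) (p : Fin k → F) (h : m + 2 ≤ k) :
    ∃ w, (∀ i, ω (v i) w = 0) ∧ ∀ c : F, w ≠ c • p := by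
  let Φ : (Fin k → F) →ₗ[F] (Fin m → F) := LinearMap.pi fun i => ω (v i)
  have h1 : k ≤ m + finrank F (LinearMap.ker Φ) := by
    have h2 := LinearMap.finrank_range_add_finrank_ker Φ
    have h3 : finrank F (LinearMap.range Φ) ≤ m := by
      have := Submodule.finrank_le (LinearMap.range Φ)
      rwa [finrank_fin_fun] at this
    rw [finrank_fin_fun] at h2
    omega
  by_contra hcon
  push Not at hcon
  have h4 : LinearMap.ker Φ ≤ Submodule.span F {p} := by
    intro w hw
    rw [LinearMap.mem_ker] at hw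
    obtain ⟨c, hc⟩ := hcon w fun i => congrFun hw i
    exact Submodule.mem_span_singleton.2 ⟨c, hc.symm⟩
  have h5 := Submodule.finrank_mono h4
  have h6 : finrank F (Submodule.span F {p}) ≤ 1 := by
    have := finrank_span_le_card (R := F) ({p} : Set (Fin k → F))
    simpa using this
  omega

theorem exists_mid {w w' : Fin k → F} (hw : w ≠ 0) (hw' : w' ≠ 0) : ∃ z, ω w z ≠ 0 ∧ ω z w' ≠ 0 := by
  obtain ⟨z1, h1⟩ := hω.exists_pair hw
  obtain ⟨z2, h2⟩ := hω.exists_pair hw'
  have h2' : ω z2 w' = -1 := by rw [hω.skew, h2]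
  by_cases c1 : ω z1 w' = 0
  · by_cases c2 : ω w z2 = 0
    · refine ⟨z1 + z2, by rw [map_add, c2, add_zero, h1]; exact one_ne_zero, ?_⟩
      rw [map_add, LinearMap.add_apply, c1, zero_add, h2']
      exact neg_ne_zero.2 one_ne_zero
    · exact ⟨z2, c2, by rw [h2']; exact neg_ne_zero.2 one_ne_zero⟩
  · exact ⟨z1, by rw [h1]; exact one_ne_zero, c1⟩

/-- A partner orthogonal to a hyperbolic pair. -/
theorem exists_pair_perp {w w' x : Fin k → F} (h : ω w w' = 1) (hx : x ≠ 0) (hwx : ω w x = 0)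
    (hwx' : ω w' x = 0) : ∃ y, ω x y = 1 ∧ ω w y = 0 ∧ ω w' y = 0 := by
  obtain ⟨y₀, hy₀⟩ := hω.exists_pair hx
  have h' : ω w' w = -1 := by rw [hω.skew, h]
  have h1 : ω x w = 0 := by rw [hω.skew, hwx, neg_zero]
  have h2 : ω x w' = 0 := by rw [hω.skew, hwx', neg_zero]
  refine ⟨y₀ - ω w y₀ • w' + ω w' y₀ • w, ?_, ?_, ?_⟩
  · simp only [map_add, map_sub, map_smul, h1, h2, hy₀, smul_eq_mul]; ring
  · simp only [map_add, map_sub, map_smul, h, hω.alt, smul_eq_mul]; ring
  · simp only [map_add, map_sub, map_smul, h', hω.alt, smul_eq_mul]; ring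

/-- Two orthogonal hyperbolic pairs. -/
theorem exists_two_pairs (hk : 4 ≤ k) {w w' : Fin k → F} (h : ω w w' = 1) :
    ∃ x y, ω x y = 1 ∧ ω w x = 0 ∧ ω w y = 0 ∧ ω w' x = 0 ∧ ω w' y = 0 := by
  obtain ⟨x, hx, hx'⟩ := exists_perp_avoid hω ![w, w'] 0 (by omega)
  have hx0 : x ≠ 0 := by simpa using hx' 0
  have h0 := hx 0
  have h1 := hx 1
  simp only [Matrix.cons_val_zero, Matrix.cons_val_one, Matrix.cons_val_fin_one] at h0 h1
  obtain ⟨y, hy1, hy2, hy3⟩ := exists_pair_perp hω h hx0 h0 h1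
  exact ⟨x, y, hy1, h0, hy2, h1, hy3⟩

/-- Three orthogonal hyperbolic pairs. -/
theorem exists_three_pairs (hk : 6 ≤ k) :
    ∃ w w' x x' y y' : Fin k → F, ω w w' = 1 ∧ ω x x' = 1 ∧ ω y y' = 1 ∧ ω w x = 0 ∧ ω w x' = 0 ∧
      ω w y = 0 ∧ ω w y' = 0 ∧ ω w' x = 0 ∧ ω w' x' = 0 ∧ ω w' y = 0 ∧ ω w' y' = 0 ∧
      ω x y = 0 ∧ ω x y' = 0 ∧ ω x' y = 0 ∧ ω x' y' = 0 := by
  have hne : (Pi.single (⟨0, by omega⟩ : Fin k) (1 : F) : Fin k → F) ≠ 0 := by
    intro h0
    have := congrFun h0 ⟨0, by omega⟩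
    rw [Pi.single_eq_same] at this
    exact one_ne_zero this
  obtain ⟨w', hw'⟩ := hω.exists_pair hne
  set w : Fin k → F := Pi.single (⟨0, by omega⟩ : Fin k) (1 : F)
  obtain ⟨x, x', hxx', h1, h2, h3, h4⟩ := exists_two_pairs hω (by omega) hw'
  obtain ⟨y, hy, hy'⟩ := exists_perp_avoid hω ![w, w', x, x'] 0 (by omega)
  have hy0 : y ≠ 0 := by simpa using hy' 0
  have e0 := hy 0
  have e1 := hy 1
  have e2 := hy 2
  have e3 := hy 3
  simp only [Matrix.cons_val_zero, Matrix.cons_val_one, Matrix.cons_val_fin_one, Matrix.cons_val] at e0 e1 e2 e3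
  obtain ⟨y₀, hy₀⟩ := hω.exists_pair hy0
  have s1 : ω w' w = -1 := by rw [hω.skew, hw']
  have s2 : ω x' x = -1 := by rw [hω.skew, hxx']
  have s3 : ω y w = 0 := by rw [hω.skew, e0, neg_zero]
  have s4 : ω y w' = 0 := by rw [hω.skew, e1, neg_zero]
  have s5 : ω y x = 0 := by rw [hω.skew, e2, neg_zero]
  have s6 : ω y x' = 0 := by rw [hω.skew, e3, neg_zero]
  have s7 : ω x w = 0 := by rw [hω.skew, h1, neg_zero]
  have s8 : ω x' w = 0 := by rw [hω.skew, h2, neg_zero]
  have s9 : ω x w' = 0 := by rw [hω.skew, h3, neg_zero]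
  have s10 : ω x' w' = 0 := by rw [hω.skew, h4, neg_zero]
  refine ⟨w, w', x, x', y, y₀ - ω w y₀ • w' + ω w' y₀ • w - ω x y₀ • x' + ω x' y₀ • x, hw', hxx', ?_, h1, h2,
    e0, ?_, h3, h4, e1, ?_, e2, ?_, e3, ?_⟩
  all_goals
    simp only [map_add, map_sub, map_smul, smul_eq_mul, hω.alt, hw', hxx', h1, h2, h3, h4, s1, s2, s3, s4, s5, s6,
      s7, s8, s9, s10, hy₀]
    ring

end Vectors

section TDlemmas

variable {ω : LinearMap.BilinForm F (Fin k → F)} {B V : Type*} [AddCommGroup B] [Module F B]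
  [AddCommGroup V] [Module F V] (D : TD ω B V)

/-- Stabilising all `a ⊗ B` implies commuting with all `c_u`. -/
theorem comm_of_stab (hω : Symp ω) {s : Module.End F V} (h : ∀ a b, ∃ b', s (D.ι a b) = D.ι a b')
    (u : Fin k → F) : s * D.cs u 1 = D.cs u 1 * s := by
  refine D.ext hω fun a b => ?_
  rw [Module.End.mul_apply, Module.End.mul_apply, TD.cs_apply, Module.End.one_apply, D.κι, map_smul, map_smul]
  by_cases hua : ω u a = 0
  · obtain ⟨b', hb'⟩ := h a b
    rw [hb', TD.cs_apply, D.κι, hua, zero_smul, zero_smul, map_zero, map_zero]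
  · obtain ⟨b₁, h₁⟩ := h u b
    obtain ⟨b₂, h₂⟩ := h a b
    obtain ⟨b₃, h₃⟩ := h (u + a) b
    rw [(D.ι).map_add, LinearMap.add_apply, map_add, h₁, h₂, LinearMap.add_apply] at h₃
    have e : D.ι u (b₁ - b₃) + D.ι a (b₂ - b₃) = 0 := by
      rw [map_sub, map_sub]
      have := sub_eq_zero.2 h₃
      rw [← this]; abel
    have e1 := D.indep hω (w := u) (w' := a) (fun c hc => hua (by rw [hc, map_smul, LinearMap.smul_apply, hω.alt,
      smul_zero])) e
    have e2 := D.indep hω (w := a) (w' := u) (b := b₂ - b₃) (b' := b₁ - b₃) (fun c hc => hua (by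
      rw [hc, map_smul, hω.alt, smul_zero])) (by rw [add_comm]; exact e)
    have e3 : b₁ = b₂ := by rw [sub_eq_zero.1 e1, sub_eq_zero.1 e2]
    rw [h₁, h₂, TD.cs_apply, D.κι, Module.End.one_apply, map_smul, e3]

/-- Commuting with all `c_u` implies being `1 ⊗ s'`. -/
theorem one_map_of_comm (hω : Symp ω) {a₀ : Fin k → F} (ha₀ : a₀ ≠ 0) {s : Module.End F V}
    (h : ∀ u, s * D.cs u 1 = D.cs u 1 * s) : ∃ s' : Module.End F B, s = D.map hω 1 s' := by
  have h0 : ∀ u v, s (D.cs u 1 v) = D.cs u 1 (s v) := fun u v => LinearMap.congr_fun (h u) v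
  -- `s ι u b = ι u (κ u s ι u' b)`
  have h1 : ∀ u u' b, ω u u' ≠ 0 → s (D.ι u b) = D.ι u ((ω u u')⁻¹ • D.κ u (s (D.ι u' b))) := by
    intro u u' b huu'
    have e := h0 u (D.ι u' b)
    rw [TD.cs_apply, TD.cs_apply, D.κι, Module.End.one_apply, Module.End.one_apply, map_smul, map_smul] at e
    rw [map_smul, ← e, smul_smul, inv_mul_cancel₀ huu', one_smul]
  have h2 : ∀ u b, ∃ b', s (D.ι u b) = D.ι u b' := by
    intro u b
    by_cases hu : u = 0
    · exact ⟨0, by rw [hu]; simp⟩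
    · obtain ⟨u', hu'⟩ := hω.exists_pair hu
      exact ⟨_, h1 u u' b (by rw [hu']; exact one_ne_zero)⟩
  have h3 : ∀ u a b b' b'', ω u a ≠ 0 → s (D.ι u b) = D.ι u b' → s (D.ι a b) = D.ι a b'' → b' = b'' := by
    intro u a b b₁ b₂ hua h₁ h₂
    obtain ⟨b₃, h₃⟩ := h2 (u + a) b
    rw [(D.ι).map_add, LinearMap.add_apply, map_add, h₁, h₂, LinearMap.add_apply] at h₃
    have e : D.ι u (b₁ - b₃) + D.ι a (b₂ - b₃) = 0 := by
      rw [map_sub, map_sub]
      have := sub_eq_zero.2 h₃
      rw [← this]; abel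
    have e1 := D.indep hω (w := u) (w' := a) (fun c hc => hua (by rw [hc, map_smul, LinearMap.smul_apply, hω.alt,
      smul_zero])) e
    have e2 := D.indep hω (w := a) (w' := u) (b := b₂ - b₃) (b' := b₁ - b₃) (fun c hc => hua (by
      rw [hc, map_smul, hω.alt, smul_zero])) (by rw [add_comm]; exact e)
    rw [sub_eq_zero.1 e1, sub_eq_zero.1 e2]
  obtain ⟨a₁, ha₁⟩ := hω.exists_pair ha₀
  set s' : Module.End F B := D.κ a₀ ∘ₗ s ∘ₗ D.ι a₁ with hs'
  have h4 : ∀ b, s (D.ι a₀ b) = D.ι a₀ (s' b) := by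
    intro b
    rw [h1 a₀ a₁ b (by rw [ha₁]; exact one_ne_zero), ha₁, inv_one, one_smul]
    rfl
  refine ⟨s', D.ext hω fun w b => ?_⟩
  rw [D.map_ι, Module.End.one_apply]
  by_cases hw : w = 0
  · rw [hw]; simp
  · obtain ⟨z, hz1, hz2⟩ := exists_mid hω ha₀ hw
    obtain ⟨b₁, hb₁⟩ := h2 z b
    obtain ⟨b₂, hb₂⟩ := h2 w b
    rw [hb₂, h3 a₀ z b _ _ hz1 (h4 b) hb₁, h3 z w b _ _ hz2 hb₁ hb₂]

end TDlemmas

section Tn

variable {ω : LinearMap.BilinForm F (Fin k → F)} (hω : Symp ω)
include hω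

theorem sE_tv_apply {n : ℕ} (i : Fin (n + 1)) (c : F) (u : Fin k → F) (v : T F k (n + 1)) :
    sE i (tv hω c u).1 v = v + ιT i u (c • κT ω i u v) := by
  have h := mapU_tv_apply hω (DT hω i) c u v
  rw [mapU_sU] at h
  exact h

/-- The slot groups act irreducibly. -/
theorem irr : ∀ (n : ℕ) (X : Submodule F (T F k n)),
    (∀ (j : Fin n) (α : (Module.End F (Fin k → F))ˣ), IsoW ω α → ∀ v ∈ X, sE j α.1 v ∈ X) →
    ∀ v ∈ X, v ≠ 0 → X = ⊤ := by
  intro n
  induction n with
  | zero =>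
    intro X _ v hv hv0
    rw [eq_top_iff]
    intro x _
    have h1 : v default ≠ 0 := by
      intro h0
      apply hv0
      rw [tp_zero_eq v, h0, zero_smul]
    have h2 : x = (x default * (v default)⁻¹) • v := by
      rw [tp_zero_eq v, smul_smul]
      conv_lhs => rw [tp_zero_eq x]
      congr 1
      rw [Pi.smul_apply, tp_apply, Fin.prod_univ_zero, smul_eq_mul, mul_one, mul_assoc, inv_mul_cancel₀ h1, mul_one]
    rw [h2]
    exact X.smul_mem _ hv
  | succ n ih =>
    intro X hX v hv hv0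
    obtain ⟨u, hu⟩ : ∃ u, κT ω (0 : Fin (n + 1)) u v ≠ 0 := by
      by_contra hcon
      push Not at hcon
      exact hv0 ((DT hω (0 : Fin (n + 1))).inj v hcon)
    have hu0 : u ≠ 0 := by
      rintro rfl
      rw [map_zero] at hu
      exact hu rfl
    have h1 : ιT 0 u (κT ω (0 : Fin (n + 1)) u v) ∈ X := by
      have h2 := hX 0 _ (isoW_tv hω 1 u) v hv
      rw [sE_tv_apply, one_smul] at h2
      have := X.sub_mem h2 hv
      rwa [add_sub_cancel_left] at this
    let Y : Submodule F (T F k n) :=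
      { carrier := {b | ∀ w, ιT 0 w b ∈ X}
        zero_mem' := fun w => by rw [map_zero]; exact X.zero_mem
        add_mem' := fun {b b'} hb hb' w => by rw [map_add]; exact X.add_mem (hb w) (hb' w)
        smul_mem' := fun c b hb w => by rw [map_smul]; exact X.smul_mem c (hb w) }
    have hY : Y = ⊤ := by
      refine ih Y ?_ (κT ω 0 u v) ?_ hu
      · intro j α hα b hb w
        rw [← sE_ιT_ne]
        exact hX _ _ hα _ (hb w)
      · intro w
        by_cases hw : w = 0
        · rw [hw, map_zero]; exact X.zero_mem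
        · obtain ⟨α, hα, hαu⟩ := exists_iso_of_ne hω hu0 hw
          have := hX 0 α hα _ h1
          rwa [sE_ιT_self, hαu] at this
    rw [eq_top_iff]
    intro x _
    rw [(DT hω (0 : Fin (n + 1))).expand hω x]
    refine X.sum_mem fun p _ => ?_
    have h3 : (DT hω (0 : Fin (n + 1))).κ (TD.dualv hω p) x ∈ Y := by rw [hY]; trivial
    exact h3 _

/-- Schur's lemma. -/
theorem schur (hk : 0 < k) : ∀ (n : ℕ) (s : Module.End F (T F k n)),
    (∀ (j : Fin n) (u : Fin k → F), s * sE j (rk ω u u) = sE j (rk ω u u) * s) → ∃ τ : F, s = τ • 1 := by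
  intro n
  induction n with
  | zero =>
    intro s _
    refine ⟨s (tp fun i => 0) default, LinearMap.ext fun v => ?_⟩
    have h1 : tp (fun i : Fin 0 => (0 : Fin k → F)) default = 1 := by rw [tp_apply, Fin.prod_univ_zero]
    rw [tp_zero_eq v, map_smul, LinearMap.smul_apply, Module.End.one_apply, tp_zero_eq (s _), smul_comm,
      Pi.smul_apply, h1, smul_eq_mul, mul_one]
  | succ n ih =>
    intro s hs
    have hne : (Pi.single (⟨0, hk⟩ : Fin k) (1 : F) : Fin k → F) ≠ 0 := by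
      intro h0
      have := congrFun h0 ⟨0, hk⟩
      rw [Pi.single_eq_same] at this
      exact one_ne_zero this
    have hcs : ∀ (i : Fin (n + 1)) (u : Fin k → F), (DT hω i).cs u 1 = sE i (rk ω u u) := by
      intro i u
      refine (DT hω i).ext hω fun w b => ?_
      rw [TD.cs_apply, Module.End.one_apply, TD.κι, DT_ι, sE_ιT_self, rk_apply, map_smul, map_smul,
        LinearMap.smul_apply]
    obtain ⟨s', hs'⟩ := one_map_of_comm (DT hω (0 : Fin (n + 1))) hω hne (s := s) (fun u => by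
      rw [hcs]; exact hs 0 u)
    obtain ⟨τ, hτ⟩ := ih s' (by
      intro j u
      have h1 := hs ((0 : Fin (n + 1)).succAbove j) u
      rw [hs', ← map_one_sE hω 0 j, TD.map_mul, TD.map_mul, mul_one] at h1
      -- compare
      refine LinearMap.ext fun b => ?_
      have h2 := LinearMap.congr_fun h1 (ιT 0 (Pi.single (⟨0, hk⟩ : Fin k) (1 : F)) b)
      rw [← DT_ι hω 0, TD.map_ι, TD.map_ι, Module.End.one_apply] at h2
      have h3 := (DT hω (0 : Fin (n + 1))).ι_inj hω hne (b := (s' * sE j (rk ω u u)) b - (sE j (rk ω u u) * s') b)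
        (by rw [map_sub, h2, sub_self])
      exact sub_eq_zero.1 h3)
    refine ⟨τ, ?_⟩
    rw [hs', hτ]
    refine (DT hω (0 : Fin (n + 1))).ext hω fun w b => ?_
    rw [TD.map_ι, Module.End.one_apply, LinearMap.smul_apply, LinearMap.smul_apply, Module.End.one_apply,
      Module.End.one_apply, map_smul]

end Tn

end Cfsg.Agent.H889.C7
end

-- part: H889/C7/Triv2
section
/-!
The triviality of the layer for `T n`.
-/

set_option autoImplicit false
set_option linter.unusedSectionVars false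
set_option linter.unusedVariables false
set_option linter.unusedSimpArgs false

namespace Cfsg.Agent.H889.C7

open Module Cfsg.Agent.H889

variable {F : Type*} [Field F] {k : ℕ} {ω : LinearMap.BilinForm F (Fin k → F)}

/-- Invariance under conjugation by the slot groups. -/
def SlotInv (ω : LinearMap.BilinForm F (Fin k → F)) {n : ℕ}
    (T' : Submodule F (Module.End F (T F k n))) : Prop :=
  ∀ (j : Fin n) (α : (Module.End F (Fin k → F))ˣ), IsoW ω α → ∀ s ∈ T', sE j α.1 * s * sE j (α⁻¹).1 ∈ T'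

/-- The quadratic constraint. -/
def Constr (ω : LinearMap.BilinForm F (Fin k → F)) {n : ℕ}
    (T' : Submodule F (Module.End F (T F k n))) : Prop :=
  ∀ s ∈ T', ∀ s' ∈ T', ∃ τ : F, ∀ b b', fT ω n (s b) (s' b') + fT ω n (s' b) (s b') = τ * fT ω n b b'

theorem ring_id {R : Type*} [Ring R] (C C' s : R) (z1 : C * C' = 0) (z2 : C' * C = 0) :
    C' * (C * s - s * C - C * s * C) - (C * s - s * C - C * s * C) * C' -
      C' * (C * s - s * C - C * s * C) * C' = -(C * s * C' + C' * s * C) := by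
  have e1 : C' * (C * s) = 0 := by rw [← mul_assoc, z2, zero_mul]
  have e2 : C' * (C * s * C) = 0 := by rw [mul_assoc C, ← mul_assoc, z2, zero_mul]
  have e3 : s * C * C' = 0 := by rw [mul_assoc, z1, mul_zero]
  have e4 : C * s * C * C' = 0 := by rw [mul_assoc, z1, mul_zero]
  have e5 : C' * (s * C) * C' = 0 := by rw [mul_assoc, mul_assoc, z1, mul_zero, mul_zero]
  simp only [mul_sub, sub_mul, e1, e2, e3, e4, zero_mul, mul_zero, sub_zero, zero_sub, neg_mul, e5, neg_zero]
  rw [← mul_assoc]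
  abel

theorem neg_one_smul_end {W : Type*} [AddCommGroup W] [Module F W] (x : Module.End F W) :
    (-1 : F) • x = -x := neg_one_smul F x

section

variable (hω : Symp ω)
include hω

theorem C_eq {n : ℕ} (i : Fin (n + 1)) (u : Fin k → F) :
    sE i (rk ω u u) = (DT hω i).cs u 1 := by
  refine (DT hω i).ext hω fun w b => ?_
  rw [TD.cs_apply, Module.End.one_apply, TD.κι, DT_ι, sE_ιT_self, rk_apply, map_smul, map_smul,
    LinearMap.smul_apply]

theorem sE_tv {n : ℕ} (i : Fin n) (u : Fin k → F) :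
    sE i (tv hω 1 u).1 = 1 + sE i (rk ω u u) := by
  rw [tv, oneAdd_val, sE_add, sE_one, one_smul]

theorem sE_tv_inv {n : ℕ} (i : Fin n) (u : Fin k → F) :
    sE i ((tv hω 1 u)⁻¹).1 = 1 - sE i (rk ω u u) := by
  have h : ((tv hω 1 u)⁻¹).1 = 1 + (-1 : F) • rk ω u u := by
    have : ((tv hω 1 u)⁻¹).1 = 1 - (1 : F) • rk ω u u := rfl
    rw [this, one_smul, neg_one_smul_end, sub_eq_add_neg]
  rw [h, sE_add, sE_one, sE_smul, neg_one_smul_end, sub_eq_add_neg]

omit hω in
theorem sE_rk_mul {n : ℕ} (i : Fin n) (u u' : Fin k → F) (h : ω u u' = 0) :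
    sE i (rk ω u u) * sE i (rk ω u' u') = 0 := by
  rw [← sE_mul]
  have : rk ω u u * rk ω u' u' = 0 := by
    refine LinearMap.ext fun w => ?_
    rw [Module.End.mul_apply, rk_apply, rk_apply, map_smul, h, smul_zero, zero_smul, LinearMap.zero_apply]
  rw [this]
  have h0 := sE_smul i (0 : F) (0 : Module.End F (Fin k → F))
  rw [zero_smul, zero_smul] at h0
  exact h0

theorem inv_d {n : ℕ} {T' : Submodule F (Module.End F (T F k n))} (hT : SlotInv ω T') (i : Fin n)
    (u : Fin k → F) {s : Module.End F (T F k n)} (hs : s ∈ T') :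
    sE i (rk ω u u) * s - s * sE i (rk ω u u) - sE i (rk ω u u) * s * sE i (rk ω u u) ∈ T' := by
  have h1 := hT i _ (isoW_tv hω 1 u) s hs
  rw [sE_tv, sE_tv_inv] at h1
  have h2 := T'.sub_mem h1 hs
  convert h2 using 1
  simp only [add_mul, mul_sub, one_mul, mul_one]
  abel

theorem inv_pair {n : ℕ} {T' : Submodule F (Module.End F (T F k n))} (hT : SlotInv ω T') (i : Fin n)
    {u u' : Fin k → F} (huu' : ω u u' = 0) {s : Module.End F (T F k n)} (hs : s ∈ T') :
    sE i (rk ω u u) * s * sE i (rk ω u' u') + sE i (rk ω u' u') * s * sE i (rk ω u u) ∈ T' := by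
  have h1 := inv_d hω hT i u' (inv_d hω hT i u hs)
  have hu'u : ω u' u = 0 := by rw [hω.skew, huu', neg_zero]
  have z1 := sE_rk_mul (ω := ω) i u u' huu'
  have z2 := sE_rk_mul (ω := ω) i u' u hu'u
  set C := sE i (rk ω u u)
  set C' := sE i (rk ω u' u')
  have e := ring_id C C' s z1 z2
  rw [e] at h1
  have := T'.neg_mem h1
  rwa [neg_neg] at this

theorem inv_csc {n : ℕ} {T' : Submodule F (Module.End F (T F k n))} (hT : SlotInv ω T') (h2 : (2 : F) ≠ 0)
    (i : Fin n) (u : Fin k → F) {s : Module.End F (T F k n)} (hs : s ∈ T') :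
    sE i (rk ω u u) * s * sE i (rk ω u u) ∈ T' := by
  have h1 := hT i _ (isoW_tv hω 1 u) s hs
  have h1' := hT i _ (isoW_tv hω 1 u).inv s hs
  rw [inv_inv] at h1'
  rw [sE_tv, sE_tv_inv] at h1 h1'
  have h3 := T'.smul_mem (2⁻¹ : F) (T'.sub_mem (T'.smul_mem (2 : F) hs) (T'.add_mem h1 h1'))
  convert h3 using 1
  set C := sE i (rk ω u u)
  have e : (2 : F) • s - ((1 + C) * s * (1 - C) + (1 - C) * s * (1 + C)) = (2 : F) • (C * s * C) := by
    rw [two_smul, two_smul]
    simp only [add_mul, mul_sub, sub_mul, mul_add, one_mul, mul_one]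
    abel
  rw [e, smul_smul, inv_mul_cancel₀ h2, one_smul]

/-- Totally isotropic slot-invariant families of operators are zero. -/
theorem fam_zero {n : ℕ} (R : Set (Module.End F (T F k n)))
    (hR : ∀ (j : Fin n) (α : (Module.End F (Fin k → F))ˣ), IsoW ω α → ∀ r ∈ R,
      sE j α.1 * r * sE j (α⁻¹).1 ∈ R)
    (h : ∀ r ∈ R, ∀ r' ∈ R, ∀ b b', fT ω n (r b) (r' b') = 0) {r : Module.End F (T F k n)} (hr : r ∈ R) :
    r = 0 := by
  refine LinearMap.ext fun b => ?_
  by_contra hb
  rw [LinearMap.zero_apply] at hb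
  set X : Submodule F (T F k n) := Submodule.span F {x | ∃ r ∈ R, ∃ b, x = r b} with hX
  have hX' : X = ⊤ := by
    refine irr hω n X ?_ (r b) (Submodule.subset_span ⟨r, hr, b, rfl⟩) hb
    intro j α hα v hv
    rw [hX] at hv ⊢
    induction hv using Submodule.span_induction with
    | mem x hx =>
      obtain ⟨r', hr', b', rfl⟩ := hx
      refine Submodule.subset_span ⟨_, hR j α hα r' hr', sE j α.1 b', ?_⟩
      rw [Module.End.mul_apply, Module.End.mul_apply, ← Module.End.mul_apply (sE j (α⁻¹).1), ← sE_mul, ← Units.val_mul,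
        inv_mul_cancel, Units.val_one, sE_one, Module.End.one_apply]
    | zero => rw [map_zero]; exact Submodule.zero_mem _
    | add x y _ _ hx hy => rw [map_add]; exact Submodule.add_mem _ hx hy
    | smul c x _ hx => rw [map_smul]; exact Submodule.smul_mem _ _ hx
  apply hb
  apply fT_ndl hω
  intro b'
  have hb' : b' ∈ X := by rw [hX']; trivial
  rw [hX] at hb'
  induction hb' using Submodule.span_induction with
  | mem x hx =>
    obtain ⟨r', hr', b'', rfl⟩ := hx
    exact h r hr r' hr' _ _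
  | zero => rw [map_zero]
  | add x y _ _ hx hy => rw [map_add, hx, hy, add_zero]
  | smul c x _ hx => rw [map_smul, hx, smul_zero]

omit hω in
theorem fT_ne {n : ℕ} (hω : Symp ω) (hk : 0 < k) : ∃ b b' : T F k n, fT ω n b b' ≠ 0 := by
  have : Nonempty (Fin k) := ⟨⟨0, hk⟩⟩
  have hne : ∃ b : T F k n, b ≠ 0 := ⟨fun _ => 1, fun h => one_ne_zero (congrFun h fun _ => ⟨0, hk⟩)⟩
  obtain ⟨b, hb⟩ := hne
  by_contra hcon
  push Not at hcon
  exact hb (fT_ndl hω n b fun b' => hcon b b')

/-- conjugation of `cs` by slots -/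
theorem conj_cs_self {n : ℕ} (i : Fin (n + 1)) {α : (Module.End F (Fin k → F))ˣ} (hα : IsoW ω α)
    (w : Fin k → F) (w' : Fin k → F) (r : Module.End F (T F k n)) :
    sE i α.1 * (ιT i w ∘ₗ r ∘ₗ κT ω i w') * sE i (α⁻¹).1 = ιT i (α.1 w) ∘ₗ r ∘ₗ κT ω i (α.1 w') := by
  refine (DT hω i).ext hω fun x b => ?_
  have h1 : κT ω i w' (ιT i ((α⁻¹).1 x) b) = ω w' ((α⁻¹).1 x) • b := (DT hω i).κι _ _ _
  have h2 : κT ω i (α.1 w') (ιT i x b) = ω (α.1 w') x • b := (DT hω i).κι _ _ _
  have h3 : ω (α.1 w') x = ω w' ((α⁻¹).1 x) := by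
    conv_lhs => rw [← apply_inv α x]
    rw [hα]
  rw [DT_ι, Module.End.mul_apply, Module.End.mul_apply, sE_ιT_self, LinearMap.comp_apply, LinearMap.comp_apply,
    sE_ιT_self, LinearMap.comp_apply, LinearMap.comp_apply, h1, h2, h3]

theorem conj_cs_ne {n : ℕ} (i : Fin (n + 1)) (j : Fin n) (α : (Module.End F (Fin k → F))ˣ)
    (w w' : Fin k → F) (r : Module.End F (T F k n)) :
    sE (i.succAbove j) α.1 * (ιT i w ∘ₗ r ∘ₗ κT ω i w') * sE (i.succAbove j) (α⁻¹).1 =
      ιT i w ∘ₗ (sE j α.1 * r * sE j (α⁻¹).1) ∘ₗ κT ω i w' := by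
  refine (DT hω i).ext hω fun x b => ?_
  have h1 : ∀ b, κT ω i w' (ιT i x b) = ω w' x • b := fun b => (DT hω i).κι _ _ _
  rw [DT_ι, Module.End.mul_apply, Module.End.mul_apply, sE_ιT_ne, LinearMap.comp_apply, LinearMap.comp_apply,
    sE_ιT_ne, LinearMap.comp_apply, LinearMap.comp_apply, h1, h1, Module.End.mul_apply, Module.End.mul_apply]
  simp only [map_smul]

theorem csc_eq {n : ℕ} (i : Fin (n + 1)) (w w' : Fin k → F) (s : Module.End F (T F k (n + 1))) :
    sE i (rk ω w w) * s * sE i (rk ω w' w') =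
      ιT i w ∘ₗ (κT ω i w ∘ₗ s ∘ₗ ιT i w') ∘ₗ κT ω i w' := by
  rw [C_eq hω, C_eq hω]
  rfl

/-- For `s` in an invariant subspace satisfying the constraint, `κ w s ι w = 0` (odd characteristic). -/
theorem diag_zero (h2 : (2 : F) ≠ 0) (hk : 4 ≤ k) {n : ℕ}
    {T' : Submodule F (Module.End F (T F k (n + 1)))} (hT : SlotInv ω T') (hC : Constr ω T') (i : Fin (n + 1))
    (w : Fin k → F) {s : Module.End F (T F k (n + 1))} (hs : s ∈ T') :
    κT ω i w ∘ₗ s ∘ₗ ιT i w = 0 := by
  by_cases hw : w = 0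
  · rw [hw]
    refine LinearMap.ext fun b => ?_
    simp
  refine fam_zero hω {r | ∀ w, ιT i w ∘ₗ r ∘ₗ κT ω i w ∈ T'} ?_ ?_ ?_
  · intro j α hα r hr w
    rw [← conj_cs_ne hω]
    exact hT _ _ hα _ (hr w)
  · intro r hr r' hr' b b'
    have hne : (Pi.single (⟨0, by omega⟩ : Fin k) (1 : F) : Fin k → F) ≠ 0 := by
      intro h0
      have := congrFun h0 ⟨0, by omega⟩
      rw [Pi.single_eq_same] at this
      exact one_ne_zero this
    obtain ⟨z', hz⟩ := hω.exists_pair hne
    set z : Fin k → F := Pi.single (⟨0, by omega⟩ : Fin k) (1 : F)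
    obtain ⟨x, y, hxy, h1, h3, h4, h5⟩ := exists_two_pairs hω hk hz
    obtain ⟨τ, hτ⟩ := hC _ (hr z) _ (hr' z')
    have hz' : ω z' z = -1 := by rw [hω.skew, hz]
    have key : ∀ x y b b', ω z x * ω z' y * fT ω n (r b) (r' b') - ω z' x * ω z y * fT ω n (r' b) (r b') =
        τ * (ω x y * fT ω n b b') := by
      intro x y b b'
      have e := hτ (ιT i x b) (ιT i y b')
      have k1 : ∀ u v b, κT ω i u (ιT i v b) = ω u v • b := fun u v b => (DT hω i).κι _ _ _
      simp only [LinearMap.comp_apply, k1, map_smul, LinearMap.smul_apply, smul_eq_mul] at e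
      have f1 : ∀ u v b b', fT ω (n + 1) (ιT i u b) (ιT i v b') = ω u v * fT ω n b b' := fun u v b b' =>
        (DT_forms hω i).ιι u v b b'
      rw [f1, f1, f1, hz, hz'] at e
      rw [← e]
      ring
    have hτ0 : τ = 0 := by
      obtain ⟨b₀, b₁, hb⟩ := fT_ne (n := n) hω (by omega)
      have := key x y b₀ b₁
      rw [h1, h3, h4, h5, hxy] at this
      simp only [zero_mul, sub_zero, one_mul] at this
      exact (mul_eq_zero.1 this.symm).resolve_right hb
    have := key z' z b b'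
    rw [hτ0, hω.alt, hz, hz', zero_mul, zero_mul, sub_zero, one_mul] at this
    have h6 : fT ω n (r b) (r' b') = -(-1 * fT ω n (r b) (r' b')) := by ring
    rw [h6, this, zero_mul, neg_zero]
  · intro w'
    by_cases hw' : w' = 0
    · rw [hw', map_zero, LinearMap.zero_comp]; exact T'.zero_mem
    obtain ⟨α, hα, hαw⟩ := exists_iso_of_ne hω hw hw'
    have h := hT i α hα _ (inv_csc hω hT h2 i w hs)
    rw [csc_eq hω, conj_cs_self hω i hα, hαw] at h
    exact h

omit hω in
theorem fT_symm (hω : Symp ω) {n : ℕ} (x y : T F k n) : fT ω n x y = (-1) ^ n * fT ω n y x := by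
  have h : fT ω n = ((-1 : F) ^ n) • (fT ω n).flip := by
    refine bilin_ext fun xs ys => ?_
    have e0 : ((-1 : F) ^ n • (fT ω n).flip) (tp xs) (tp ys) = (-1) ^ n * fT ω n (tp ys) (tp xs) := rfl
    rw [e0, fT_tp, fT_tp]
    have : ∀ i ∈ Finset.univ, ω (xs i) (ys i) = -1 * ω (ys i) (xs i) := fun i _ => by
      rw [hω.skew]; ring
    rw [Finset.prod_congr rfl this, Finset.prod_mul_distrib, Finset.prod_const, Finset.card_univ,
      Fintype.card_fin]
  have := LinearMap.congr_fun (LinearMap.congr_fun h x) y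
  exact this

omit hω in
/-- Swapping slots. -/
theorem swap_all {n : ℕ} (G : LinearMap.BilinForm F (T F k (n + 1)))
    (hG : ∀ (i : Fin (n + 1)) w b b', G (ιT i w b) (ιT i w b') = 0) (xs ys : Fin (n + 1) → (Fin k → F)) :
    G (tp xs) (tp ys) = (-1) ^ (n + 1) * G (tp ys) (tp xs) := by
  have hG' : ∀ (i : Fin (n + 1)) w w' b b', G (ιT i w b) (ιT i w' b') = -G (ιT i w' b) (ιT i w b') := by
    intro i w w' b b'
    have h := hG i (w + w') b b'
    simp only [map_add, LinearMap.add_apply, hG, zero_add, add_zero] at h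
    linear_combination h
  have hstep : ∀ (i : Fin (n + 1)) (xs ys : Fin (n + 1) → (Fin k → F)),
      G (tp xs) (tp ys) = -G (tp (Function.update xs i (ys i))) (tp (Function.update ys i (xs i))) := by
    intro i xs ys
    have e : ∀ (zs : Fin (n + 1) → (Fin k → F)) (w : Fin k → F),
        tp (Function.update zs i w) = ιT i w (tp (i.removeNth zs)) := by
      intro zs w
      rw [ιT_tp]
      congr 1
      rw [Fin.insertNth_removeNth]
    have e' : ∀ (zs : Fin (n + 1) → (Fin k → F)), tp zs = ιT i (zs i) (tp (i.removeNth zs)) := by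
      intro zs
      rw [← e, Function.update_eq_self]
    rw [e, e, ← hG', ← e', ← e']
  have key : ∀ S : Finset (Fin (n + 1)), G (tp xs) (tp ys) =
      (-1) ^ S.card * G (tp (S.piecewise ys xs)) (tp (S.piecewise xs ys)) := by
    intro S
    induction S using Finset.induction_on with
    | empty => simp
    | insert a S ha ih =>
      rw [ih, Finset.card_insert_of_notMem ha, Finset.piecewise_insert, Finset.piecewise_insert,
        hstep a (S.piecewise ys xs) (S.piecewise xs ys), Finset.piecewise_eq_of_notMem _ _ _ ha,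
        Finset.piecewise_eq_of_notMem _ _ _ ha]
      ring
  have := key Finset.univ
  rw [Finset.card_univ, Fintype.card_fin] at this
  simpa using this

theorem triv_odd (h2 : (2 : F) ≠ 0) (hk : 4 ≤ k) {n : ℕ}
    {T' : Submodule F (Module.End F (T F k (n + 1)))} (h1 : (1 : Module.End F (T F k (n + 1))) ∈ T')
    (hT : SlotInv ω T') (hC : Constr ω T') {s : Module.End F (T F k (n + 1))} (hs : s ∈ T') :
    ∃ τ : F, s = τ • 1 := by
  have hself : ∀ x y, fT ω (n + 1) (s x) y = fT ω (n + 1) x (s y) := by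
    have hG := swap_all ((fT ω (n + 1)) ∘ₗ s) (by
      intro i w b b'
      rw [LinearMap.comp_apply, fT_adj' hω]
      have := LinearMap.congr_fun (diag_zero hω h2 hk hT hC i w hs) b
      rw [LinearMap.comp_apply, LinearMap.comp_apply, LinearMap.zero_apply] at this
      rw [this, map_zero, LinearMap.zero_apply, neg_zero])
    have h : (fT ω (n + 1)) ∘ₗ s = (fT ω (n + 1)).compl₂ s := by
      refine bilin_ext fun xs ys => ?_
      rw [hG, LinearMap.comp_apply, LinearMap.compl₂_apply, fT_symm hω, ← mul_assoc, ← mul_pow]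
      simp
    intro x y
    have := LinearMap.congr_fun (LinearMap.congr_fun h x) y
    exact this
  obtain ⟨τ, hτ⟩ := hC s hs 1 h1
  refine ⟨2⁻¹ * τ, ?_⟩
  refine LinearMap.ext fun b => ?_
  rw [← sub_eq_zero]
  apply fT_ndl hω
  intro b'
  have h3 := hτ b b'
  rw [Module.End.one_apply, Module.End.one_apply, ← hself] at h3
  rw [map_sub, LinearMap.sub_apply, LinearMap.smul_apply, Module.End.one_apply, map_smul, LinearMap.smul_apply,
    smul_eq_mul, mul_assoc, ← h3]
  field_simp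
  ring

/-- For `s` in an invariant subspace satisfying the constraint, `κ w s ι w' = 0` for `w ⊥ w'` (any characteristic,
`k ≥ 6`). -/
theorem off_zero (hk : 6 ≤ k) {n : ℕ}
    {T' : Submodule F (Module.End F (T F k (n + 1)))} (hT : SlotInv ω T') (hC : Constr ω T') (i : Fin (n + 1))
    {w w' : Fin k → F} (hww' : ω w w' = 0) (hw : w ≠ 0) (hw' : ∀ c : F, w' ≠ c • w)
    {s : Module.End F (T F k (n + 1))} (hs : s ∈ T') :
    κT ω i w ∘ₗ s ∘ₗ ιT i w' = 0 := by
  let P : Module.End F (T F k n) → Module.End F (T F k n) → Prop := fun r₁ r₂ =>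
    ∀ y y', ω y y' = 0 → y ≠ 0 → (∀ c : F, y' ≠ c • y) →
      ιT i y ∘ₗ r₁ ∘ₗ κT ω i y' + ιT i y' ∘ₗ r₂ ∘ₗ κT ω i y ∈ T'
  have hPsymm : ∀ r₁ r₂, P r₁ r₂ → P r₂ r₁ := by
    intro r₁ r₂ h y y' h1 h2 h3
    have hy' : y' ≠ 0 := by simpa using h3 0
    have := h y' y (by rw [hω.skew, h1, neg_zero]) hy' (by
      intro c hc
      have hc0 : c ≠ 0 := by
        rintro rfl
        rw [zero_smul] at hc
        exact h2 hc
      exact h3 c⁻¹ (by rw [hc, inv_smul_smul₀ hc0]))
    convert this using 1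
    exact add_comm _ _
  refine fam_zero hω {r | ∃ r₂, P r r₂} ?_ ?_ ?_
  · rintro j α hα r ⟨r₂, h⟩
    refine ⟨sE j α.1 * r₂ * sE j (α⁻¹).1, fun y y' h1 h2 h3 => ?_⟩
    have h4 := hT (i.succAbove j) α hα _ (h y y' h1 h2 h3)
    rw [mul_add, add_mul, conj_cs_ne hω, conj_cs_ne hω] at h4
    exact h4
  · rintro r₂ ⟨r₁, hr⟩ r₁' ⟨r₂', hr'⟩ b b'
    have hr := hPsymm _ _ hr
    -- configuration: `(z', y)` hyperbolic, `(z, p)`, `(y', q)` hyperbolic
    obtain ⟨z', y, z, p, y', q, h1, h2, h3, h4, h5, h6, h7, h8, h9, h10, h11, h12, h13, h14, h15⟩ :=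
      exists_three_pairs hω hk
    have a1 : ω z z' = 0 := by rw [hω.skew, h4, neg_zero]
    have a2 : ω y' z' = 0 := by rw [hω.skew, h6, neg_zero]
    have a3 : ω y y' = 0 := h10
    have a4 : ω z y = 0 := by rw [hω.skew, h8, neg_zero]
    have a5 : ω y' z = 0 := by rw [hω.skew, h12, neg_zero]
    have a6 : ω y' p = 0 := by rw [hω.skew, h14, neg_zero]
    have a7 : ω y z' = -1 := by rw [hω.skew, h1]
    have hz0 : z ≠ 0 := by
      rintro rfl
      simp at h2
    have hy0 : y ≠ 0 := by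
      rintro rfl
      simp at h1
    have i1 : ∀ c : F, z' ≠ c • z := by
      intro c hc
      rw [hc, map_smul, LinearMap.smul_apply, a4, smul_zero] at h1
      exact zero_ne_one h1
    have i2 : ∀ c : F, y' ≠ c • y := by
      intro c hc
      rw [hc, map_smul, LinearMap.smul_apply, h11, smul_zero] at h3
      exact zero_ne_one h3
    obtain ⟨τ, hτ⟩ := hC _ (hr z z' a1 hz0 i1) _ (hr' y y' a3 hy0 i2)
    have key : ∀ x v b b', ω z x * ω y' v * fT ω n (r₂ b) (r₁' b') - ω y' x * ω z v * fT ω n (r₁' b) (r₂ b') =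
        τ * (ω x v * fT ω n b b') := by
      intro x v b b'
      have e := hτ (ιT i x b) (ιT i v b')
      have k1 : ∀ u v b, κT ω i u (ιT i v b) = ω u v • b := fun u v b => (DT hω i).κι _ _ _
      have f1 : ∀ u v b b', fT ω (n + 1) (ιT i u b) (ιT i v b') = ω u v * fT ω n b b' := fun u v b b' =>
        (DT_forms hω i).ιι u v b b'
      have a8 : ω y z = 0 := h8
      have a9 : ω z y' = 0 := h12
      have a10 : ω z' y' = 0 := h6
      simp only [LinearMap.add_apply, LinearMap.comp_apply, k1, map_smul, LinearMap.smul_apply, smul_eq_mul, map_add,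
        f1, h1, a4, a7, a8, a9, a5, a10, a2, zero_mul, mul_zero, add_zero, zero_add] at e
      rw [← e]
      ring
    have hτ0 : τ = 0 := by
      obtain ⟨b₀, b₁, hb⟩ := fT_ne (n := n) hω (by omega)
      have := key z' y b₀ b₁
      rw [a1, a2, a4, h1] at this
      simp only [zero_mul, sub_zero, one_mul, mul_zero] at this
      exact (mul_eq_zero.1 this.symm).resolve_right hb
    have := key p q b b'
    rw [hτ0, h2, h3, a6] at this
    simpa using this
  · refine ⟨κT ω i w' ∘ₗ s ∘ₗ ιT i w, fun y y' h1 h2 h3 => ?_⟩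
    obtain ⟨α, hα, hαw⟩ := exists_iso_of_ne hω hw h2
    obtain ⟨β, hβ, hβy, hβw⟩ := exists_iso hω (a := y) (x := α.1 w') (y := y')
      (by rw [← hαw, hα, hww']) h1 (by
        intro c hc
        apply hw' c
        have e1 : α.1 (w' - c • w) = 0 := by rw [map_sub, map_smul, hc, hαw, sub_self]
        have e2 := inv_apply α (w' - c • w)
        rw [e1, map_zero] at e2
        exact sub_eq_zero.1 e2.symm) h3
    have h4 := hT i _ (hβ.mul hα) _ (inv_pair hω hT i hww' hs)
    rw [csc_eq hω, csc_eq hω, mul_add, add_mul, conj_cs_self hω i (hβ.mul hα), conj_cs_self hω i (hβ.mul hα),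
      mul_app, mul_app, hαw, hβy, hβw] at h4
    exact h4

theorem triv_even (hk : 6 ≤ k) {n : ℕ}
    {T' : Submodule F (Module.End F (T F k (n + 1)))}
    (hT : SlotInv ω T') (hC : Constr ω T') {s : Module.End F (T F k (n + 1))} (hs : s ∈ T') :
    ∃ τ : F, s = τ • 1 := by
  apply schur hω (by omega)
  intro i u
  rw [C_eq hω]
  apply comm_of_stab _ hω
  intro a b
  by_cases ha : a = 0
  · exact ⟨0, by rw [ha]; simp⟩
  apply (DT hω i).exists_of_perp hω ha
  have key : ∀ m, ω a m = 0 → (∀ c : F, m ≠ c • a) → (DT hω i).κ m (s (ιT i a b)) = 0 := by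
    intro m hm hma
    have hm0 : m ≠ 0 := by simpa using hma 0
    have h := off_zero hω hk hT hC i (w := m) (w' := a) (by rw [hω.skew, hm, neg_zero]) hm0 (by
      intro c hc
      have hc0 : c ≠ 0 := by
        rintro rfl
        rw [zero_smul] at hc
        exact ha hc
      exact hma c⁻¹ (by rw [hc, inv_smul_smul₀ hc0])) hs
    exact LinearMap.congr_fun h b
  intro n' hn'
  by_cases hna : ∃ c : F, n' = c • a
  · obtain ⟨c, rfl⟩ := hna
    obtain ⟨m, hm, hma⟩ := exists_perp_avoid hω ![a] a (by omega)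
    have hm0 := hm 0
    simp only [Matrix.cons_val_zero, Matrix.cons_val_fin_one] at hm0
    have e1 := key m hm0 hma
    have e2 := key (m + c • a) (by rw [map_add, hm0, map_smul, hω.alt, smul_zero, add_zero]) (by
      intro d hd
      apply hma (d - c)
      rw [sub_smul, ← hd]; abel)
    rw [map_add, LinearMap.add_apply, e1, zero_add] at e2
    exact e2
  · push Not at hna
    exact key n' hn' hna

end

end Cfsg.Agent.H889.C7
end

-- part: H889/C7/Ptr
section
/-!
Partial traces, rank lemmas.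
-/

set_option autoImplicit false
set_option linter.unusedSectionVars false
set_option linter.unusedVariables false
set_option linter.unusedSimpArgs false

namespace Cfsg.Agent.H889.C7

open Module

variable {F : Type*} [Field F] {k : ℕ} {ω : LinearMap.BilinForm F (Fin k → F)} {B V : Type*}
  [AddCommGroup B] [Module F B] [AddCommGroup V] [Module F V]

namespace TD

variable (D : TD ω B V)

/-- The elementary operator `ι y β κ x`. -/
def el (y : Fin k → F) (β : Module.End F B) (x : Fin k → F) : Module.End F V := D.ι y ∘ₗ β ∘ₗ D.κ x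

theorem el_apply (y : Fin k → F) (β : Module.End F B) (x : Fin k → F) (v : V) :
    D.el y β x v = D.ι y (β (D.κ x v)) := rfl

theorem cs_eq_el (u : Fin k → F) (s : Module.End F B) : D.cs u s = D.el u s u := rfl

theorem el_eq_map (hω : Symp ω) (y : Fin k → F) (β : Module.End F B) (x : Fin k → F) :
    D.el y β x = D.map hω (rk ω y x) β := by
  refine D.ext hω fun w b => ?_
  rw [el_apply, D.κι, D.map_ι, rk_apply, map_smul, map_smul, map_smul, LinearMap.smul_apply]

/-- Additive maps on `End V` are determined by the elementary operators. -/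
theorem end_ext (hω : Symp ω) {X : Type*} [AddCommMonoid X] {f g : Module.End F V →+ X}
    (h : ∀ y β x, f (D.el y β x) = g (D.el y β x)) : f = g := by
  ext z
  have hz : z = ∑ p, ∑ r, D.el (Pi.single p 1) (D.κ (dualv hω p) ∘ₗ z ∘ₗ D.ι (Pi.single r 1)) (dualv hω r) := by
    refine LinearMap.ext fun v => ?_
    conv_lhs => rw [D.expand hω (z v)]
    rw [LinearMap.sum_apply]
    refine Finset.sum_congr rfl fun p _ => ?_
    rw [LinearMap.sum_apply]
    conv_lhs => rw [D.expand hω v]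
    rw [map_sum, map_sum, map_sum]
    rfl
  rw [hz]
  simp only [map_sum, h]

/-- The partial trace. -/
noncomputable def ptr (hω : Symp ω) : Module.End F V →ₗ[F] Module.End F (Fin k → F) where
  toFun z :=
    { toFun := fun w => fun p => LinearMap.trace F B (D.κ (dualv hω p) ∘ₗ z ∘ₗ D.ι w)
      map_add' := fun w w' => by
        funext p
        rw [map_add, LinearMap.comp_add, LinearMap.comp_add, map_add]; rfl
      map_smul' := fun c w => by
        funext p
        rw [map_smul, LinearMap.comp_smul, LinearMap.comp_smul, map_smul]; rfl }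
  map_add' z z' := by
    refine LinearMap.ext fun w => ?_
    funext p
    change LinearMap.trace F B (D.κ (dualv hω p) ∘ₗ (z + z') ∘ₗ D.ι w) = _
    rw [LinearMap.add_comp, LinearMap.comp_add, map_add]; rfl
  map_smul' c z := by
    refine LinearMap.ext fun w => ?_
    funext p
    change LinearMap.trace F B (D.κ (dualv hω p) ∘ₗ (c • z) ∘ₗ D.ι w) = _
    rw [LinearMap.smul_comp, LinearMap.comp_smul, map_smul]; rfl

theorem eq_sum_dualv (hω : Symp ω) (u : Fin k → F) : u = ∑ p, ω u (Pi.single p 1) • dualv hω p := by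
  rw [← sub_eq_zero]
  apply hω.nd
  intro w
  rw [map_sub, LinearMap.sub_apply, map_sum, LinearMap.sum_apply, sub_eq_zero]
  simp only [map_smul, LinearMap.smul_apply, ω_dualv, smul_eq_mul]
  conv_lhs => rw [← sum_single w]
  rw [map_sum]
  refine Finset.sum_congr rfl fun p _ => ?_
  rw [map_smul, smul_eq_mul, mul_comm]

theorem ω_ptr (hω : Symp ω) (z : Module.End F V) (u w : Fin k → F) :
    ω u (D.ptr hω z w) = LinearMap.trace F B (D.κ u ∘ₗ z ∘ₗ D.ι w) := by
  have h1 : ∀ p, ω (dualv hω p) (D.ptr hω z w) = LinearMap.trace F B (D.κ (dualv hω p) ∘ₗ z ∘ₗ D.ι w) := by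
    intro p
    rw [ω_dualv]; rfl
  let L : (Fin k → F) →ₗ[F] F :=
    { toFun := fun u => LinearMap.trace F B (D.κ u ∘ₗ z ∘ₗ D.ι w)
      map_add' := fun u u' => by rw [map_add, LinearMap.add_comp, map_add]
      map_smul' := fun c u => by rw [map_smul, LinearMap.smul_comp, map_smul]; rfl }
  change _ = L u
  conv_lhs => rw [eq_sum_dualv hω u]
  rw [map_sum, LinearMap.sum_apply]
  conv_rhs => rw [eq_sum_dualv hω u]
  rw [map_sum]
  refine Finset.sum_congr rfl fun p _ => ?_
  rw [map_smul, LinearMap.smul_apply, h1, map_smul]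
  rfl

theorem ptr_el (hω : Symp ω) (y : Fin k → F) (β : Module.End F B) (x : Fin k → F) :
    D.ptr hω (D.el y β x) = LinearMap.trace F B β • rk ω y x := by
  refine LinearMap.ext fun w => ?_
  rw [← sub_eq_zero]
  have hsk : ∀ v, (∀ u, ω u v = 0) → v = 0 := fun v hv => hω.nd v fun u => by
    rw [hω.skew, hv, neg_zero]
  apply hsk
  intro u
  rw [map_sub, D.ω_ptr, LinearMap.smul_apply, rk_apply, map_smul, map_smul]
  have : D.κ u ∘ₗ D.el y β x ∘ₗ D.ι w = (ω u y * ω x w) • β := by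
    refine LinearMap.ext fun b => ?_
    rw [LinearMap.comp_apply, LinearMap.comp_apply, el_apply, D.κι, D.κι, map_smul, smul_smul,
      LinearMap.smul_apply]
  rw [this, map_smul]
  simp only [smul_eq_mul]
  ring

/-- The projection onto `End W ⊗ 1`. -/
noncomputable def TA (hω : Symp ω) (z : Module.End F V) : Module.End F V := D.map hω (D.ptr hω z) 1

theorem map_add_left (hω : Symp ω) (x x' : Module.End F (Fin k → F)) (β : Module.End F B) :
    D.map hω (x + x') β = D.map hω x β + D.map hω x' β := by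
  refine D.ext hω fun w b => ?_
  rw [LinearMap.add_apply, map_ι, map_ι, map_ι, LinearMap.add_apply, map_add, LinearMap.add_apply]

theorem map_smul_left (hω : Symp ω) (c : F) (x : Module.End F (Fin k → F)) (β : Module.End F B) :
    D.map hω (c • x) β = c • D.map hω x β := by
  refine D.ext hω fun w b => ?_
  rw [LinearMap.smul_apply, map_ι, map_ι, LinearMap.smul_apply, map_smul, LinearMap.smul_apply]

theorem map_add_right (hω : Symp ω) (x : Module.End F (Fin k → F)) (β β' : Module.End F B) :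
    D.map hω x (β + β') = D.map hω x β + D.map hω x β' := by
  refine D.ext hω fun w b => ?_
  rw [LinearMap.add_apply, map_ι, map_ι, map_ι, LinearMap.add_apply, map_add]

theorem map_smul_right (hω : Symp ω) (c : F) (x : Module.End F (Fin k → F)) (β : Module.End F B) :
    D.map hω x (c • β) = c • D.map hω x β := by
  refine D.ext hω fun w b => ?_
  rw [LinearMap.smul_apply, map_ι, map_ι, LinearMap.smul_apply, map_smul]

theorem TA_add (hω : Symp ω) (z z' : Module.End F V) : D.TA hω (z + z') = D.TA hω z + D.TA hω z' := by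
  rw [TA, map_add, map_add_left]; rfl

theorem TA_el (hω : Symp ω) (y : Fin k → F) (β : Module.End F B) (x : Fin k → F) :
    D.TA hω (D.el y β x) = LinearMap.trace F B β • D.el y 1 x := by
  rw [TA, ptr_el, map_smul_left, el_eq_map]

/-- A similitude pair. -/
theorem el_conj (hω : Symp ω) {α : (Module.End F (Fin k → F))ˣ} {β₀ : (Module.End F B)ˣ} {μ : F}
    (hμ : μ ≠ 0) (hα : ∀ x y, ω (α.1 x) (α.1 y) = μ * ω x y) (y : Fin k → F) (β : Module.End F B)
    (x : Fin k → F) :
    (D.mapU hω α β₀).1 * D.el y β x * ((D.mapU hω α β₀)⁻¹).1 =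
      μ⁻¹ • D.el (α.1 y) (β₀.1 * β * (β₀⁻¹).1) (α.1 x) := by
  refine D.ext hω fun w b => ?_
  have h1 : ω x ((α⁻¹).1 w) = μ⁻¹ * ω (α.1 x) w := by
    conv_rhs => rw [← apply_inv α w]
    rw [hα, inv_mul_cancel_left₀ hμ]
  rw [D.mapU_inv hω, Module.End.mul_apply, Module.End.mul_apply, D.mapU_ι, el_apply, D.κι, D.mapU_ι,
    LinearMap.smul_apply, el_apply, D.κι, h1, map_smul, map_smul, map_smul, map_smul, map_smul, smul_smul,
    Module.End.mul_apply, Module.End.mul_apply]

theorem TA_conj (hω : Symp ω) {α : (Module.End F (Fin k → F))ˣ} {β₀ : (Module.End F B)ˣ} {μ : F}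
    (hμ : μ ≠ 0) (hα : ∀ x y, ω (α.1 x) (α.1 y) = μ * ω x y) (z : Module.End F V) :
    D.TA hω ((D.mapU hω α β₀).1 * z * ((D.mapU hω α β₀)⁻¹).1) =
      (D.mapU hω α β₀).1 * D.TA hω z * ((D.mapU hω α β₀)⁻¹).1 := by
  set h := D.mapU hω α β₀ with hh
  let f : Module.End F V →+ Module.End F V :=
    { toFun := fun z => D.TA hω (h.1 * z * (h⁻¹).1)
      map_zero' := by
        have := D.TA_add hω 0 0
        rw [add_zero] at this
        rw [mul_zero, zero_mul]
        exact left_eq_add.1 this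
      map_add' := fun z z' => by rw [mul_add, add_mul, TA_add] }
  let g : Module.End F V →+ Module.End F V :=
    { toFun := fun z => h.1 * D.TA hω z * (h⁻¹).1
      map_zero' := by
        have := D.TA_add hω 0 0
        rw [add_zero] at this
        rw [left_eq_add.1 this, mul_zero, zero_mul]
      map_add' := fun z z' => by rw [TA_add, mul_add, add_mul] }
  have hfg : f = g := by
    apply D.end_ext hω
    intro y β x
    change D.TA hω (h.1 * D.el y β x * (h⁻¹).1) = h.1 * D.TA hω (D.el y β x) * (h⁻¹).1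
    have htr : LinearMap.trace F B (β₀.1 * β * (β₀⁻¹).1) = LinearMap.trace F B β := by
      rw [LinearMap.trace_mul_comm, ← mul_assoc, ← Units.val_mul, inv_mul_cancel, Units.val_one, one_mul]
    rw [hh, el_conj D hω hμ hα, TA, map_smul, ptr_el, TA_el, htr, mul_smul_comm, smul_mul_assoc,
      el_conj D hω hμ hα, mul_one, ← Units.val_mul, mul_inv_cancel, Units.val_one, map_smul_left,
      map_smul_left, el_eq_map]
    exact smul_comm _ _ _
  exact DFunLike.congr_fun hfg z

/-- `TA` in terms of the trace of `V`. -/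
theorem TA_eq_zero [FiniteDimensional F V] [FiniteDimensional F B] (hω : Symp ω) {z : Module.End F V}
    (h : ∀ v u, LinearMap.trace F V (z * D.el v 1 u) = 0) : D.TA hω z = 0 := by
  have h1 : D.ptr hω z = 0 := by
    refine LinearMap.ext fun w => ?_
    have hsk : ∀ v, (∀ u, ω u v = 0) → v = 0 := fun v hv => hω.nd v fun u => by
      rw [hω.skew, hv, neg_zero]
    apply hsk
    intro u
    rw [D.ω_ptr, LinearMap.trace_comp_comm']
    exact h w u
  rw [TA, h1]
  refine D.ext hω fun w b => ?_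
  rw [map_ι]; simp

end TD

end Cfsg.Agent.H889.C7
end

-- part: H889/C7/Rank
section
/-!
Rank lemmas for decomposable operators; elements of `M` conjugating roots of a slot to roots of the same slot.
-/

set_option autoImplicit false
set_option linter.unusedSectionVars false
set_option linter.unusedVariables false
set_option linter.unusedSimpArgs false

namespace Cfsg.Agent.H889.C7

open Module

variable {F : Type*} [Field F] {k : ℕ} {ω : LinearMap.BilinForm F (Fin k → F)} {B V : Type*}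
  [AddCommGroup B] [Module F B] [AddCommGroup V] [Module F V]

theorem scalar_of_forall {α : Module.End F (Fin k → F)} (h : ∀ w, ∃ c : F, α w = c • w) :
    ∃ c : F, α = c • 1 := by
  by_cases hk : k = 0
  · subst hk
    exact ⟨0, LinearMap.ext fun w => Subsingleton.elim _ _⟩
  choose c hc using h
  let e : Fin k → (Fin k → F) := fun p => Pi.single p 1
  have he : ∀ p, e p p = 1 := fun p => Pi.single_eq_same _ _
  have hne : ∀ p q, q ≠ p → e p q = 0 := fun p q h => Pi.single_eq_of_ne h _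
  have hcc : ∀ p q, c (e p) = c (e q) := by
    intro p q
    by_cases hpq : p = q
    · rw [hpq]
    have h1 := hc (e p + e q)
    rw [map_add, hc, hc] at h1
    have h2 := congrFun h1 p
    have h3 := congrFun h1 q
    simp only [Pi.add_apply, Pi.smul_apply, smul_eq_mul, he, hne p q (Ne.symm hpq), hne q p hpq, mul_one,
      mul_zero, add_zero, zero_add] at h2 h3
    rw [h2, h3]
  refine ⟨c (e ⟨0, by omega⟩), LinearMap.ext fun w => ?_⟩
  rw [LinearMap.smul_apply, Module.End.one_apply]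
  conv_lhs => rw [← TD.sum_single w]
  rw [map_sum]
  conv_rhs => rw [← TD.sum_single w]
  rw [Finset.smul_sum]
  refine Finset.sum_congr rfl fun p _ => ?_
  rw [map_smul, hc (Pi.single p 1)]
  have := hcc p ⟨0, by omega⟩
  change w p • c (e p) • e p = _
  rw [this, smul_comm]

/-- Root-like operators. -/
structure RL (B : Type*) [AddCommGroup B] [Module F B] (fV : LinearMap.BilinForm F V)
    (N : Module.End F V) : Prop where
  sq : N * N = 0
  rank : finrank F (LinearMap.range N) = finrank F B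
  skew : ∀ v w, fV (N v) w = -fV v (N w)

section

variable {D : TD ω B V} {fB : LinearMap.BilinForm F B} {fV : LinearMap.BilinForm F V}

theorem RL.conj {N : Module.End F V} (h : RL B fV N) {g : (Module.End F V)ˣ}
    (hg : ∀ v w, fV (g.1 v) (g.1 w) = fV v w) : RL B fV (g.1 * N * (g⁻¹).1) := by
  refine ⟨?_, ?_, ?_⟩
  · have e : (g⁻¹).1 * g.1 = 1 := by rw [← Units.val_mul, inv_mul_cancel, Units.val_one]
    calc g.1 * N * (g⁻¹).1 * (g.1 * N * (g⁻¹).1) = g.1 * N * ((g⁻¹).1 * g.1) * N * (g⁻¹).1 := by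
          simp only [mul_assoc]
      _ = 0 := by rw [e, mul_one, mul_assoc g.1, h.sq, mul_zero, zero_mul]
  · rw [← h.rank]
    have hg1 : Function.Bijective g.1 := ⟨fun x y hxy => by rw [← inv_apply g x, hxy, inv_apply],
      fun x => ⟨(g⁻¹).1 x, apply_inv g x⟩⟩
    have hg2 : Function.Surjective (g⁻¹).1 := fun x => ⟨g.1 x, inv_apply g x⟩
    have e1 : LinearMap.range (g.1 * N * (g⁻¹).1) = (LinearMap.range N).map g.1 := by
      rw [Module.End.mul_eq_comp, Module.End.mul_eq_comp, LinearMap.range_comp_of_range_eq_top _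
        (LinearMap.range_eq_top.2 hg2), LinearMap.range_comp]
    rw [e1]
    exact (LinearEquiv.finrank_eq (Submodule.equivMapOfInjective g.1 hg1.1 _)).symm
  · intro v w
    have e1 : fV ((g.1 * N * (g⁻¹).1) v) w = fV (N ((g⁻¹).1 v)) ((g⁻¹).1 w) := by
      rw [Module.End.mul_apply, Module.End.mul_apply]
      conv_lhs => rw [← apply_inv g w]
      rw [hg]
    have e2 : fV v ((g.1 * N * (g⁻¹).1) w) = fV ((g⁻¹).1 v) (N ((g⁻¹).1 w)) := by
      rw [Module.End.mul_apply, Module.End.mul_apply]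
      conv_lhs => rw [← apply_inv g v]
      rw [hg]
    rw [e1, e2, h.skew]

theorem RL.smul {N : Module.End F V} (h : RL B fV N) {c : F} (hc : c ≠ 0) : RL B fV (c • N) := by
  refine ⟨?_, ?_, ?_⟩
  · rw [smul_mul_assoc, mul_smul_comm, h.sq, smul_zero, smul_zero]
  · rw [← h.rank, LinearMap.range_smul _ _ hc]
  · intro v w
    rw [LinearMap.smul_apply, LinearMap.smul_apply, map_smul, LinearMap.smul_apply, map_smul, h.skew, smul_neg]

theorem rl_cs (hω : Symp ω) (hf : D.Forms fB fV) {a : Fin k → F} (ha : a ≠ 0) : RL B fV (D.cs a 1) := by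
  obtain ⟨a', haa'⟩ := hω.exists_pair ha
  refine ⟨?_, ?_, ?_⟩
  · rw [cs_mul_cs, hω.alt, zero_smul]
  · have hinj : Function.Injective (D.ι a) := by
      rw [← LinearMap.ker_eq_bot, LinearMap.ker_eq_bot']
      intro b hb
      exact D.ι_inj hω ha hb
    have hsurj : Function.Surjective (D.κ a) := fun b => ⟨D.ι a' b, by rw [D.κι, haa', one_smul]⟩
    have e : LinearMap.range (D.cs a 1) = LinearMap.range (D.ι a) := by
      have : D.cs a 1 = (D.ι a) ∘ₗ (D.κ a) := rfl
      rw [this]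
      exact LinearMap.range_comp_of_range_eq_top _ (LinearMap.range_eq_top.2 hsurj)
    rw [e, LinearMap.finrank_range_of_inj hinj]
  · intro v w
    rw [TD.cs_apply, TD.cs_apply, Module.End.one_apply, Module.End.one_apply, hf.adj, hf.adj', neg_neg]

/-- The image is determined by one fibre. -/
theorem range_fibre [FiniteDimensional F V] {N : Module.End F V} {w : Fin k → F}
    (hrank : finrank F (LinearMap.range N) = finrank F B) (hinj : ∀ b, N (D.ι w b) = 0 → b = 0) (v : V) :
    ∃ b, N v = N (D.ι w b) := by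
  have hinj' : Function.Injective (N ∘ₗ D.ι w) := by
    rw [← LinearMap.ker_eq_bot, LinearMap.ker_eq_bot']
    exact hinj
  have h1 : LinearMap.range (N ∘ₗ D.ι w) = LinearMap.range N := by
    apply Submodule.eq_of_le_of_finrank_eq
    · rintro x ⟨b, rfl⟩
      exact ⟨_, rfl⟩
    · rw [LinearMap.finrank_range_of_inj hinj', hrank]
  have h2 : N v ∈ LinearMap.range (N ∘ₗ D.ι w) := by rw [h1]; exact ⟨v, rfl⟩
  obtain ⟨b, hb⟩ := h2
  exact ⟨b, hb.symm⟩

/-- **R.** -/
theorem dec_scalar [Nontrivial B] [FiniteDimensional F V] (hω : Symp ω)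
    (hk : (2 : F) ≠ 0 ∨ 4 ≤ k) (α : (Module.End F (Fin k → F))ˣ) (β : (Module.End F B)ˣ)
    (hsq : (D.map hω α.1 β.1 - 1) * (D.map hω α.1 β.1 - 1) = 0)
    (hrank : finrank F (LinearMap.range (D.map hω α.1 β.1 - 1)) = finrank F B) :
    (∃ c : F, α.1 = c • 1) ∨ (∃ c : F, β.1 = c • 1) := by
  by_cases hα : ∀ w, ∃ c : F, α.1 w = c • w
  · exact Or.inl (scalar_of_forall hα)
  right
  push Not at hα
  obtain ⟨w, hw⟩ := hα
  have hw0 : w ≠ 0 := by
    rintro rfl
    exact hw 0 (by rw [map_zero, zero_smul])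
  have hN : ∀ z b, (D.map hω α.1 β.1 - 1) (D.ι z b) = D.ι (α.1 z) (β.1 b) - D.ι z b := by
    intro z b
    rw [LinearMap.sub_apply, D.map_ι, Module.End.one_apply]
  rcases hk with h2 | hk
  · obtain ⟨u, hu1, hu2⟩ := hω.exists_sep hw trivial
    have key : ∀ b, ω u (α.1 (α.1 w)) • β.1 (β.1 b) = (2 : F) • β.1 b := by
      intro b
      have h1 := congrArg (D.κ u) (LinearMap.congr_fun hsq (D.ι w b))
      rw [Module.End.mul_apply, hN, map_sub, hN, hN, LinearMap.zero_apply, map_zero, map_sub, map_sub, map_sub,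
        D.κι, D.κι, D.κι, hu1, hu2, one_smul, zero_smul, sub_zero] at h1
      rw [two_smul]
      exact sub_eq_iff_eq_add.1 (sub_eq_zero.1 h1)
    have key' : ∀ b, ω u (α.1 (α.1 w)) • β.1 b = (2 : F) • b := by
      intro b
      have h1 := key ((β⁻¹).1 b)
      rwa [apply_inv] at h1
    obtain ⟨b₀, hb₀⟩ := exists_ne (0 : B)
    have hne : ω u (α.1 (α.1 w)) ≠ 0 := by
      intro h0
      have := key' b₀
      rw [h0, zero_smul] at this
      exact hb₀ ((smul_eq_zero.1 this.symm).resolve_left h2)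
    refine ⟨(ω u (α.1 (α.1 w)))⁻¹ * 2, LinearMap.ext fun b => ?_⟩
    rw [LinearMap.smul_apply, Module.End.one_apply, mul_smul, ← key', inv_smul_smul₀ hne]
  · obtain ⟨u', hu', hu0⟩ := exists_perp_avoid hω ![w, α.1 w] 0 (by omega)
    have hu0' : u' ≠ 0 := by simpa using hu0 0
    have h0 := hu' 0
    have h1 := hu' 1
    simp only [Matrix.cons_val_zero, Matrix.cons_val_one, Matrix.cons_val_fin_one] at h0 h1
    rw [hω.skew, neg_eq_zero] at h0 h1
    obtain ⟨z, hz⟩ := hω.exists_pair hu0'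
    have hinj : ∀ b, (D.map hω α.1 β.1 - 1) (D.ι w b) = 0 → b = 0 := by
      intro b hb
      rw [hN, sub_eq_zero] at hb
      have h3 := D.indep hω (w := α.1 w) (w' := w) hw (b := β.1 b) (b' := -b) (by rw [map_neg, hb]; abel)
      rw [← inv_apply β b, h3, map_zero]
    have key : ∀ b, ω u' (α.1 z) • β.1 b = b := by
      intro b
      obtain ⟨b', hb'⟩ := range_fibre hrank hinj (D.ι z b)
      have h3 := congrArg (D.κ u') hb'
      rw [hN, hN, map_sub, map_sub, D.κι, D.κι, D.κι, D.κι, h0, h1, hz, one_smul, zero_smul, zero_smul,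
        sub_zero, sub_eq_zero] at h3
      exact h3
    obtain ⟨b₀, hb₀⟩ := exists_ne (0 : B)
    have hne : ω u' (α.1 z) ≠ 0 := by
      intro h0
      have := key b₀
      rw [h0, zero_smul] at this
      exact hb₀ this.symm
    refine ⟨(ω u' (α.1 z))⁻¹, LinearMap.ext fun b => ?_⟩
    rw [LinearMap.smul_apply, Module.End.one_apply]
    conv_rhs => rw [← key b]
    rw [inv_smul_smul₀ hne]

/-- **R'.** -/
theorem sum_scalar [Nontrivial B] [FiniteDimensional F V] (hω : Symp ω)
    (hk : (2 : F) ≠ 0 ∨ 4 ≤ k) (x : Module.End F (Fin k → F)) (s : Module.End F B)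
    (hsq : (D.map hω x 1 + D.map hω 1 s) * (D.map hω x 1 + D.map hω 1 s) = 0)
    (hrank : finrank F (LinearMap.range (D.map hω x 1 + D.map hω 1 s)) = finrank F B) :
    (∃ c : F, x = c • 1) ∨ (∃ c : F, s = c • 1) := by
  by_cases hα : ∀ w, ∃ c : F, x w = c • w
  · exact Or.inl (scalar_of_forall hα)
  right
  push Not at hα
  obtain ⟨w, hw⟩ := hα
  have hN : ∀ z b, (D.map hω x 1 + D.map hω 1 s) (D.ι z b) = D.ι (x z) b + D.ι z (s b) := by
    intro z b
    rw [LinearMap.add_apply, D.map_ι, D.map_ι, Module.End.one_apply, Module.End.one_apply]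
  rcases hk with h2 | hk
  · obtain ⟨u, hu1, hu2⟩ := hω.exists_sep hw trivial
    have key : ∀ b, ω u (x (x w)) • b + (2 : F) • s b = 0 := by
      intro b
      have h1 := congrArg (D.κ u) (LinearMap.congr_fun hsq (D.ι w b))
      rw [Module.End.mul_apply, hN, map_add, hN, hN, LinearMap.zero_apply, map_zero, map_add, map_add, map_add]
        at h1
      simp only [D.κι, hu1, hu2, one_smul, zero_smul, add_zero] at h1
      rw [two_smul, ← h1]; abel
    refine ⟨-(2⁻¹ * ω u (x (x w))), LinearMap.ext fun b => ?_⟩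
    rw [LinearMap.smul_apply, Module.End.one_apply, neg_smul, mul_smul, eq_neg_of_add_eq_zero_left (key b),
      smul_neg, neg_neg, inv_smul_smul₀ h2]
  · obtain ⟨u', hu', hu0⟩ := exists_perp_avoid hω ![w, x w] 0 (by omega)
    have hu0' : u' ≠ 0 := by simpa using hu0 0
    have h0 := hu' 0
    have h1 := hu' 1
    simp only [Matrix.cons_val_zero, Matrix.cons_val_one, Matrix.cons_val_fin_one] at h0 h1
    rw [hω.skew, neg_eq_zero] at h0 h1
    obtain ⟨z, hz⟩ := hω.exists_pair hu0'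
    have hinj : ∀ b, (D.map hω x 1 + D.map hω 1 s) (D.ι w b) = 0 → b = 0 := by
      intro b hb
      rw [hN] at hb
      exact D.indep hω (w := x w) (w' := w) hw hb
    refine ⟨-(ω u' (x z)), LinearMap.ext fun b => ?_⟩
    obtain ⟨b', hb'⟩ := range_fibre hrank hinj (D.ι z b)
    have h3 := congrArg (D.κ u') hb'
    rw [hN, hN, map_add, map_add, D.κι, D.κι, D.κι, D.κι, h0, h1, hz, one_smul, zero_smul, zero_smul,
      add_zero] at h3
    rw [LinearMap.smul_apply, Module.End.one_apply, neg_smul]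
    exact eq_neg_of_add_eq_zero_right h3

/-- Root-like elements of `End W ⊗ 1` are roots. -/
theorem rl_left [Nontrivial B] [FiniteDimensional F V] [FiniteDimensional F B] (hω : Symp ω)
    (hf : D.Forms fB fV) {ν : Module.End F (Fin k → F)} (h : RL B fV (D.map hω ν 1)) :
    ∃ (u : Fin k → F) (c : F), u ≠ 0 ∧ c ≠ 0 ∧ D.map hω ν 1 = c • D.cs u 1 := by
  have hN : ∀ z b, D.map hω ν 1 (D.ι z b) = D.ι (ν z) b := fun z b => by
    rw [D.map_ι, Module.End.one_apply]
  obtain ⟨w₀, hw₀⟩ : ∃ w₀, ν w₀ ≠ 0 := by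
    by_contra hcon
    push Not at hcon
    have h1 : D.map hω ν 1 = 0 := D.ext hω fun w b => by rw [hN, hcon, map_zero]; rfl
    have h2 := h.rank
    rw [h1, LinearMap.range_zero, finrank_bot] at h2
    exact (finrank_pos (R := F) (M := B)).ne h2
  set u := ν w₀ with hu
  obtain ⟨b₀, hb₀⟩ := exists_ne (0 : B)
  have hφ : ∀ z, ∃ c : F, ν z = c • u := by
    intro z
    by_contra hcon
    push Not at hcon
    obtain ⟨b', hb'⟩ := range_fibre (D := D) (w := w₀) h.rank (by
      intro b hb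
      rw [hN] at hb
      exact D.ι_inj hω hw₀ hb) (D.ι z b₀)
    rw [hN, hN] at hb'
    exact hb₀ (D.indep hω (w := ν z) (w' := u) hcon (b := b₀) (b' := -b') (by rw [map_neg, hb']; abel))
  have hskew : ∀ z z', ω (ν z) z' = ω (ν z') z := by
    intro z z'
    obtain ⟨b', hb'⟩ : ∃ b', fB b₀ b' ≠ 0 := by
      by_contra hc
      push Not at hc
      exact hb₀ (hf.ndl _ hc)
    have h1 := h.skew (D.ι z b₀) (D.ι z' b')
    rw [hN, hN, hf.ιι, hf.ιι, ← neg_mul] at h1
    rw [mul_right_cancel₀ hb' h1, hω.skew z, neg_neg]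
  obtain ⟨v₀, hv₀⟩ := hω.exists_pair hw₀
  obtain ⟨c, hc⟩ := hφ v₀
  have hν : ∀ z, ν z = (c * ω u z) • u := by
    intro z
    obtain ⟨d, hd⟩ := hφ z
    have h1 := hskew z v₀
    rw [hd, hc, map_smul, map_smul, LinearMap.smul_apply, LinearMap.smul_apply, hv₀, smul_eq_mul, mul_one,
      smul_eq_mul] at h1
    rw [hd, h1]
  refine ⟨u, c, hw₀, ?_, ?_⟩
  · rintro rfl
    apply hw₀
    rw [hu, hν w₀, zero_mul, zero_smul]
  · refine D.ext hω fun z b => ?_
    rw [hN, hν, LinearMap.smul_apply, TD.cs_apply, D.κι, Module.End.one_apply, map_smul, LinearMap.smul_apply,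
      map_smul, mul_smul]

/-- Decomposable isometries are pairs of similitudes. -/
theorem sim_of_iso [Nontrivial B] (hω : Symp ω) (hf : D.Forms fB fV) (hk : 0 < k)
    {α : (Module.End F (Fin k → F))ˣ} {β : (Module.End F B)ˣ}
    (h : ∀ v w, fV ((D.mapU hω α β).1 v) ((D.mapU hω α β).1 w) = fV v w) :
    ∃ μ : F, μ ≠ 0 ∧ ∀ x y, ω (α.1 x) (α.1 y) = μ * ω x y := by
  obtain ⟨b₀, hb₀⟩ := exists_ne (0 : B)
  obtain ⟨b', hb'⟩ : ∃ b', fB b₀ b' ≠ 0 := by
    by_contra hc
    push Not at hc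
    exact hb₀ (hf.ndl _ hc)
  have h1 : ∀ x y, ω (α.1 x) (α.1 y) * fB (β.1 b₀) (β.1 b') = ω x y * fB b₀ b' := by
    intro x y
    have := h (D.ι x b₀) (D.ι y b')
    rwa [D.mapU_ι, D.mapU_ι, hf.ιι, hf.ιι] at this
  have hne : (Pi.single (⟨0, hk⟩ : Fin k) (1 : F) : Fin k → F) ≠ 0 := by
    intro h0
    have := congrFun h0 ⟨0, hk⟩
    rw [Pi.single_eq_same] at this
    exact one_ne_zero this
  obtain ⟨y, hy⟩ := hω.exists_pair hne
  have h2 : fB (β.1 b₀) (β.1 b') ≠ 0 := by
    intro h0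
    have := h1 (Pi.single (⟨0, hk⟩ : Fin k) (1 : F)) y
    rw [h0, mul_zero, hy, one_mul] at this
    exact hb' this.symm
  refine ⟨fB b₀ b' / fB (β.1 b₀) (β.1 b'), div_ne_zero hb' h2, fun x y => ?_⟩
  rw [div_mul_eq_mul_div, eq_div_iff h2, h1, mul_comm]

/-- Units commuting with all `c_u` are `1 ⊗ β`. -/
theorem unit_of_comm (hω : Symp ω) {a₀ : Fin k → F} (ha₀ : a₀ ≠ 0) {y : (Module.End F V)ˣ}
    (h : ∀ u, y.1 * D.cs u 1 = D.cs u 1 * y.1) : ∃ β : (Module.End F B)ˣ, y = D.mapU hω 1 β := by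
  obtain ⟨s, hs⟩ := one_map_of_comm D hω ha₀ h
  have h' : ∀ u, (y⁻¹).1 * D.cs u 1 = D.cs u 1 * (y⁻¹).1 := by
    intro u
    have e1 : (y⁻¹).1 * y.1 = 1 := by rw [← Units.val_mul, inv_mul_cancel, Units.val_one]
    have e2 : y.1 * (y⁻¹).1 = 1 := by rw [← Units.val_mul, mul_inv_cancel, Units.val_one]
    calc (y⁻¹).1 * D.cs u 1 = (y⁻¹).1 * (D.cs u 1 * y.1) * (y⁻¹).1 := by
          rw [mul_assoc, mul_assoc, e2, mul_one]
      _ = (y⁻¹).1 * (y.1 * D.cs u 1) * (y⁻¹).1 := by rw [h]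
      _ = D.cs u 1 * (y⁻¹).1 := by rw [← mul_assoc, e1, one_mul]
  obtain ⟨s', hs'⟩ := one_map_of_comm D hω ha₀ h'
  have key : ∀ s s' : Module.End F B, D.map hω 1 s * D.map hω 1 s' = 1 → s * s' = 1 := by
    intro s s' hss
    refine LinearMap.ext fun b => ?_
    have h1 := LinearMap.congr_fun hss (D.ι a₀ b)
    rw [D.map_mul, D.map_ι, mul_one, Module.End.one_apply, Module.End.one_apply, ← sub_eq_zero, ← map_sub] at h1
    exact sub_eq_zero.1 (D.ι_inj hω ha₀ h1)
  refine ⟨⟨s, s', key _ _ ?_, key _ _ ?_⟩, Units.ext hs⟩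
  · rw [← hs, ← hs', ← Units.val_mul, mul_inv_cancel, Units.val_one]
  · rw [← hs, ← hs', ← Units.val_mul, inv_mul_cancel, Units.val_one]

variable {M : Subgroup (Module.End F V)ˣ}

/-- Conjugating a root of the slot to a root of the slot. -/
theorem same_slot [Nontrivial B] (hω : Symp ω) (hf : D.Forms fB fV) (hM : GoodM hω D fB fV M)
    (hL : ∀ a : Fin k → F, a ≠ 0 → LayerC hω D M a) (hF : FieldOK ω) {a u : Fin k → F} {μ : F} (ha : a ≠ 0)
    (hu : u ≠ 0) (hμ : μ ≠ 0) {g : (Module.End F V)ˣ} (hg : g ∈ M)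
    (h : g.1 * D.cs a 1 = μ • (D.cs u 1 * g.1)) :
    ∃ (α : (Module.End F (Fin k → F))ˣ) (β : (Module.End F B)ˣ), g = D.mapU hω α β := by
  obtain ⟨γ, hγ, hγu⟩ := exists_iso_of_ne hω hu ha
  obtain ⟨α, β, _, h1⟩ := step1 (μ := μ) hω hf hM (hL a ha) hF ha hμ (M.mul_mem (hM.sp γ hγ) hg) (by
    intro v
    have e1 := LinearMap.congr_fun h v
    rw [Module.End.mul_apply, LinearMap.smul_apply, Module.End.mul_apply] at e1
    have e2 : ∀ v, (D.mapU hω γ 1).1 (D.cs u 1 v) = D.cs a 1 ((D.mapU hω γ 1).1 v) := by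
      intro v
      rw [TD.cs_apply, TD.cs_apply, Module.End.one_apply, Module.End.one_apply, D.mapU_ι, hγu, ← hγu,
        κ_mapU hω D hγ]
    rw [mul_app, mul_app, e1, map_smul, e2])
  refine ⟨γ⁻¹ * α, β, ?_⟩
  have h2 : g = (D.mapU hω γ 1)⁻¹ * (D.mapU hω γ 1 * g) := by rw [inv_mul_cancel_left]
  rw [h2, h1, D.mapU_inv hω, D.mapU_mul, inv_one, one_mul]

end

end Cfsg.Agent.H889.C7
end

-- part: H889/C7/Fix
section
/-!
The fixed points of root elements on the cosets of the decomposable elements.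
-/

set_option autoImplicit false
set_option linter.unusedSectionVars false
set_option linter.unusedVariables false
set_option linter.unusedSimpArgs false

namespace Cfsg.Agent.H889.C7

open Module

variable {F : Type*} [Field F] {k : ℕ} {ω : LinearMap.BilinForm F (Fin k → F)} {B V : Type*}
  [AddCommGroup B] [Module F B] [AddCommGroup V] [Module F V]

/-- Conjugation. -/
def cj (g : (Module.End F V)ˣ) : Module.End F V →+ Module.End F V where
  toFun z := g.1 * z * (g⁻¹).1
  map_zero' := by rw [mul_zero, zero_mul]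
  map_add' z z' := by rw [mul_add, add_mul]

theorem cj_apply (g : (Module.End F V)ˣ) (z : Module.End F V) : cj g z = g.1 * z * (g⁻¹).1 := rfl

theorem cj_mul' (g h : (Module.End F V)ˣ) (z : Module.End F V) : cj (g * h) z = cj g (cj h z) := by
  rw [cj_apply, cj_apply, cj_apply, mul_inv_rev, Units.val_mul, Units.val_mul]
  simp only [mul_assoc]

theorem cj_one' (z : Module.End F V) : cj (1 : (Module.End F V)ˣ) z = z := by
  rw [cj_apply, inv_one, Units.val_one, one_mul, mul_one]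

theorem cj_inv_self (g : (Module.End F V)ˣ) (z : Module.End F V) : cj g (cj g⁻¹ z) = z := by
  rw [← cj_mul', mul_inv_cancel, cj_one']

theorem cj_inv_self' (g : (Module.End F V)ˣ) (z : Module.End F V) : cj g⁻¹ (cj g z) = z := by
  rw [← cj_mul', inv_mul_cancel, cj_one']

theorem cj_prod (g : (Module.End F V)ˣ) (z z' : Module.End F V) : cj g (z * z') = cj g z * cj g z' := by
  have e : (g⁻¹).1 * g.1 = 1 := by rw [← Units.val_mul, inv_mul_cancel, Units.val_one]
  rw [cj_apply, cj_apply, cj_apply]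
  calc g.1 * (z * z') * (g⁻¹).1 = g.1 * z * 1 * z' * (g⁻¹).1 := by simp only [mul_assoc, mul_one, one_mul]
    _ = _ := by rw [← e]; simp only [mul_assoc]

theorem cj_smul (g : (Module.End F V)ˣ) (c : F) (z : Module.End F V) : cj g (c • z) = c • cj g z := by
  rw [cj_apply, cj_apply, mul_smul_comm, smul_mul_assoc]

theorem cj_one (g : (Module.End F V)ˣ) : cj g (1 : Module.End F V) = 1 := by
  rw [cj_apply, mul_one, ← Units.val_mul, mul_inv_cancel, Units.val_one]

theorem cj_comm (g : (Module.End F V)ˣ) (z z' : Module.End F V) :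
    cj g z * z' = z' * cj g z ↔ z * cj g⁻¹ z' = cj g⁻¹ z' * z := by
  constructor
  · intro h
    have := congrArg (cj g⁻¹) h
    rwa [cj_prod, cj_prod, cj_inv_self'] at this
  · intro h
    have := congrArg (cj g) h
    rwa [cj_prod, cj_prod, cj_inv_self] at this

theorem cj_eq_iff (g : (Module.End F V)ˣ) (z z' : Module.End F V) :
    cj g z = z' ↔ g.1 * z = z' * g.1 := by
  have e : (g⁻¹).1 * g.1 = 1 := by rw [← Units.val_mul, inv_mul_cancel, Units.val_one]
  have e' : g.1 * (g⁻¹).1 = 1 := by rw [← Units.val_mul, mul_inv_cancel, Units.val_one]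
  rw [cj_apply]
  constructor
  · intro h
    rw [← h, mul_assoc _ (g⁻¹).1, e, mul_one]
  · intro h
    rw [h, mul_assoc, e', mul_one]

/-- The decomposable elements. -/
def Dec (hω : Symp ω) (D : TD ω B V) : Subgroup (Module.End F V)ˣ where
  carrier := {g | ∃ α β, g = D.mapU hω α β}
  mul_mem' := by
    rintro _ _ ⟨α, β, rfl⟩ ⟨α', β', rfl⟩
    exact ⟨α * α', β * β', D.mapU_mul hω _ _ _ _⟩
  one_mem' := ⟨1, 1, (D.mapU_one hω).symm⟩
  inv_mem' := by
    rintro _ ⟨α, β, rfl⟩
    exact ⟨α⁻¹, β⁻¹, D.mapU_inv hω _ _⟩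

theorem mem_Dec {hω : Symp ω} {D : TD ω B V} {g : (Module.End F V)ˣ} :
    g ∈ Dec hω D ↔ ∃ α β, g = D.mapU hω α β := Iff.rfl

/-- The context of the slot theorem. -/
structure Ctx (hω : Symp ω) (D : TD ω B V) (fB : LinearMap.BilinForm F B)
    (fV : LinearMap.BilinForm F V) (M : Subgroup (Module.End F V)ˣ) : Prop where
  hf : D.Forms fB fV
  hM : GoodM hω D fB fV M
  hL : ∀ a : Fin k → F, a ≠ 0 → LayerC hω D M a
  hF : FieldOK ω
  hk : (2 : F) ≠ 0 ∨ 4 ≤ k
  hk0 : 0 < k

/-- The root element. -/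
noncomputable def rU (hω : Symp ω) (D : TD ω B V) (w : Fin k → F) (c : F) : (Module.End F V)ˣ :=
  D.mapU hω (tv hω c w) 1

theorem rU_val (hω : Symp ω) (D : TD ω B V) (w : Fin k → F) (c : F) :
    (rU hω D w c).1 = 1 + c • D.cs w 1 := by
  rw [rU, mapU_tv_val]
  congr 1
  refine LinearMap.ext fun v => ?_
  simp only [TD.cs_apply, LinearMap.smul_apply, Module.End.one_apply, map_smul]

theorem rU_add (hω : Symp ω) (D : TD ω B V) (w : Fin k → F) (c d : F) :
    rU hω D w (c + d) = rU hω D w c * rU hω D w d := by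
  apply Units.ext
  have hsq : D.cs w 1 * D.cs w 1 = 0 := by rw [cs_mul_cs, hω.alt, zero_smul]
  rw [Units.val_mul, rU_val, rU_val, rU_val, add_mul, mul_add, one_mul, one_mul, smul_mul_assoc, mul_add, mul_one,
    mul_smul_comm, hsq, smul_zero, add_zero, add_smul]
  abel

theorem rU_zero (hω : Symp ω) (D : TD ω B V) (w : Fin k → F) : rU hω D w 0 = 1 := by
  apply Units.ext
  rw [rU_val, zero_smul, add_zero, Units.val_one]

theorem rU_neg (hω : Symp ω) (D : TD ω B V) (w : Fin k → F) (c : F) : (rU hω D w c)⁻¹ = rU hω D w (-c) := by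
  rw [inv_eq_iff_mul_eq_one, ← rU_add, add_neg_cancel, rU_zero]

section

variable {D : TD ω B V} {fB : LinearMap.BilinForm F B} {fV : LinearMap.BilinForm F V}
  {M : Subgroup (Module.End F V)ˣ} {hω : Symp ω}

theorem Ctx.mem_rU (h : Ctx hω D fB fV M) (w : Fin k → F) (c : F) : rU hω D w c ∈ M :=
  h.hM.sp _ (isoW_tv hω _ _)

theorem cs_eq_map (w : Fin k → F) : D.cs w 1 = D.map hω (rk ω w w) 1 := by
  rw [TD.cs_eq_el, D.el_eq_map hω]

theorem map_comm_map (x : Module.End F (Fin k → F)) (s : Module.End F B) :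
    D.map hω x 1 * D.map hω 1 s = D.map hω 1 s * D.map hω x 1 := by
  rw [D.map_mul, D.map_mul, one_mul, mul_one, one_mul, mul_one]

/-- `g A g⁻¹` commutes with `A`. -/
def PC (D : TD ω B V) (g : (Module.End F V)ˣ) : Prop :=
  ∀ u v, cj g (D.cs u 1) * D.cs v 1 = D.cs v 1 * cj g (D.cs u 1)

theorem exists_ne_vec (hk : 0 < k) : ∃ a : Fin k → F, a ≠ 0 :=
  ⟨Pi.single (⟨0, hk⟩ : Fin k) (1 : F), fun h0 => by
    have := congrFun h0 ⟨0, hk⟩
    rw [Pi.single_eq_same] at this
    exact one_ne_zero this⟩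

/-- From `PC` one gets commutation of the full algebras. -/
theorem PC.full (h : Ctx hω D fB fV M) {g : (Module.End F V)ˣ} (hP : PC D g)
    (x x' : Module.End F (Fin k → F)) :
    cj g (D.map hω x 1) * D.map hω x' 1 = D.map hω x' 1 * cj g (D.map hω x 1) := by
  obtain ⟨a₀, ha₀⟩ := exists_ne_vec (F := F) h.hk0
  -- first `cs u` with `map x'`
  have h1 : ∀ u, ∃ s, cj g (D.cs u 1) = D.map hω 1 s := fun u => one_map_of_comm D hω ha₀ (hP u)
  have h2 : ∀ v, cj g⁻¹ (D.map hω x' 1) * D.cs v 1 = D.cs v 1 * cj g⁻¹ (D.map hω x' 1) := by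
    intro v
    rw [cj_comm, inv_inv]
    obtain ⟨s, hs⟩ := h1 v
    rw [hs, map_comm_map]
  obtain ⟨s, hs⟩ := one_map_of_comm D hω ha₀ h2
  rw [cj_comm, hs, map_comm_map]

/-- **Fixed points.** -/
theorem fix_iff [Nontrivial B] [FiniteDimensional F V] [FiniteDimensional F B] (h : Ctx hω D fB fV M)
    {w : Fin k → F} (hw : w ≠ 0) {c : F} (hc : c ≠ 0) {g : (Module.End F V)ˣ} (hg : g ∈ M) :
    g⁻¹ * rU hω D w c * g ∈ Dec hω D ↔ g ∈ Dec hω D ∨ PC D g := by
  have hrl : ∀ {x : (Module.End F V)ˣ}, x ∈ M → ∀ {u : Fin k → F}, u ≠ 0 → RL B fV (cj x (D.cs u 1)) :=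
    fun hx u hu => (rl_cs hω h.hf hu).conj (h.hM.isom _ hx)
  constructor
  · rintro ⟨α, β, hs⟩
    have hN : D.map hω α.1 β.1 - 1 = c • cj g⁻¹ (D.cs w 1) := by
      have h1 : (g⁻¹ * rU hω D w c * g).1 = cj g⁻¹ (rU hω D w c).1 := by
        rw [cj_apply, inv_inv, Units.val_mul, Units.val_mul]
      rw [hs] at h1
      have h2 : D.map hω α.1 β.1 = cj g⁻¹ (rU hω D w c).1 := h1
      rw [h2, rU_val, map_add, cj_one, cj_smul, add_sub_cancel_left]
    have hRL : RL B fV (D.map hω α.1 β.1 - 1) := by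
      rw [hN]; exact (hrl (M.inv_mem hg) hw).smul hc
    rcases dec_scalar hω h.hk α β hRL.sq hRL.rank with ⟨d, hd⟩ | ⟨d, hd⟩
    · -- `α` scalar
      have hcomm : ∀ v, cj g (D.cs v 1) * D.cs w 1 = D.cs w 1 * cj g (D.cs v 1) := by
        intro v
        have h1 : cj g⁻¹ (D.cs w 1) * D.cs v 1 = D.cs v 1 * cj g⁻¹ (D.cs w 1) := by
          have h2 : cj g⁻¹ (D.cs w 1) = c⁻¹ • (D.map hω α.1 β.1 - 1) := by
            rw [hN, inv_smul_smul₀ hc]
          have h3 : D.map hω α.1 β.1 = D.map hω 1 (d • β.1) := by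
            rw [hd, D.map_smul_left, D.map_smul_right]
          rw [h2, h3, cs_eq_map (hω := hω) v, smul_mul_assoc, mul_smul_comm, sub_mul, mul_sub, one_mul, mul_one,
            map_comm_map]
        rw [cj_comm, inv_inv] at h1
        exact h1.symm
      by_cases hgD : g ∈ Dec hω D
      · exact Or.inl hgD
      right
      intro v u
      by_cases hv : v = 0
      · have h0 : D.cs (0 : Fin k → F) 1 = 0 := by
          refine LinearMap.ext fun x => ?_
          rw [TD.cs_apply]; simp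
        rw [hv, h0, map_zero, zero_mul, mul_zero]
      have hxM : g * rU hω D v 1 * g⁻¹ ∈ M := M.mul_mem (M.mul_mem hg (h.mem_rU _ _)) (M.inv_mem hg)
      have hxv : (g * rU hω D v 1 * g⁻¹).1 = 1 + cj g (D.cs v 1) := by
        have h1 : (g * rU hω D v 1 * g⁻¹).1 = cj g (rU hω D v 1).1 := by
          rw [cj_apply, Units.val_mul, Units.val_mul]
        rw [h1, rU_val, one_smul, map_add, cj_one]
      obtain ⟨α₁, β₁, _, h₁⟩ := step1 (μ := 1) hω h.hf h.hM (h.hL w hw) h.hF hw one_ne_zero hxM (by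
        intro x
        rw [one_smul, hxv, LinearMap.add_apply, LinearMap.add_apply, Module.End.one_apply, Module.End.one_apply,
          map_add, ← Module.End.mul_apply, hcomm, Module.End.mul_apply])
      have hN₁ : D.map hω α₁.1 β₁.1 - 1 = cj g (D.cs v 1) := by
        have h2 : (g * rU hω D v 1 * g⁻¹).1 = D.map hω α₁.1 β₁.1 := by rw [h₁]; rfl
        rw [← h2, hxv, add_sub_cancel_left]
      have hRL₁ : RL B fV (D.map hω α₁.1 β₁.1 - 1) := by
        rw [hN₁]; exact hrl hg hv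
      rcases dec_scalar hω h.hk α₁ β₁ hRL₁.sq hRL₁.rank with ⟨d₁, hd₁⟩ | ⟨d₁, hd₁⟩
      · rw [← hN₁, hd₁, D.map_smul_left, ← D.map_smul_right, cs_eq_map (hω := hω) u, sub_mul, mul_sub, one_mul,
          mul_one, map_comm_map]
      · exfalso
        have h2 : D.map hω α₁.1 β₁.1 - 1 = D.map hω (d₁ • α₁.1 - 1) 1 := by
          rw [hd₁, D.map_smul_right, ← D.map_smul_left]
          have h3 := D.map_add_left hω (d₁ • α₁.1 - 1) 1 1
          rw [sub_add_cancel, D.map_one] at h3
          rw [h3, add_sub_cancel_right]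
        rw [h2] at hRL₁ hN₁
        obtain ⟨u', c', hu', hc', huc⟩ := rl_left hω h.hf hRL₁
        rw [huc] at hN₁
        apply hgD
        exact same_slot hω h.hf h.hM h.hL h.hF hv hu' hc' hg (by
          have := (cj_eq_iff g _ _).1 hN₁.symm
          rw [this, smul_mul_assoc])
    · -- `β` scalar
      left
      have h2 : D.map hω α.1 β.1 - 1 = D.map hω (d • α.1 - 1) 1 := by
        rw [hd, D.map_smul_right, ← D.map_smul_left]
        have h3 := D.map_add_left hω (d • α.1 - 1) 1 1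
        rw [sub_add_cancel, D.map_one] at h3
        rw [h3, add_sub_cancel_right]
      rw [h2] at hRL hN
      obtain ⟨u', c', hu', hc', huc⟩ := rl_left hω h.hf hRL
      rw [huc] at hN
      have h3 : cj g⁻¹ (D.cs w 1) = (c⁻¹ * c') • D.cs u' 1 := by
        rw [mul_smul, hN, inv_smul_smul₀ hc]
      have h4 : g⁻¹ ∈ Dec hω D :=
        same_slot hω h.hf h.hM h.hL h.hF hw hu' (mul_ne_zero (inv_ne_zero hc) hc') (M.inv_mem hg) (by
          have := (cj_eq_iff g⁻¹ _ _).1 h3
          rw [this, smul_mul_assoc])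
      have := (Dec hω D).inv_mem h4
      rwa [inv_inv] at this
  · rintro (hgD | hP)
    · have h1 : rU hω D w c ∈ Dec hω D := ⟨_, _, rfl⟩
      exact (Dec hω D).mul_mem ((Dec hω D).mul_mem ((Dec hω D).inv_mem hgD) h1) hgD
    · obtain ⟨a₀, ha₀⟩ := exists_ne_vec (F := F) h.hk0
      obtain ⟨β, hβ⟩ := unit_of_comm (D := D) hω ha₀ (y := g⁻¹ * rU hω D w c * g) (by
        intro u
        have h1 : (g⁻¹ * rU hω D w c * g).1 = cj g⁻¹ (rU hω D w c).1 := by
          rw [cj_apply, inv_inv, Units.val_mul, Units.val_mul]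
        rw [h1, rU_val, map_add, cj_one, cj_smul, add_mul, mul_add, one_mul, mul_one, smul_mul_assoc,
          mul_smul_comm]
        have h2 := hP u w
        have h3 : cj g⁻¹ (D.cs w 1) * D.cs u 1 = D.cs u 1 * cj g⁻¹ (D.cs w 1) := by
          rw [cj_comm, inv_inv]
          exact h2.symm
        rw [h3])
      exact ⟨1, β, hβ⟩

end

end Cfsg.Agent.H889.C7
end

-- part: H889/C7/SlotThm
section
/-!
The slot theorem: every element of `M` is decomposable or conjugates `End W ⊗ 1` into its centraliser.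
-/

set_option autoImplicit false
set_option linter.unusedSectionVars false
set_option linter.unusedVariables false
set_option linter.unusedSimpArgs false

namespace Cfsg.Agent.H889.C7

open Module

variable {F : Type*} [Field F] {k : ℕ} {ω : LinearMap.BilinForm F (Fin k → F)} {B V : Type*}
  [AddCommGroup B] [Module F B] [AddCommGroup V] [Module F V]
  {D : TD ω B V} {fB : LinearMap.BilinForm F B} {fV : LinearMap.BilinForm F V}
  {M : Subgroup (Module.End F V)ˣ} {hω : Symp ω}

/-- The decomposable elements of `M`. -/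
def DM (hω : Symp ω) (D : TD ω B V) (M : Subgroup (Module.End F V)ˣ) : Subgroup M := (Dec hω D).subgroupOf M

theorem mem_DM {g : M} : g ∈ DM hω D M ↔ g.1 ∈ Dec hω D := Subgroup.mem_subgroupOf

section

variable [Nontrivial B] (h : Ctx hω D fB fV M)
include h

theorem TA_dec {g : (Module.End F V)ˣ} (hgM : g ∈ M) (hgD : g ∈ Dec hω D) (z : Module.End F V) :
    D.TA hω (cj g z) = cj g (D.TA hω z) := by
  obtain ⟨α, β, hg⟩ := hgD
  have hiso := h.hM.isom g hgM
  rw [hg] at hiso
  obtain ⟨μ, hμ, hα⟩ := sim_of_iso hω h.hf h.hk0 hiso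
  rw [hg, cj_apply, cj_apply]
  exact D.TA_conj hω hμ hα z

/-- The summand. -/
noncomputable def phi (h : Ctx hω D fB fV M) (z : Module.End F V) : M ⧸ DM hω D M → Module.End F V :=
  Quotient.lift (fun g : M => cj g.1 (D.TA hω (cj g.1⁻¹ z))) (by
    intro a b hab
    have h1 : a⁻¹ * b ∈ DM hω D M := QuotientGroup.leftRel_apply.1 hab
    set x : M := a⁻¹ * b with hx
    have hb : b = a * x := by rw [hx, mul_inv_cancel_left]
    have h2 : x.1 ∈ Dec hω D := mem_DM.1 h1
    change cj a.1 (D.TA hω (cj a.1⁻¹ z)) = cj b.1 (D.TA hω (cj b.1⁻¹ z))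
    have e1 : b.1 = a.1 * x.1 := by rw [hb]; rfl
    rw [e1, mul_inv_rev, cj_mul', cj_mul', TA_dec h (M.inv_mem x.2) ((Dec hω D).inv_mem h2), cj_inv_self])

theorem phi_mk (z : Module.End F V) (g : M) :
    phi h z (g : M ⧸ DM hω D M) = cj g.1 (D.TA hω (cj g.1⁻¹ z)) := rfl

theorem phi_smul (z : Module.End F V) (g : M) (q : M ⧸ DM hω D M) :
    phi h (cj g.1 z) (g • q) = cj g.1 (phi h z q) := by
  obtain ⟨a, rfl⟩ := QuotientGroup.mk_surjective q
  have e1 : g • ((a : M) : M ⧸ DM hω D M) = ((g * a : M) : M ⧸ DM hω D M) := rfl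
  rw [e1, phi_mk, phi_mk]
  have e2 : (g * a : M).1 = g.1 * a.1 := rfl
  rw [e2, mul_inv_rev, cj_mul', cj_mul', cj_inv_self']

theorem phi_add (z z' : Module.End F V) (q : M ⧸ DM hω D M) :
    phi h (z + z') q = phi h z q + phi h z' q := by
  obtain ⟨a, rfl⟩ := QuotientGroup.mk_surjective q
  rw [phi_mk, phi_mk, phi_mk, map_add, D.TA_add, map_add]

/-- Fixed cosets. -/
def FixC (h : Ctx hω D fB fV M) (q : M ⧸ DM hω D M) : Prop :=
  ∃ g : M, (g : M ⧸ DM hω D M) = q ∧ (g.1 ∈ Dec hω D ∨ PC D g.1)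

/-- The root element of `M`. -/
noncomputable def rM (h : Ctx hω D fB fV M) (w : Fin k → F) (c : F) : M := ⟨rU hω D w c, h.mem_rU w c⟩

theorem fixC_iff [FiniteDimensional F V] [FiniteDimensional F B] {w : Fin k → F} (hw : w ≠ 0) {c : F}
    (hc : c ≠ 0) (q : M ⧸ DM hω D M) : rM h w c • q = q ↔ FixC h q := by
  have key : ∀ a : M, rM h w c • ((a : M) : M ⧸ DM hω D M) = ((a : M) : M ⧸ DM hω D M) ↔
      (a.1 ∈ Dec hω D ∨ PC D a.1) := by
    intro a
    have e1 : rM h w c • ((a : M) : M ⧸ DM hω D M) = ((rM h w c * a : M) : M ⧸ DM hω D M) := rfl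
    rw [e1, eq_comm, QuotientGroup.eq, mem_DM, ← fix_iff h hw hc a.2]
    have e2 : (a⁻¹ * (rM h w c * a) : M).1 = a.1⁻¹ * rU hω D w c * a.1 := by
      change a.1⁻¹ * (rU hω D w c * a.1) = _
      rw [mul_assoc]
    rw [e2]
  constructor
  · intro hq
    obtain ⟨a, rfl⟩ := QuotientGroup.mk_surjective q
    exact ⟨a, rfl, (key a).1 hq⟩
  · rintro ⟨a, rfl, ha⟩
    exact (key a).2 ha

open scoped Classical in
/-- The moved cosets. -/
noncomputable def SM [Fintype (M ⧸ DM hω D M)] (h : Ctx hω D fB fV M) : Finset (M ⧸ DM hω D M) :=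
  Finset.univ.filter fun q => ¬ FixC h q

open scoped Classical in
theorem mem_SM [Fintype (M ⧸ DM hω D M)] (q : M ⧸ DM hω D M) : q ∈ SM h ↔ ¬ FixC h q := by
  rw [SM, Finset.mem_filter]
  simp

open scoped Classical in
/-- The sum over the moved cosets is a trace. -/
theorem exists_trace [Fintype F] [Fintype (M ⧸ DM hω D M)] [FiniteDimensional F V] [FiniteDimensional F B]
    {w : Fin k → F} (hw : w ≠ 0) {z : Module.End F V} (hz : z * D.cs w 1 = D.cs w 1 * z) :
    ∃ Y : Module.End F V, ∑ q ∈ SM h, phi h z q = ∑ c : F, cj (rU hω D w c) Y := by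
  have hfixz : ∀ c, cj (rU hω D w c) z = z := by
    intro c
    rw [cj_eq_iff, rU_val, add_mul, mul_add, one_mul, mul_one, smul_mul_assoc, mul_smul_comm, hz]
  have hact : ∀ c d : F, rM h w (c + d) = rM h w c * rM h w d := fun c d =>
    Subtype.ext (rU_add hω D w c d)
  have h0 : rM h w 0 = 1 := Subtype.ext (rU_zero hω D w)
  refine free_sum (fun c q => rM h w c • q) (fun q => by rw [h0, one_smul])
    (fun c d q => by rw [hact, mul_smul]) (fun c => cj (rU hω D w c)) (phi h z) ?_ (SM h) ?_ ?_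
  · intro c q
    have h1 := phi_smul h z (rM h w c) q
    have h2 : cj (rM h w c).1 z = z := hfixz c
    rw [h2] at h1
    exact h1
  · intro c q hq
    rw [mem_SM, ← fixC_iff h hw one_ne_zero] at hq ⊢
    intro h1
    apply hq
    have h2 : rM h w 1 * rM h w c = rM h w c * rM h w 1 := by rw [← hact, ← hact, add_comm]
    rw [← mul_smul, h2, mul_smul] at h1
    exact (MulAction.injective (rM h w c)) h1
  · intro c q hq hcq
    by_contra hc
    rw [mem_SM] at hq
    exact hq ((fixC_iff h hw hc q).1 hcq)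

theorem cj_rU (w : Fin k → F) (c : F) (Y : Module.End F V) :
    cj (rU hω D w c) Y = Y + c • (D.cs w 1 * Y - Y * D.cs w 1) - c ^ 2 • (D.cs w 1 * Y * D.cs w 1) := by
  rw [cj_apply, rU_neg, rU_val, rU_val, add_mul, mul_add, one_mul, mul_one, smul_mul_assoc, add_mul, mul_smul_comm,
    mul_smul_comm, smul_mul_assoc, smul_sub, neg_smul, neg_smul, smul_smul, pow_two]
  abel

theorem sum_cj [Fintype F] (w : Fin k → F) (Y : Module.End F V) :
    ∑ c : F, cj (rU hω D w c) Y = (∑ c : F, c) • (D.cs w 1 * Y - Y * D.cs w 1) -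
      (∑ c : F, c ^ 2) • (D.cs w 1 * Y * D.cs w 1) := by
  simp only [cj_rU h]
  rw [Finset.sum_sub_distrib, Finset.sum_add_distrib, ← Finset.sum_smul, ← Finset.sum_smul, Finset.sum_const,
    Finset.card_univ]
  have : Fintype.card F • Y = 0 := by
    have h1 : Fintype.card F • Y = ((Fintype.card F : ℕ) : F) • Y := (Nat.cast_smul_eq_nsmul F _ _).symm
    rw [h1, FiniteField.cast_card_eq_zero, zero_smul]
  rw [this, zero_add]

/-- The condition on `k` and `|F|`. -/
def KOK (F : Type*) [Field F] [Fintype F] (k : ℕ) : Prop :=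
  (k = 2 ∧ (2 : F) ≠ 0 ∧ 3 < Fintype.card F) ∨ (4 ≤ k ∧ (2 : F) ≠ 0) ∨ 6 ≤ k

omit h [Nontrivial B] in
theorem plucker (hω : Symp ω) (hk : k = 2) (x y w : Fin k → F) : ω x w • y - ω y w • x = ω x y • w := by
  subst hk
  have hexp : ∀ u v : Fin 2 → F, ω u v = (u 0 * v 1 - u 1 * v 0) * ω (Pi.single 0 1) (Pi.single 1 1) := by
    intro u v
    have hu : u = u 0 • Pi.single 0 1 + u 1 • Pi.single 1 1 := by
      funext i
      fin_cases i <;> simp [Pi.single_apply]
    have hv : v = v 0 • Pi.single 0 1 + v 1 • Pi.single 1 1 := by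
      funext i
      fin_cases i <;> simp [Pi.single_apply]
    conv_lhs => rw [hu, hv]
    simp only [map_add, map_smul, LinearMap.add_apply, LinearMap.smul_apply, smul_eq_mul, hω.alt]
    rw [hω.skew (Pi.single 1 1) (Pi.single 0 1)]
    ring
  rw [hexp x w, hexp y w, hexp x y]
  funext i
  fin_cases i <;> simp <;> ring

omit h [Nontrivial B] in
theorem el_comm (hω : Symp ω) {w x y : Fin k → F} (hx : ω x w = 0) (hy : ω w y = 0) (β : Module.End F B) :
    D.el y β x * D.cs w 1 = D.cs w 1 * D.el y β x := by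
  refine LinearMap.ext fun v => ?_
  rw [Module.End.mul_apply, Module.End.mul_apply, D.el_apply, TD.cs_apply, TD.cs_apply, D.el_apply, D.κι, D.κι, hx, hy,
    zero_smul, zero_smul]
  simp

open scoped Classical in
/-- The sum over the moved cosets vanishes. -/
theorem moved_zero [Fintype F] [Fintype (M ⧸ DM hω D M)] [FiniteDimensional F V] [FiniteDimensional F B]
    (hK : KOK F k) (z : Module.End F V) : ∑ q ∈ SM h, phi h z q = 0 := by
  let e : Module.End F V →+ Module.End F V :=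
    { toFun := fun z => ∑ q ∈ SM h, phi h z q
      map_zero' := by
        have : ∀ q, phi h 0 q = 0 := fun q => by
          have := phi_add h 0 0 q
          rw [add_zero] at this
          exact left_eq_add.1 this
        simp only [this, Finset.sum_const_zero]
      map_add' := fun z z' => by simp only [phi_add, Finset.sum_add_distrib] }
  have hsum : (2 : F) ≠ 0 → ∑ c : F, c = 0 := by
    intro h2
    have h3 : 2 < Fintype.card F := by
      by_contra hcon
      have h1 : 1 < Fintype.card F := Fintype.one_lt_card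
      have h4 : Fintype.card F = 2 := by omega
      apply h2
      have := FiniteField.cast_card_eq_zero F
      rw [h4] at this
      exact_mod_cast this
    have := FiniteField.sum_pow_lt_card_sub_one (K := F) 1 (by omega)
    simpa using this
  have he : e = 0 := by
    rcases hK with ⟨hk, h2, hcard⟩ | ⟨hk, h2⟩ | hk
    · -- `k = 2`
      have hs1 := hsum h2
      have hs2 : ∑ c : F, c ^ 2 = 0 := FiniteField.sum_pow_lt_card_sub_one (K := F) 2 (by
        have h5 : Fintype.card F ≠ 4 := by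
          intro h4
          apply h2
          have := FiniteField.cast_card_eq_zero F
          rw [h4] at this
          have h6 : (2 : F) * 2 = 0 := by
            have : ((4 : ℕ) : F) = 0 := this
            push_cast at this
            rw [← this]; norm_num
          exact mul_self_eq_zero.1 h6
        omega)
      have hz : ∀ w, w ≠ 0 → ∀ z : Module.End F V, z * D.cs w 1 = D.cs w 1 * z → e z = 0 := by
        intro w hw z hz
        obtain ⟨Y, hY⟩ := exists_trace h hw hz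
        change ∑ q ∈ SM h, phi h z q = 0
        rw [hY, sum_cj h, hs1, hs2, zero_smul, zero_smul, sub_zero]
      have hdiag : ∀ u β, e (D.el u β u) = 0 := by
        intro u β
        by_cases hu : u = 0
        · have : D.el u β u = 0 := by
            refine LinearMap.ext fun v => ?_
            rw [D.el_apply, hu]; simp
          rw [this, map_zero]
        · exact hz u hu _ (el_comm hω (hω.alt u) (hω.alt u) β)
      obtain ⟨a₀, ha₀⟩ := exists_ne_vec (F := F) h.hk0
      have hone : ∀ β, e (D.map hω 1 β) = 0 := fun β => hz a₀ ha₀ _ (by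
        rw [cs_eq_map (hω := hω), map_comm_map])
      apply D.end_ext hω
      intro y β x
      rw [AddMonoidHom.zero_apply]
      have e1 : D.el y β x + D.el x β y = D.el (x + y) β (x + y) - D.el x β x - D.el y β y := by
        refine LinearMap.ext fun v => ?_
        simp only [LinearMap.add_apply, LinearMap.sub_apply, TD.el_apply, map_add]
        abel
      have e2 : D.el y β x - D.el x β y = D.map hω 1 (ω x y • β) := by
        refine D.ext hω fun w b => ?_
        have h3 := congrArg (fun v => D.ι v (β b)) (plucker hω hk x y w)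
        simp only [map_sub, map_smul, LinearMap.sub_apply, LinearMap.smul_apply] at h3
        rw [LinearMap.sub_apply, D.el_apply, D.el_apply, D.κι, D.κι, D.map_ι, Module.End.one_apply,
          LinearMap.smul_apply]
        simp only [map_smul]
        exact h3
      have e3 : e (D.el y β x) + e (D.el x β y) = 0 := by
        rw [← map_add, e1, map_sub, map_sub, hdiag, hdiag, hdiag, sub_zero, sub_zero]
      have e4 : e (D.el y β x) - e (D.el x β y) = 0 := by
        rw [← map_sub, e2, hone]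
      have e5 : (2 : F) • e (D.el y β x) = 0 := by
        rw [two_smul]
        have : e (D.el y β x) + e (D.el y β x) = (e (D.el y β x) + e (D.el x β y)) +
          (e (D.el y β x) - e (D.el x β y)) := by abel
        rw [this, e3, e4, add_zero]
      exact (smul_eq_zero.1 e5).resolve_left h2
    · -- `4 ≤ k`, odd
      have hs1 := hsum h2
      apply D.end_ext hω
      intro y β x
      rw [AddMonoidHom.zero_apply]
      have key : ∀ w, w ≠ 0 → ω x w = 0 → ω y w = 0 → ∀ v, ∃ b, e (D.el y β x) v = D.ι w b := by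
        intro w hw hxw hyw v
        obtain ⟨Y, hY⟩ := exists_trace h hw (el_comm (D := D) hω hxw (by rw [hω.skew, hyw, neg_zero]) β)
        have h1 : e (D.el y β x) = _ := hY
        rw [h1, sum_cj h, hs1, zero_smul, zero_sub, LinearMap.neg_apply, LinearMap.smul_apply,
          Module.End.mul_apply, Module.End.mul_apply, TD.cs_apply, ← map_smul, ← map_neg]
        exact ⟨_, rfl⟩
      obtain ⟨w, hw, hw0⟩ := exists_perp_avoid hω ![x, y] 0 (by omega)
      obtain ⟨w', hw', hww'⟩ := exists_perp_avoid hω ![x, y] w (by omega)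
      have a0 := hw 0
      have a1 := hw 1
      have b0 := hw' 0
      have b1 := hw' 1
      simp only [Matrix.cons_val_zero, Matrix.cons_val_one, Matrix.cons_val_fin_one] at a0 a1 b0 b1
      have hwne : w ≠ 0 := by simpa using hw0 0
      have hw'ne : w' ≠ 0 := by
        intro h0
        exact hww' 0 (by rw [h0, zero_smul])
      refine LinearMap.ext fun v => ?_
      obtain ⟨b, hb⟩ := key w hwne a0 a1 v
      obtain ⟨b', hb'⟩ := key w' hw'ne b0 b1 v
      have h3 := D.indep hω hww' (b := b') (b' := -b) (by rw [map_neg, ← hb, ← hb']; abel)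
      rw [hb', h3, map_zero]; rfl
    · -- `6 ≤ k`
      apply D.end_ext hω
      intro y β x
      rw [AddMonoidHom.zero_apply]
      have key : ∀ w, w ≠ 0 → ω x w = 0 → ω y w = 0 → ∀ v, D.κ w v = 0 → ∃ b, e (D.el y β x) v = D.ι w b := by
        intro w hw hxw hyw v hv
        obtain ⟨Y, hY⟩ := exists_trace h hw (el_comm (D := D) hω hxw (by rw [hω.skew, hyw, neg_zero]) β)
        have h1 : e (D.el y β x) = _ := hY
        have h2 : D.cs w 1 v = 0 := by rw [TD.cs_apply, hv]; simp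
        rw [h1, sum_cj h, LinearMap.sub_apply, LinearMap.smul_apply, LinearMap.smul_apply, LinearMap.sub_apply,
          Module.End.mul_apply, Module.End.mul_apply, Module.End.mul_apply, h2, map_zero, map_zero, smul_zero,
          sub_zero, sub_zero, TD.cs_apply, ← map_smul]
        exact ⟨_, rfl⟩
      refine D.ext hω fun u b => ?_
      obtain ⟨w, hw, hw0⟩ := exists_perp_avoid hω ![x, y, u] 0 (by omega)
      obtain ⟨w', hw', hww'⟩ := exists_perp_avoid hω ![x, y, u] w (by omega)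
      have a0 := hw 0
      have a1 := hw 1
      have a2 := hw 2
      have b0 := hw' 0
      have b1 := hw' 1
      have b2 := hw' 2
      simp only [Matrix.cons_val_zero, Matrix.cons_val_one, Matrix.cons_val_fin_one, Matrix.cons_val] at a0 a1 a2 b0 b1 b2
      have hwne : w ≠ 0 := by simpa using hw0 0
      have hw'ne : w' ≠ 0 := by
        intro h0
        exact hww' 0 (by rw [h0, zero_smul])
      obtain ⟨c, hc⟩ := key w hwne a0 a1 (D.ι u b) (by rw [D.κι, hω.skew, a2, neg_zero, zero_smul])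
      obtain ⟨c', hc'⟩ := key w' hw'ne b0 b1 (D.ι u b) (by rw [D.κι, hω.skew, b2, neg_zero, zero_smul])
      have h3 := D.indep hω hww' (b := c') (b' := -c) (by rw [map_neg, ← hc, ← hc']; abel)
      rw [hc', h3, map_zero]; rfl
  have := DFunLike.congr_fun he z
  exact this

end

end Cfsg.Agent.H889.C7
end

-- part: H889/C7/SlotThm2
section
/-!
The slot theorem, conclusion.
-/

set_option autoImplicit false
set_option linter.unusedSectionVars false
set_option linter.unusedVariables false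
set_option linter.unusedSimpArgs false

namespace Cfsg.Agent.H889.C7

open Module

variable {F : Type*} [Field F] {k : ℕ} {ω : LinearMap.BilinForm F (Fin k → F)} {B V : Type*}
  [AddCommGroup B] [Module F B] [AddCommGroup V] [Module F V]
  {D : TD ω B V} {fB : LinearMap.BilinForm F B} {fV : LinearMap.BilinForm F V}
  {M : Subgroup (Module.End F V)ˣ} {hω : Symp ω}

theorem exists_trace_one (B : Type*) [AddCommGroup B] [Module F B] [FiniteDimensional F B] [Nontrivial B] :
    ∃ β : Module.End F B, LinearMap.trace F B β = 1 := by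
  obtain ⟨b₀, hb₀⟩ := exists_ne (0 : B)
  obtain ⟨ψ, hψ⟩ : ∃ ψ : B →ₗ[F] F, ψ b₀ = 1 := by
    obtain ⟨ψ, hψ⟩ : ∃ ψ : B →ₗ[F] F, ψ b₀ ≠ 0 := by
      by_contra hcon
      push Not at hcon
      exact hb₀ ((Module.forall_dual_apply_eq_zero_iff F b₀).1 hcon)
    exact ⟨(ψ b₀)⁻¹ • ψ, by rw [LinearMap.smul_apply, smul_eq_mul, inv_mul_cancel₀ hψ]⟩
  exact ⟨ψ.smulRight b₀, by rw [LinearMap.trace_smulRight, hψ]⟩

section

variable [Nontrivial B] [FiniteDimensional F V] [FiniteDimensional F B] (h : Ctx hω D fB fV M)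
include h

theorem phi_comm {g : M} (hg : PC D g.1) (z : Module.End F V) (u : Fin k → F) :
    phi h z (g : M ⧸ DM hω D M) * D.cs u 1 = D.cs u 1 * phi h z (g : M ⧸ DM hω D M) := by
  rw [phi_mk, TD.TA, cs_eq_map (hω := hω), hg.full h]

theorem phi_zero {g : M} (hg : PC D g.1) (w : Fin k → F) (β : Module.End F B) :
    phi h (D.el w β w) (g : M ⧸ DM hω D M) = 0 := by
  rw [phi_mk]
  have h1 : D.TA hω (cj g.1⁻¹ (D.el w β w)) = 0 := by
    apply D.TA_eq_zero hω
    intro v u
    obtain ⟨a₀, ha₀⟩ := exists_ne_vec (F := F) h.hk0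
    obtain ⟨s, hs⟩ := one_map_of_comm D hω ha₀ (s := cj g.1 (D.map hω (rk ω v u) 1)) (fun x => by
      rw [cs_eq_map (hω := hω), hg.full h])
    have e1 : cj g.1⁻¹ (D.el w β w) * D.el v 1 u = cj g.1⁻¹ (D.el w β w * D.map hω 1 s) := by
      rw [cj_prod, ← hs, cj_inv_self', D.el_eq_map hω v]
    have e2 : LinearMap.trace F V (cj g.1⁻¹ (D.el w β w * D.map hω 1 s)) =
        LinearMap.trace F V (D.el w β w * D.map hω 1 s) := by
      have e3 : ∀ X : Module.End F V, LinearMap.trace F V (cj g.1⁻¹ X) = LinearMap.trace F V X := by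
        intro X
        rw [cj_apply, inv_inv, LinearMap.trace_mul_comm, ← mul_assoc, ← Units.val_mul, mul_inv_cancel,
          Units.val_one, one_mul]
      exact e3 _
    rw [e1, e2]
    have e4 : D.el w β w * D.map hω 1 s = D.ι w ∘ₗ ((β * s) ∘ₗ D.κ w) := by
      refine D.ext hω fun x b => ?_
      rw [Module.End.mul_apply, D.map_ι, D.el_apply, D.κι, Module.End.one_apply, LinearMap.comp_apply,
        LinearMap.comp_apply, D.κι, Module.End.mul_apply]
      simp only [map_smul]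
    rw [e4, LinearMap.trace_comp_comm']
    have e5 : ((β * s) ∘ₗ D.κ w) ∘ₗ D.ι w = 0 := by
      refine LinearMap.ext fun b => ?_
      rw [LinearMap.comp_apply, LinearMap.comp_apply, D.κι, hω.alt, zero_smul, map_zero]; rfl
    rw [e5, map_zero]
  rw [h1, map_zero]

/-- **The slot theorem.** -/
theorem slot_dich [Fintype F] (hK : KOK F k) {g : (Module.End F V)ˣ} (hg : g ∈ M) :
    g ∈ Dec hω D ∨ ∀ w v, cj g (D.cs w 1) * D.cs v 1 = D.cs v 1 * cj g (D.cs w 1) := by
  classical
  have : Finite (Module.End F V) := Module.finite_of_finite F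
  have : Finite (Module.End F V)ˣ := inferInstance
  have := Fintype.ofFinite (M ⧸ DM hω D M)
  by_cases hgD : g ∈ Dec hω D
  · exact Or.inl hgD
  right
  intro w v
  by_cases hw : w = 0
  · have h0 : D.cs (0 : Fin k → F) 1 = 0 := by
      refine LinearMap.ext fun x => ?_
      rw [TD.cs_apply]; simp
    rw [hw, h0, map_zero, zero_mul, mul_zero]
  -- the equivariant operator
  set Φ : Module.End F V → Module.End F V := fun z => ∑ q : M ⧸ DM hω D M, phi h z q with hΦ
  have hΦM : ∀ z, Φ (cj g z) = cj g (Φ z) := by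
    intro z
    rw [hΦ]
    simp only
    rw [map_sum, ← Equiv.sum_comp (MulAction.toPerm (⟨g, hg⟩ : M))]
    refine Finset.sum_congr rfl fun q _ => ?_
    exact phi_smul h z ⟨g, hg⟩ q
  have hsplit : ∀ z, Φ z = ∑ q ∈ (SM h)ᶜ, phi h z q := by
    intro z
    rw [hΦ]
    simp only
    rw [← Finset.sum_add_sum_compl (SM h), moved_zero h hK, zero_add]
  have hone : ((1 : M) : M ⧸ DM hω D M) ∈ (SM h)ᶜ := by
    rw [Finset.mem_compl, mem_SM, not_not]
    exact ⟨1, rfl, Or.inl (Dec hω D).one_mem⟩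
  have hTA : ∀ z, phi h z ((1 : M) : M ⧸ DM hω D M) = D.TA hω z := by
    intro z
    rw [phi_mk]
    change cj 1 (D.TA hω (cj (1 : (Module.End F V)ˣ)⁻¹ z)) = _
    rw [inv_one, cj_one', cj_one']
  have hother : ∀ q ∈ (SM h)ᶜ.erase ((1 : M) : M ⧸ DM hω D M), ∃ a : M, (a : M ⧸ DM hω D M) = q ∧ PC D a.1 := by
    intro q hq
    obtain ⟨h1, h2⟩ := Finset.mem_erase.1 hq
    rw [Finset.mem_compl, mem_SM, not_not] at h2
    obtain ⟨a, rfl, ha⟩ := h2
    rcases ha with ha | ha
    · exfalso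
      apply h1
      rw [eq_comm, QuotientGroup.eq, mem_DM]
      change (1 : (Module.End F V)ˣ)⁻¹ * a.1 ∈ _
      rw [inv_one, one_mul]
      exact ha
    · exact ⟨a, rfl, ha⟩
  obtain ⟨β, hβ⟩ := exists_trace_one (F := F) B
  have h1 : Φ (D.el w β w) = D.cs w 1 := by
    rw [hsplit, ← Finset.add_sum_erase _ _ hone, hTA, D.TA_el, hβ, one_smul]
    rw [Finset.sum_eq_zero, add_zero]
    · rfl
    · intro q hq
      obtain ⟨a, rfl, ha⟩ := hother q hq
      exact phi_zero h ha w β
  have h2 : ∃ R : Module.End F V, (∀ u, R * D.cs u 1 = D.cs u 1 * R) ∧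
      Φ (cj g (D.el w β w)) = D.TA hω (cj g (D.el w β w)) + R := by
    refine ⟨∑ q ∈ (SM h)ᶜ.erase ((1 : M) : M ⧸ DM hω D M), phi h (cj g (D.el w β w)) q, fun u => ?_, ?_⟩
    · rw [Finset.sum_mul, Finset.mul_sum]
      refine Finset.sum_congr rfl fun q hq => ?_
      obtain ⟨a, rfl, ha⟩ := hother q hq
      exact phi_comm h ha _ u
    · rw [hsplit, ← Finset.add_sum_erase _ _ hone, hTA]
  obtain ⟨R, hR, hR'⟩ := h2
  rw [hΦM, h1] at hR'
  obtain ⟨a₀, ha₀⟩ := exists_ne_vec (F := F) h.hk0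
  obtain ⟨s, hs⟩ := one_map_of_comm D hω ha₀ hR
  rw [hs, TD.TA] at hR'
  set x := D.ptr hω (cj g (D.el w β w)) with hx
  have hRL : RL B fV (D.map hω x 1 + D.map hω 1 s) := by
    rw [← hR']
    exact (rl_cs hω h.hf hw).conj (h.hM.isom _ hg)
  rcases sum_scalar hω h.hk x s hRL.sq hRL.rank with ⟨c, hc⟩ | ⟨c, hc⟩
  · rw [hR', hc, D.map_smul_left, ← D.map_smul_right, ← D.map_add_right, cs_eq_map (hω := hω) v,
      map_comm_map]
  · exfalso
    rw [hc, D.map_smul_right, ← D.map_smul_left, ← D.map_add_left] at hRL hR'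
    obtain ⟨u', c', hu', hc', huc⟩ := rl_left hω h.hf hRL
    apply hgD
    exact same_slot hω h.hf h.hM h.hL h.hF hw hu' hc' hg (by
      rw [huc] at hR'
      have := (cj_eq_iff g _ _).1 hR'
      rw [this, smul_mul_assoc])

end

end Cfsg.Agent.H889.C7
end

-- part: H889/C7/Norm
section
/-!
`M` normalises the set of root elements of the slots of `T n`.
-/

set_option autoImplicit false
set_option linter.unusedSectionVars false
set_option linter.unusedVariables false
set_option linter.unusedSimpArgs false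

namespace Cfsg.Agent.H889.C7

open Module Cfsg.Agent.H889

variable {F : Type*} [Field F] {k : ℕ} {ω : LinearMap.BilinForm F (Fin k → F)}

/-- Groups in case I. -/
structure GoodT (hω : Symp ω) (n : ℕ) (M : Subgroup (Module.End F (T F k (n + 1)))ˣ) : Prop where
  isom : ∀ g ∈ M, ∀ v w, fT ω (n + 1) (g.1 v) (g.1 w) = fT ω (n + 1) v w
  sp : ∀ (i : Fin (n + 1)) (α : (Module.End F (Fin k → F))ˣ), IsoW ω α → sU i α ∈ M
  caseI : ∀ i : Fin (n + 1), ∀ a, a ≠ 0 → ∀ s : Module.End F (T F k n), ∀ g ∈ M,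
    g.1 = 1 + (DT hω i).cs a s → ∃ τ : F, s = τ • 1

section

variable {hω : Symp ω}

theorem GoodT.goodM {n : ℕ} {M : Subgroup (Module.End F (T F k (n + 1)))ˣ} (h : GoodT hω n M)
    (i : Fin (n + 1)) : GoodM hω (DT hω i) (fT ω n) (fT ω (n + 1)) M where
  isom := h.isom
  sp := fun α hα => by rw [mapU_sU]; exact h.sp i α hα
  caseI := h.caseI i

theorem exists_zeta [Fintype F] (h : 3 < Fintype.card F) : ∃ ζ : F, ζ ≠ 0 ∧ ζ ^ 2 ≠ 1 := by
  classical
  by_contra hcon
  push Not at hcon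
  have h1 : (Finset.univ : Finset F) ⊆ {0, 1, -1} := by
    intro ζ _
    by_cases h0 : ζ = 0
    · simp [h0]
    · have := hcon ζ h0
      rw [pow_two] at this
      rcases mul_self_eq_one_iff.1 this with h | h <;> simp [h]
  have h2 := Finset.card_le_card h1
  rw [Finset.card_univ] at h2
  have h3 : ({0, 1, -1} : Finset F).card ≤ 3 := Finset.card_le_three
  omega

theorem fieldOK [Fintype F] (hω : Symp ω) (hK : KOK F k) : FieldOK ω := by
  have hodd : 4 ≤ k → (2 : F) ≠ 0 → FieldOK ω := by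
    intro hk h2
    obtain ⟨u, hu⟩ := exists_ne_vec (F := F) (k := k) (by omega)
    obtain ⟨n, hn, hn'⟩ := exists_perp_avoid hω ![u] u (by omega)
    have hn0 := hn 0
    simp only [Matrix.cons_val_zero, Matrix.cons_val_fin_one] at hn0
    refine Or.inr (Or.inl ⟨h2, u, n, hn0, hu, ?_, ?_, ?_⟩)
    · intro h0
      exact hn' 0 (by rw [h0, zero_smul])
    · intro h0
      exact hn' (-1) (by rw [neg_one_smul, eq_neg_of_add_eq_zero_left h0])
    · intro h0
      exact hn' 1 (by rw [one_smul, sub_eq_zero.1 h0])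
  rcases hK with ⟨hk, h2, hcard⟩ | ⟨hk, h2⟩ | hk
  · exact Or.inl (exists_zeta hcard)
  · exact hodd hk h2
  · by_cases h2 : (2 : F) = 0
    · obtain ⟨w, w', x, x', y, y', h1, h2', h3, h4, h5, h6, h7, h8, h9, h10, h11, h12, h13, h14, h15⟩ :=
        exists_three_pairs hω hk
      have hz : ∀ v v' : Fin k → F, ω v v' = 1 → v ≠ 0 := by
        rintro v v' h rfl
        simp at h
      refine Or.inr (Or.inr ⟨h2, w, x, y, h4, h6, h12, hz _ _ h1, hz _ _ h2', hz _ _ h3, hz _ x' ?_, hz _ y' ?_,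
        hz _ y' ?_, hz _ y' ?_⟩)
      · rw [map_add, LinearMap.add_apply, h5, h2', zero_add]
      · rw [map_add, LinearMap.add_apply, h7, h3, zero_add]
      · rw [map_add, LinearMap.add_apply, h13, h3, zero_add]
      · rw [map_add, map_add, LinearMap.add_apply, LinearMap.add_apply, h7, h13, h3, zero_add, zero_add]
    · exact hodd (by omega) h2

theorem KOK.pos [Fintype F] (hK : KOK F k) : 0 < k := by
  rcases hK with ⟨hk, _, _⟩ | ⟨hk, _⟩ | hk <;> omega

theorem KOK.hk [Fintype F] (hK : KOK F k) : (2 : F) ≠ 0 ∨ 4 ≤ k := by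
  rcases hK with ⟨hk, h2, _⟩ | ⟨hk, h2⟩ | hk
  · exact Or.inl h2
  · exact Or.inl h2
  · exact Or.inr (by omega)

theorem perp_two (hω : Symp ω) (hk : k = 2) {a m : Fin k → F} (ha : a ≠ 0) (hm : ω a m = 0) :
    ∃ c : F, m = c • a := by
  obtain ⟨a', ha'⟩ := hω.exists_pair ha
  have h := plucker hω hk a a' m
  rw [hm, ha', zero_smul, one_smul, zero_sub] at h
  exact ⟨-ω a' m, by rw [neg_smul, h]⟩

instance T_nontrivial {n : ℕ} [h : NeZero k] : Nontrivial (T F k n) := by
  have : Nonempty (Fin k) := ⟨⟨0, Nat.pos_of_ne_zero h.1⟩⟩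
  infer_instance

theorem scalar_T0 (s : Module.End F (T F k 0)) : ∃ τ : F, s = τ • 1 := by
  refine ⟨s (tp fun i => 0) default, LinearMap.ext fun v => ?_⟩
  have h1 : tp (fun i : Fin 0 => (0 : Fin k → F)) default = 1 := by rw [tp_apply, Fin.prod_univ_zero]
  rw [tp_zero_eq v, map_smul, LinearMap.smul_apply, Module.End.one_apply, tp_zero_eq (s _), smul_comm,
    Pi.smul_apply, h1, smul_eq_mul, mul_one]

theorem GoodT.triv [Fintype F] (hK : KOK F k) (hk : k ≠ 2) {n : ℕ}
    {M : Subgroup (Module.End F (T F k (n + 1)))ˣ}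
    (h : GoodT hω n M) (i : Fin (n + 1)) : TrivT hω (DT hω i) (fT ω n) M := by
  intro T' h1 hinv hcon s hs
  cases n with
  | zero => exact scalar_T0 s
  | succ n =>
    have hT : SlotInv ω T' := by
      intro j α hα s hs
      exact hinv (sU j α) (by rw [mapU_one_sU]; exact h.sp _ α hα) s hs
    rcases hK with ⟨hk', _, _⟩ | ⟨hk', h2⟩ | hk'
    · exact absurd hk' hk
    · exact triv_odd hω h2 hk' h1 hT hcon hs
    · exact triv_even hω hk' hT hcon hs

theorem GoodT.layerC [Fintype F] (hK : KOK F k) {n : ℕ} {M : Subgroup (Module.End F (T F k (n + 1)))ˣ}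
    (h : GoodT hω n M) (i : Fin (n + 1)) {a : Fin k → F} (ha : a ≠ 0) : LayerC hω (DT hω i) M a := by
  have : NeZero k := ⟨hK.pos.ne'⟩
  obtain ⟨a', haa'⟩ := hω.exists_pair ha
  intro g hg hgU
  by_cases hk : k = 2
  · obtain ⟨r, hr⟩ := eq_cs_of_sig_zero hω (DT_forms hω i) haa' hgU (h.isom g hg) (fun m hm => by
      obtain ⟨c, rfl⟩ := perp_two hω hk ha hm
      rw [TD.sig_smul, TD.sig_self hgU, smul_zero])
    obtain ⟨τ, hτ⟩ := h.caseI i a ha r g hg hr
    refine ⟨tv hω τ a, isoW_tv hω τ a, ?_, ?_⟩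
    · rw [tv_apply, hω.alt, mul_zero, zero_smul, add_zero]
    · apply Units.ext
      rw [hr, mapU_tv_val, hτ]
  · exact layer hω (DT_forms hω i) (h.goodM i) (h.triv hK hk i) haa' hg hgU

theorem GoodT.ctx [Fintype F] (hK : KOK F k) {n : ℕ} {M : Subgroup (Module.End F (T F k (n + 1)))ˣ}
    (h : GoodT hω n M) (i : Fin (n + 1)) : Ctx hω (DT hω i) (fT ω n) (fT ω (n + 1)) M where
  hf := DT_forms hω i
  hM := h.goodM i
  hL := fun a ha => h.layerC hK i ha
  hF := fieldOK hω hK
  hk := hK.hk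
  hk0 := hK.pos

/-! ### Slot permutations -/

/-- The permutation operator: moves slot `i` to slot `π i`. -/
def pE {n : ℕ} (π : Equiv.Perm (Fin n)) : Module.End F (T F k n) where
  toFun v := fun a => v (a ∘ π)
  map_add' v w := rfl
  map_smul' c v := rfl

theorem pE_tp {n : ℕ} (π : Equiv.Perm (Fin n)) (xs : Fin n → (Fin k → F)) :
    pE π (tp xs) = tp (fun i => xs (π.symm i)) := by
  funext a
  change tp xs (a ∘ π) = _
  rw [tp_apply, tp_apply]
  rw [← Equiv.prod_comp π fun i => xs (π.symm i) (a i)]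
  refine Finset.prod_congr rfl fun i _ => ?_
  rw [Equiv.symm_apply_apply]
  rfl

/-- The permutation operator as a unit. -/
def pU {n : ℕ} (π : Equiv.Perm (Fin n)) : (Module.End F (T F k n))ˣ where
  val := pE π
  inv := pE π.symm
  val_inv := by
    refine LinearMap.ext fun v => ?_
    funext a
    change v ((a ∘ π) ∘ π.symm) = v a
    rw [Function.comp_assoc, Equiv.self_comp_symm, Function.comp_id]
  inv_val := by
    refine LinearMap.ext fun v => ?_
    funext a
    change v ((a ∘ π.symm) ∘ π) = v a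
    rw [Function.comp_assoc, Equiv.symm_comp_self, Function.comp_id]

theorem pU_conj {n : ℕ} (π : Equiv.Perm (Fin n)) (i : Fin n) (x : Module.End F (Fin k → F)) :
    cj (pU π) (sE i x) = sE (π i) x := by
  rw [cj_eq_iff]
  refine tp_ext fun xs => ?_
  rw [Module.End.mul_apply, Module.End.mul_apply, sE_tp]
  change pE π (tp (Function.update xs i (x (xs i)))) = sE (π i) x (pE π (tp xs))
  rw [pE_tp, pE_tp, sE_tp, Equiv.symm_apply_apply]
  congr 1
  funext j
  by_cases hj : j = π i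
  · rw [hj, Function.update_self, Equiv.symm_apply_apply, Function.update_self]
  · rw [Function.update_of_ne hj, Function.update_of_ne]
    intro h0
    exact hj (by rw [← h0, Equiv.apply_symm_apply])

theorem sE_T1 (hω : Symp ω) (s : Module.End F (T F k 1)) : ∃ x : Module.End F (Fin k → F), s = sE 0 x := by
  -- `ι w 1`
  set b₀ : T F k 0 := tp (fun i => 0) with hb₀
  have hb : ∀ b : T F k 0, b = b default • b₀ := fun b => tp_zero_eq b
  have hb1 : b₀ default = 1 := by rw [hb₀, tp_apply, Fin.prod_univ_zero]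
  have hι : ∀ v : T F k 1, v = ιT 0 (fun p => v fun _ => p) b₀ := by
    intro v
    funext a
    rw [ιT_apply]
    have h1 : b₀ (Fin.removeNth 0 a) = 1 := by rw [Subsingleton.elim (Fin.removeNth 0 a) default, hb1]
    rw [h1, mul_one]
    congr 1
    funext i
    rw [Subsingleton.elim i 0]
  let x : Module.End F (Fin k → F) :=
    { toFun := fun w => fun p => s (ιT 0 w b₀) fun _ => p
      map_add' := fun w w' => by rw [map_add, LinearMap.add_apply, map_add]; rfl
      map_smul' := fun c w => by rw [map_smul, LinearMap.smul_apply, map_smul]; rfl }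
  refine ⟨x, (DT hω (0 : Fin 1)).ext hω fun w b => ?_⟩
  rw [DT_ι, sE_ιT_self, hb b, map_smul, map_smul, map_smul, hι (s (ιT 0 w b₀))]
  rfl

/-- **`M` normalises the roots.** -/
theorem norm_root [Fintype F] (hK : KOK F k) {n : ℕ} {M : Subgroup (Module.End F (T F k (n + 2)))ˣ}
    (h : GoodT hω (n + 1) M) (hA : ∀ π : Equiv.Perm (Fin (n + 2)), Equiv.Perm.sign π = 1 → pU π ∈ M)
    {g : (Module.End F (T F k (n + 2)))ˣ} (hg : g ∈ M) (i : Fin (n + 2)) {w : Fin k → F} (hw : w ≠ 0) :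
    ∃ (j : Fin (n + 2)) (u : Fin k → F) (c : F), u ≠ 0 ∧ c ≠ 0 ∧
      cj g (sE i (rk ω w w)) = c • sE j (rk ω u u) := by
  have : NeZero k := ⟨hK.pos.ne'⟩
  have hctx := fun i => h.ctx hK i
  have hRLw : RL (T F k (n + 1)) (fT ω (n + 2)) (cj g (sE i (rk ω w w))) := by
    rw [C_eq hω]
    exact (rl_cs hω (DT_forms hω i) hw).conj (h.isom g hg)
  -- decomposable elements
  have hdec : ∀ (g : (Module.End F (T F k (n + 2)))ˣ), g ∈ M → g ∈ Dec hω (DT hω i) →
      ∃ (u : Fin k → F) (c : F), u ≠ 0 ∧ c ≠ 0 ∧ cj g (sE i (rk ω w w)) = c • sE i (rk ω u u) := by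
    rintro g hg ⟨α, β, rfl⟩
    obtain ⟨μ, hμ, hα⟩ := sim_of_iso hω (DT_forms hω i) hK.pos (h.isom _ hg)
    refine ⟨α.1 w, μ⁻¹, ?_, inv_ne_zero hμ, ?_⟩
    · intro h0
      exact hw (by rw [← inv_apply α w, h0, map_zero])
    · rw [C_eq hω, C_eq hω, cj_apply, TD.cs_eq_el, (DT hω i).el_conj hω hμ hα, mul_one, ← Units.val_mul,
        mul_inv_cancel, Units.val_one]
      rfl
  obtain ⟨j, v, hjv⟩ : ∃ (j : Fin (n + 2)) (v : Fin k → F),
      cj g (sE i (rk ω w w)) * sE j (rk ω v v) ≠ sE j (rk ω v v) * cj g (sE i (rk ω w w)) := by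
    by_contra hcon
    push Not at hcon
    obtain ⟨τ, hτ⟩ := schur hω hK.pos (n + 2) _ hcon
    have h1 := hRLw.sq
    rw [hτ, smul_mul_assoc, one_mul, smul_smul] at h1
    have h2 : τ = 0 := by
      rcases smul_eq_zero.1 h1 with h2 | h2
      · exact mul_self_eq_zero.1 h2
      · exact absurd h2 one_ne_zero
    have h3 := hRLw.rank
    rw [hτ, h2, zero_smul, LinearMap.range_zero, finrank_bot] at h3
    exact (finrank_pos (R := F) (M := T F k (n + 1))).ne h3
  by_cases hji : j = i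
  · subst hji
    rcases slot_dich (hctx j) hK hg with h1 | h1
    · obtain ⟨u, c, hu, hc, huc⟩ := hdec g hg h1
      exact ⟨j, u, c, hu, hc, huc⟩
    · exfalso
      apply hjv
      rw [C_eq hω j v, C_eq hω j w]
      exact h1 w v
  rcases Nat.eq_zero_or_pos n with rfl | hn
  · -- two slots
    rcases slot_dich (hctx i) hK hg with h1 | h1
    · obtain ⟨u, c, hu, hc, huc⟩ := hdec g hg h1
      exact ⟨i, u, c, hu, hc, huc⟩
    · obtain ⟨a₀, ha₀⟩ := exists_ne_vec (F := F) hK.pos
      obtain ⟨s, hs⟩ := one_map_of_comm (DT hω i) hω ha₀ (fun v => h1 w v)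
      obtain ⟨x, hx⟩ := sE_T1 hω s
      rw [hx, map_one_sE, ← C_eq hω, ← map_sE hω (i.succAbove 0) x] at hs
      have hRL' := hRLw
      rw [hs] at hRL'
      obtain ⟨u, c, hu, hc, huc⟩ := rl_left hω (DT_forms hω (i.succAbove 0)) hRL'
      exact ⟨i.succAbove 0, u, c, hu, hc, by rw [hs, huc, C_eq hω]⟩
  · -- at least three slots
    obtain ⟨l, hli, hlj⟩ : ∃ l : Fin (n + 2), l ≠ i ∧ l ≠ j := by
      by_contra hcon
      push Not at hcon
      have h1 : (Finset.univ : Finset (Fin (n + 2))) ⊆ {i, j} := by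
        intro l _
        by_cases h2 : l = i
        · simp [h2]
        · simp [hcon l h2]
      have h2 := Finset.card_le_card h1
      rw [Finset.card_univ, Fintype.card_fin] at h2
      have h3 : ({i, j} : Finset (Fin (n + 2))).card ≤ 2 := Finset.card_le_two
      omega
    set π : Equiv.Perm (Fin (n + 2)) := Equiv.swap i l * Equiv.swap i j with hπ
    have hsign : Equiv.Perm.sign π = 1 := by
      rw [hπ, Equiv.Perm.sign_mul, Equiv.Perm.sign_swap (Ne.symm hli), Equiv.Perm.sign_swap (Ne.symm hji)]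
      decide
    have hπi : π i = j := by
      rw [hπ, Equiv.Perm.mul_apply, Equiv.swap_apply_left, Equiv.swap_apply_of_ne_of_ne hji (Ne.symm hlj)]
    have hg' : (pU π)⁻¹ * g ∈ M := M.mul_mem (M.inv_mem (hA π hsign)) hg
    rcases slot_dich (hctx i) hK hg' with h1 | h1
    · obtain ⟨u, c, hu, hc, huc⟩ := hdec _ hg' h1
      refine ⟨j, u, c, hu, hc, ?_⟩
      have h2 := congrArg (cj (pU π)) huc
      rw [← cj_mul', mul_inv_cancel_left, cj_smul, pU_conj, hπi] at h2
      exact h2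
    · exfalso
      apply hjv
      have h2 := congrArg (cj (pU π)) (h1 w v)
      rw [cj_prod, cj_prod, ← cj_mul', mul_inv_cancel_left, ← C_eq hω, ← C_eq hω, pU_conj, hπi] at h2
      exact h2

end

end Cfsg.Agent.H889.C7
end

-- part: H889/C7/Pure
section
/-!
Pure operators on `T n`.
-/

set_option autoImplicit false
set_option linter.unusedSectionVars false
set_option linter.unusedVariables false
set_option linter.unusedSimpArgs false

namespace Cfsg.Agent.H889.C7

open Module Cfsg.Agent.H889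

variable {F : Type*} [Field F] {k : ℕ} {ω : LinearMap.BilinForm F (Fin k → F)}

/-- The pure operator `⊗ x j`. -/
noncomputable def pm' {n : ℕ} (x : Fin n → Module.End F (Fin k → F)) : Module.End F (T F k n) :=
  Matrix.toLin' (pm fun i => LinearMap.toMatrix' (x i))

theorem pm'_tp {n : ℕ} (x : Fin n → Module.End F (Fin k → F)) (xs : Fin n → (Fin k → F)) :
    pm' x (tp xs) = tp (fun i => x i (xs i)) := by
  rw [pm', Matrix.toLin'_apply, pm_mulVec]
  congr 1
  funext i
  rw [← Matrix.toLin'_apply, Matrix.toLin'_toMatrix']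

theorem pm'_mul {n : ℕ} (x y : Fin n → Module.End F (Fin k → F)) :
    pm' x * pm' y = pm' (fun i => x i * y i) := by
  refine tp_ext fun xs => ?_
  rw [Module.End.mul_apply, pm'_tp, pm'_tp, pm'_tp]
  rfl

theorem pm'_eq_one {n : ℕ} : pm' (fun _ : Fin n => (1 : Module.End F (Fin k → F))) = 1 := by
  refine tp_ext fun xs => ?_
  rw [pm'_tp]; rfl

theorem pm'_update_tp {n : ℕ} (x : Fin n → Module.End F (Fin k → F)) (j : Fin n)
    (y : Module.End F (Fin k → F)) (xs : Fin n → (Fin k → F)) :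
    pm' (Function.update x j y) (tp xs) = tp (Function.update (fun i => x i (xs i)) j (y (xs j))) := by
  rw [pm'_tp]
  congr 1
  funext i
  by_cases h : i = j
  · subst h
    rw [Function.update_self, Function.update_self]
  · rw [Function.update_of_ne h, Function.update_of_ne h]

theorem sE_mul_pm' {n : ℕ} (j : Fin n) (y : Module.End F (Fin k → F))
    (x : Fin n → Module.End F (Fin k → F)) : sE j y * pm' x = pm' (Function.update x j (y * x j)) := by
  refine tp_ext fun xs => ?_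
  rw [Module.End.mul_apply, pm'_update_tp, pm'_tp, sE_tp]
  rfl

theorem pm'_mul_sE {n : ℕ} (j : Fin n) (y : Module.End F (Fin k → F))
    (x : Fin n → Module.End F (Fin k → F)) : pm' x * sE j y = pm' (Function.update x j (x j * y)) := by
  refine tp_ext fun xs => ?_
  rw [Module.End.mul_apply, pm'_update_tp, sE_tp, pm'_tp]
  congr 1
  funext i
  by_cases h : i = j
  · subst h
    rw [Function.update_self, Function.update_self]
    rfl
  · rw [Function.update_of_ne h, Function.update_of_ne h]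

theorem pm'_conj {n : ℕ} (j : Fin n) (α : (Module.End F (Fin k → F))ˣ)
    (x : Fin n → Module.End F (Fin k → F)) :
    sE j α.1 * pm' x * sE j (α⁻¹).1 = pm' (Function.update x j (α.1 * x j * (α⁻¹).1)) := by
  rw [sE_mul_pm', pm'_mul_sE, Function.update_self, Function.update_idem]

theorem pm'_smul {n : ℕ} (x : Fin n → Module.End F (Fin k → F)) (j : Fin n) (c : F)
    (y : Module.End F (Fin k → F)) : pm' (Function.update x j (c • y)) = c • pm' (Function.update x j y) := by
  refine tp_ext fun xs => ?_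
  rw [LinearMap.smul_apply, pm'_update_tp, pm'_update_tp, LinearMap.smul_apply, tp_update_smul]

theorem pm'_perm {n : ℕ} (π : Equiv.Perm (Fin n)) (x : Fin n → Module.End F (Fin k → F)) :
    cj (pU π) (pm' x) = pm' (fun i => x (π.symm i)) := by
  rw [cj_eq_iff]
  refine tp_ext fun xs => ?_
  rw [Module.End.mul_apply, Module.End.mul_apply, pm'_tp]
  change pE π (tp fun i => x i (xs i)) = pm' _ (pE π (tp xs))
  rw [pE_tp, pE_tp, pm'_tp]

/-- In terms of slot `i`. -/
theorem map_pm' (hω : Symp ω) {n : ℕ} (i : Fin (n + 1)) (y : Module.End F (Fin k → F))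
    (x : Fin n → Module.End F (Fin k → F)) :
    (DT hω i).map hω y (pm' x) = pm' (i.insertNth y x : Fin (n + 1) → Module.End F (Fin k → F)) := by
  refine (DT hω i).ext hω fun w b => ?_
  have h : (DT hω i).map hω y (pm' x) ∘ₗ ιT i w =
      pm' (i.insertNth y x : Fin (n + 1) → Module.End F (Fin k → F)) ∘ₗ ιT i w := by
    refine tp_ext fun xs => ?_
    rw [LinearMap.comp_apply, LinearMap.comp_apply, ← DT_ι hω, TD.map_ι, DT_ι, pm'_tp, ιT_tp, ιT_tp, pm'_tp]
    congr 1
    funext m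
    rcases Fin.eq_self_or_eq_succAbove i m with rfl | ⟨m', rfl⟩
    · rw [Fin.insertNth_apply_same, Fin.insertNth_apply_same, Fin.insertNth_apply_same]
    · rw [Fin.insertNth_apply_succAbove, Fin.insertNth_apply_succAbove, Fin.insertNth_apply_succAbove]
  exact LinearMap.congr_fun h b

theorem tp_ne_zero {n : ℕ} {xs : Fin n → (Fin k → F)} (h : ∀ i, xs i ≠ 0) : tp xs ≠ 0 := by
  have h' : ∀ i, ∃ a, xs i a ≠ 0 := fun i => by
    by_contra hcon
    push Not at hcon
    exact h i (funext hcon)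
  choose a ha using h'
  intro h0
  have := congrFun h0 a
  rw [tp_apply] at this
  exact (Finset.prod_ne_zero_iff.2 fun i _ => ha i) this

theorem tp_eq_zero {n : ℕ} {xs : Fin n → (Fin k → F)} {i : Fin n} (h : xs i = 0) : tp xs = 0 := by
  funext a
  rw [tp_apply]
  exact Finset.prod_eq_zero (Finset.mem_univ i) (by rw [h]; rfl)

/-- The rank one operator. -/
noncomputable def R1 {n : ℕ} (ω : LinearMap.BilinForm F (Fin k → F)) (p r : T F k n) : Module.End F (T F k n) :=
  (fT ω n r).smulRight p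

theorem R1_apply {n : ℕ} (p r v : T F k n) : R1 ω p r v = fT ω n r v • p := rfl

theorem pm'_rk {n : ℕ} (p r : Fin n → (Fin k → F)) :
    pm' (fun i => rk ω (p i) (r i)) = R1 ω (tp p) (tp r) := by
  refine tp_ext fun xs => ?_
  rw [pm'_tp, R1_apply, fT_tp]
  funext a
  rw [tp_apply, Pi.smul_apply, tp_apply, smul_eq_mul, ← Finset.prod_mul_distrib]
  exact Finset.prod_congr rfl fun i _ => rfl

end Cfsg.Agent.H889.C7
end
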