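import Mathlib
import Cfsg.Agent.H889.C7.Pure
import Cfsg.Agent.S0752
import Cfsg.Agent.H883.Root
set_option linter.all false

-- part: H741/TransvGen
section
/-!
# Generation of `SL(V)` and `Sp(V, B)` by transvections, without bases

`sl_le`: a subgroup of `V ≃ₗ[F] V` containing all transvections contains all maps of determinant one.
`sp_le`: a subgroup containing all symplectic transvections `x ↦ x + c B(x, a) a` contains all
isometries of the nondegenerate alternating form `B`.
-/

set_option autoImplicit false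

namespace Cfsg.Agent.H741

open Module

section

variable {F : Type*} [Field F] {V : Type*} [AddCommGroup V] [Module F V]

/-- The fixed space of `g`. -/
def fx (g : V ≃ₗ[F] V) : Submodule F V := LinearMap.fixedSubmodule (g : V →ₗ[F] V)

theorem mem_fx {g : V ≃ₗ[F] V} {x : V} : x ∈ fx g ↔ g x = x :=
  LinearMap.mem_fixedSubmodule_iff

theorem tv_apply {f : Dual F V} {v : V} (h : f v = 0) (x : V) :
    LinearEquiv.transvection h x = x + f x • v := rfl

theorem tv_inv_apply {f : Dual F V} {v : V} (h : f v = 0) (x : V) :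
    (LinearEquiv.transvection h)⁻¹ x = x - f x • v := by
  rw [LinearEquiv.transvection.inv_eq h (by simp [h]), tv_apply, smul_neg, sub_eq_add_neg]

/-- A functional vanishing on `W` with value one at `v ∉ W`. -/
theorem exists_dual {W : Submodule F V} {v : V} (hv : v ∉ W) :
    ∃ f : Dual F V, f v = 1 ∧ ∀ w ∈ W, f w = 0 := by
  obtain ⟨f, hf, hW⟩ := Submodule.exists_dual_map_eq_bot_of_notMem hv inferInstance
  refine ⟨(f v)⁻¹ • f, by simp [hf], fun w hw => ?_⟩
  have : f w ∈ W.map f := Submodule.mem_map_of_mem hw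
  rw [hW, Submodule.mem_bot] at this
  simp [this]

/-- If `v` is not in `Fix(g) + ⟨g v - v⟩`, some transvection `t` has `Fix(g) < Fix(t⁻¹ g)`. -/
theorem exists_tv_lt {g : V ≃ₗ[F] V} {v : V} (hv : v ∉ fx g ⊔ Submodule.span F {g v - v}) :
    ∃ (f : Dual F V) (a : V) (h : f a = 0), fx g < fx ((LinearEquiv.transvection h)⁻¹ * g) := by
  obtain ⟨f, hf1, hf0⟩ := exists_dual hv
  have h : f (g v - v) = 0 := hf0 _ (Submodule.mem_sup_right (Submodule.mem_span_singleton_self _))
  refine ⟨f, g v - v, h, lt_of_le_of_ne ?_ ?_⟩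
  · intro x hx
    rw [mem_fx] at hx ⊢
    change (LinearEquiv.transvection h)⁻¹ (g x) = x
    rw [hx, tv_inv_apply, hf0 x (Submodule.mem_sup_left (mem_fx.2 hx)), zero_smul, sub_zero]
  · intro he
    have hv2 : v ∈ fx ((LinearEquiv.transvection h)⁻¹ * g) := by
      rw [mem_fx]
      change (LinearEquiv.transvection h)⁻¹ (g v) = v
      have h3 : f (g v) = 1 := by
        have := h; rw [map_sub, sub_eq_zero] at this; rw [this, hf1]
      rw [tv_inv_apply, h3, one_smul, sub_sub_cancel]
    rw [← he] at hv2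
    exact hv (Submodule.mem_sup_left hv2)

theorem one_of_fx_top {g : V ≃ₗ[F] V} (h : fx g = ⊤) : g = 1 := by
  ext x
  have : x ∈ fx g := by rw [h]; exact Submodule.mem_top
  exact mem_fx.1 this

variable [FiniteDimensional F V]

/-- If `g` is not the identity, has determinant one and no `v` is outside `Fix(g) + ⟨g v - v⟩`, then for
some transvection `t`, `t g` fixes `Fix(g)` and has such a vector. -/
theorem exists_tv_good {g : V ≃ₗ[F] V} (hg : LinearMap.det (g : V →ₗ[F] V) = 1) (hg1 : g ≠ 1)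
    (hb : ∀ v, v ∈ fx g ⊔ Submodule.span F {g v - v}) :
    (∃ (f : Dual F V) (a : V) (h : f a = 0), g = LinearEquiv.transvection h) ∨
    ∃ (f : Dual F V) (a : V) (h : f a = 0), fx g ≤ fx (LinearEquiv.transvection h * g) ∧
      ∃ v, v ∉ fx g ⊔ Submodule.span F {(LinearEquiv.transvection h * g) v - v} := by
  have hne : fx g ≠ ⊤ := fun h => hg1 (one_of_fx_top h)
  obtain ⟨v, hv⟩ : ∃ v, v ∉ fx g := by
    by_contra hc; push Not at hc
    exact hne (eq_top_iff.2 fun x _ => hc x)
  by_cases hw : ∃ w, w ∉ fx g ⊔ Submodule.span F {v}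
  · right
    obtain ⟨w, hw⟩ := hw
    -- a functional with f v = 1, f w = 0
    have hvw : v ∉ fx g ⊔ Submodule.span F {w} := by
      intro h
      obtain ⟨x, hx, y, hy, hxy⟩ := Submodule.mem_sup.1 h
      obtain ⟨c, rfl⟩ := Submodule.mem_span_singleton.1 hy
      have hc : c ≠ 0 := by
        rintro rfl
        rw [zero_smul, add_zero] at hxy
        exact hv (hxy ▸ hx)
      apply hw
      have : w = (-c⁻¹) • x + c⁻¹ • v := by
        rw [← hxy, smul_add, smul_smul, inv_mul_cancel₀ hc, one_smul, neg_smul]; abel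
      rw [this]
      exact Submodule.add_mem _ (Submodule.mem_sup_left (Submodule.smul_mem _ _ hx))
        (Submodule.mem_sup_right (Submodule.smul_mem _ _ (Submodule.mem_span_singleton_self _)))
    obtain ⟨f, hf1, hf0⟩ := exists_dual hvw
    have hfw : f w = 0 := hf0 _ (Submodule.mem_sup_right (Submodule.mem_span_singleton_self _))
    have hfx : ∀ x ∈ fx g, f x = 0 := fun x hx => hf0 _ (Submodule.mem_sup_left hx)
    refine ⟨f, w, hfw, ?_, v, ?_⟩
    · intro x hx
      rw [mem_fx]
      change LinearEquiv.transvection hfw (g x) = x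
      rw [mem_fx.1 hx, tv_apply, hfx x hx, zero_smul, add_zero]
    · intro hmem
      obtain ⟨x, hx, y, hy, hxy⟩ := Submodule.mem_sup.1 (hb v)
      obtain ⟨c, rfl⟩ := Submodule.mem_span_singleton.1 hy
      have hc : c ≠ 0 := by
        rintro rfl
        rw [zero_smul, add_zero] at hxy
        exact hv (hxy ▸ hx)
      -- g v = v + c⁻¹ (v - x)
      have hgv : g v = v + c⁻¹ • (v - x) := by
        have : v - x = c • (g v - v) := by
          rw [sub_eq_iff_eq_add, add_comm]; exact hxy.symm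
        rw [this, smul_smul, inv_mul_cancel₀ hc, one_smul]; abel
      have hfgv : f (g v) = 1 + c⁻¹ := by
        rw [hgv, map_add, map_smul, map_sub, hf1, hfx x hx]; simp
      have hne0 : (1 + c⁻¹ : F) ≠ 0 := by
        intro h0
        have h1 : g v ∈ fx g := by
          have : g v = (1 + c⁻¹) • v - c⁻¹ • x := by
            rw [hgv, add_smul, one_smul, smul_sub]; abel
          rw [this, h0, zero_smul, zero_sub]
          exact Submodule.neg_mem _ (Submodule.smul_mem _ _ hx)
        rw [mem_fx] at h1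
        exact hv (mem_fx.2 (g.injective h1))
      obtain ⟨x', hx', y', hy', hxy'⟩ := Submodule.mem_sup.1 hmem
      obtain ⟨d, rfl⟩ := Submodule.mem_span_singleton.1 hy'
      have hval : (LinearEquiv.transvection hfw * g) v - v = c⁻¹ • (v - x) + (1 + c⁻¹) • w := by
        change LinearEquiv.transvection hfw (g v) - v = _
        rw [tv_apply, hfgv, hgv]; abel
      rw [hval] at hxy'
      by_cases hd : d = 0
      · rw [hd, zero_smul, add_zero] at hxy'
        exact hv (hxy' ▸ hx')
      · apply hw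
        have hw2 : w = (d * (1 + c⁻¹))⁻¹ • ((1 - d * c⁻¹) • v + (d * c⁻¹) • x - x') := by
          have h5 : (d * (1 + c⁻¹)) • w = (1 - d * c⁻¹) • v + (d * c⁻¹) • x - x' := by
            have h6 : v - x' = d • (c⁻¹ • (v - x) + (1 + c⁻¹) • w) := by
              rw [sub_eq_iff_eq_add, add_comm]; exact hxy'.symm
            rw [smul_add, smul_smul, smul_smul, smul_sub] at h6
            rw [sub_smul, one_smul]
            have h7 : (d * (1 + c⁻¹)) • w = v - x' - ((d * c⁻¹) • v - (d * c⁻¹) • x) := by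
              rw [h6]; abel
            rw [h7]; abel
          rw [← h5, smul_smul, inv_mul_cancel₀ (mul_ne_zero hd hne0), one_smul]
        rw [hw2]
        refine Submodule.smul_mem _ _ (Submodule.sub_mem _ (Submodule.add_mem _ ?_ ?_) ?_)
        · exact Submodule.mem_sup_right (Submodule.smul_mem _ _ (Submodule.mem_span_singleton_self _))
        · exact Submodule.mem_sup_left (Submodule.smul_mem _ _ hx)
        · exact Submodule.mem_sup_left hx'
  · left
    push Not at hw
    obtain ⟨f, hf1, hf0⟩ := exists_dual hv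
    have hgf : (g : V →ₗ[F] V) = LinearMap.transvection f (g v - v) := by
      ext y
      obtain ⟨x, hx, z, hz, hxy⟩ := Submodule.mem_sup.1 (hw y)
      obtain ⟨c, rfl⟩ := Submodule.mem_span_singleton.1 hz
      have h1 : g x = x := mem_fx.1 hx
      rw [← hxy, LinearMap.transvection.apply]
      change g (x + c • v) = _
      rw [map_add, map_smul, h1, map_add, map_smul, hf0 x hx, hf1]
      simp only [smul_eq_mul, mul_one, zero_add, smul_sub]
      abel
    have hdet := hg
    rw [hgf, LinearMap.transvection.det] at hdet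
    have h0 : f (g v - v) = 0 := by simpa using hdet
    refine ⟨f, g v - v, h0, ?_⟩
    apply LinearEquiv.toLinearMap_injective
    rw [hgf]; rfl

theorem det_tv_mul {f : Dual F V} {a : V} (h : f a = 0) (g : V ≃ₗ[F] V) :
    LinearMap.det ((LinearEquiv.transvection h * g : V ≃ₗ[F] V) : V →ₗ[F] V) =
      LinearMap.det (g : V →ₗ[F] V) := by
  have : ((LinearEquiv.transvection h * g : V ≃ₗ[F] V) : V →ₗ[F] V) =
      (LinearMap.transvection f a) * (g : V →ₗ[F] V) := rfl
  rw [this, map_mul, LinearMap.transvection.det, h, add_zero, one_mul]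

theorem det_tv_inv_mul {f : Dual F V} {a : V} (h : f a = 0) (g : V ≃ₗ[F] V) :
    LinearMap.det (((LinearEquiv.transvection h)⁻¹ * g : V ≃ₗ[F] V) : V →ₗ[F] V) =
      LinearMap.det (g : V →ₗ[F] V) := by
  rw [LinearEquiv.transvection.inv_eq h (by simp [h])]
  exact det_tv_mul _ g

theorem fx_finrank_lt {g g' : V ≃ₗ[F] V} (h : fx g < fx g') :
    finrank F V - finrank F (fx g') < finrank F V - finrank F (fx g) := by
  have h1 := Submodule.finrank_lt_finrank_of_lt h
  have h2 := Submodule.finrank_le (fx g')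
  omega

/-- **`SL(V)` is generated by the transvections.** -/
theorem sl_le (G : Subgroup (V ≃ₗ[F] V))
    (hG : ∀ (f : Dual F V) (a : V) (h : f a = 0), LinearEquiv.transvection h ∈ G)
    {g : V ≃ₗ[F] V} (hg : LinearMap.det (g : V →ₗ[F] V) = 1) : g ∈ G := by
  induction hn : finrank F V - finrank F (fx g) using Nat.strong_induction_on generalizing g with
  | _ n ih =>
    by_cases hg1 : g = 1
    · rw [hg1]; exact G.one_mem
    by_cases hb : ∀ v, v ∈ fx g ⊔ Submodule.span F {g v - v}
    · rcases exists_tv_good hg hg1 hb with ⟨f, a, h, rfl⟩ | ⟨f, a, h, hle, v, hv⟩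
      · exact hG f a h
      · set g' := LinearEquiv.transvection h * g with hg'
        have hmem : g' ∈ G := by
          by_cases hlt : fx g < fx g'
          · exact ih _ (hn ▸ fx_finrank_lt hlt) (by rw [hg', det_tv_mul, hg]) rfl
          · have heq : fx g = fx g' := by
              rcases hle.lt_or_eq with h1 | h1
              · exact absurd h1 hlt
              · exact h1
            rw [heq] at hv
            obtain ⟨f', a', h', hlt'⟩ := exists_tv_lt hv
            have : (LinearEquiv.transvection h')⁻¹ * g' ∈ G := by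
              refine ih _ ?_ (by rw [det_tv_inv_mul, hg', det_tv_mul, hg]) rfl
              rw [← hn, heq]
              exact fx_finrank_lt hlt'
            simpa using G.mul_mem (hG f' a' h') this
        have : g = (LinearEquiv.transvection h)⁻¹ * g' := by rw [hg', inv_mul_cancel_left]
        rw [this]
        exact G.mul_mem (G.inv_mem (hG f a h)) hmem
    · push Not at hb
      obtain ⟨v, hv⟩ := hb
      obtain ⟨f', a', h', hlt'⟩ := exists_tv_lt hv
      have : (LinearEquiv.transvection h')⁻¹ * g ∈ G :=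
        ih _ (hn ▸ fx_finrank_lt hlt') (by rw [det_tv_inv_mul, hg]) rfl
      simpa using G.mul_mem (hG f' a' h') this

end

/-! ### The symplectic case -/

section

variable {F : Type*} [Field F] {V : Type*} [AddCommGroup V] [Module F V]

theorem stv_aux {B : LinearMap.BilinForm F V} (hB : B.IsAlt) (a : V) (c : F) :
    (c • B.flip a : Dual F V) a = 0 := by
  have : B a a = 0 := hB a
  simp [LinearMap.BilinForm.flip_apply, this]

/-- The symplectic transvection `x ↦ x + c B(x, a) a`. -/
def stv {B : LinearMap.BilinForm F V} (hB : B.IsAlt) (a : V) (c : F) : V ≃ₗ[F] V :=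
  LinearEquiv.transvection (stv_aux hB a c)

theorem stv_apply {B : LinearMap.BilinForm F V} (hB : B.IsAlt) (a : V) (c : F) (x : V) :
    stv hB a c x = x + (c * B x a) • a := rfl

theorem stv_inv_apply {B : LinearMap.BilinForm F V} (hB : B.IsAlt) (a : V) (c : F) (x : V) :
    (stv hB a c)⁻¹ x = x - (c * B x a) • a := tv_inv_apply _ _

theorem stv_isom {B : LinearMap.BilinForm F V} (hB : B.IsAlt) (a : V) (c : F) (x y : V) :
    B (stv hB a c x) (stv hB a c y) = B x y := by
  have haa : B a a = 0 := hB a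
  have hs : B a y = - B y a := (hB.neg_eq y a).symm
  rw [stv_apply, stv_apply]
  simp only [map_add, map_smul, LinearMap.add_apply, LinearMap.smul_apply, smul_eq_mul, haa, hs]
  ring

theorem stv_inv_isom {B : LinearMap.BilinForm F V} (hB : B.IsAlt) (a : V) (c : F) (x y : V) :
    B ((stv hB a c)⁻¹ x) ((stv hB a c)⁻¹ y) = B x y := by
  have h := stv_isom hB a c ((stv hB a c)⁻¹ x) ((stv hB a c)⁻¹ y)
  have e1 : ∀ z, stv hB a c ((stv hB a c)⁻¹ z) = z := fun z =>
    LinearEquiv.apply_symm_apply (stv hB a c) z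
  rw [e1, e1] at h
  exact h.symm

theorem sp_exists_lt {B : LinearMap.BilinForm F V} (hB : B.IsAlt) {g : V ≃ₗ[F] V}
    (hg : ∀ x y, B (g x) (g y) = B x y) {v : V} (hv : B (g v) v ≠ 0) :
    ∃ (a : V) (c : F), fx g < fx ((stv hB a c)⁻¹ * g) := by
  have hvg : B v (g v) = - B (g v) v := (hB.neg_eq (g v) v).symm
  have hne : B v (g v) ≠ 0 := by rw [hvg]; exact neg_ne_zero.2 hv
  refine ⟨g v - v, (B v (g v))⁻¹, lt_of_le_of_ne ?_ ?_⟩
  · intro x hx
    rw [mem_fx] at hx ⊢
    change (stv hB _ _)⁻¹ (g x) = x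
    have : B x (g v - v) = 0 := by
      rw [map_sub, sub_eq_zero]
      conv_lhs => rw [← hx]
      exact hg x v
    rw [hx, stv_inv_apply, this, mul_zero, zero_smul, sub_zero]
  · intro he
    have hv2 : v ∈ fx ((stv hB (g v - v) (B v (g v))⁻¹)⁻¹ * g) := by
      rw [mem_fx]
      change (stv hB _ _)⁻¹ (g v) = v
      have h1 : B (g v) (g v - v) = B v (g v) := by
        have h2 : B (g v) (g v) = 0 := hB _
        rw [map_sub, h2, zero_sub, hvg]
      rw [stv_inv_apply, h1, inv_mul_cancel₀ hne, one_smul, sub_sub_cancel]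
    rw [← he, mem_fx] at hv2
    rw [hv2] at hv
    exact hv (hB v)

theorem exists_both {f₁ f₂ : Dual F V} (h₁ : f₁ ≠ 0) (h₂ : f₂ ≠ 0) :
    ∃ v, f₁ v ≠ 0 ∧ f₂ v ≠ 0 := by
  obtain ⟨v₁, hv₁⟩ : ∃ v, f₁ v ≠ 0 := by
    by_contra hc; push Not at hc; exact h₁ (LinearMap.ext hc)
  obtain ⟨v₂, hv₂⟩ : ∃ v, f₂ v ≠ 0 := by
    by_contra hc; push Not at hc; exact h₂ (LinearMap.ext hc)
  by_cases h3 : f₂ v₁ = 0
  · by_cases h4 : f₁ v₂ = 0
    · exact ⟨v₁ + v₂, by rw [map_add, h4, add_zero]; exact hv₁, by rw [map_add, h3, zero_add]; exact hv₂⟩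
    · exact ⟨v₂, h4, hv₂⟩
  · exact ⟨v₁, hv₁, h3⟩

variable [FiniteDimensional F V]

/-- **The isometry group of a nondegenerate alternating form is generated by symplectic transvections.** -/
theorem sp_le {B : LinearMap.BilinForm F V} (hB : B.IsAlt) (hnd : B.Nondegenerate)
    (G : Subgroup (V ≃ₗ[F] V)) (hG : ∀ (a : V) (c : F), stv hB a c ∈ G)
    {g : V ≃ₗ[F] V} (hg : ∀ x y, B (g x) (g y) = B x y) : g ∈ G := by
  induction hn : finrank F V - finrank F (fx g) using Nat.strong_induction_on generalizing g with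
  | _ n ih =>
    have key : ∀ g' : V ≃ₗ[F] V, (∀ x y, B (g' x) (g' y) = B x y) → fx g ≤ fx g' →
        (∃ v, B (g' v) v ≠ 0) → g' ∈ G := by
      rintro g' hg' hle ⟨v, hv⟩
      obtain ⟨a, c, hlt⟩ := sp_exists_lt hB hg' hv
      have : (stv hB a c)⁻¹ * g' ∈ G := by
        refine ih _ (hn ▸ fx_finrank_lt (lt_of_le_of_lt hle hlt)) ?_ rfl
        intro x y
        change B ((stv hB a c)⁻¹ (g' x)) ((stv hB a c)⁻¹ (g' y)) = B x y
        rw [stv_inv_isom, hg']
      simpa using G.mul_mem (hG a c) this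
    by_cases hg1 : g = 1
    · rw [hg1]; exact G.one_mem
    by_cases hb : ∃ v, B (g v) v ≠ 0
    · exact key g hg le_rfl hb
    push Not at hb
    obtain ⟨u, hu⟩ : ∃ u, g u ≠ u := by
      by_contra hc; push Not at hc; exact hg1 (LinearEquiv.ext hc)
    set a := g u - u with ha
    have ha0 : a ≠ 0 := sub_ne_zero.2 hu
    set g' := stv hB a 1 * g with hg'
    have hg'i : ∀ x y, B (g' x) (g' y) = B x y := by
      intro x y
      change B (stv hB a 1 (g x)) (stv hB a 1 (g y)) = B x y
      rw [stv_isom, hg]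
    have hf : (B.flip a : Dual F V) ≠ 0 := by
      intro h0
      apply ha0
      have hs : ∀ x, B x a = 0 := fun x => by
        have := LinearMap.congr_fun h0 x
        simpa [LinearMap.BilinForm.flip_apply] using this
      exact hnd.2 a hs
    have hf' : ((B.flip a : Dual F V) ∘ₗ (g : V →ₗ[F] V)) ≠ 0 := by
      intro h0
      apply hf
      ext x
      have := LinearMap.congr_fun h0 (g.symm x)
      simpa using this
    obtain ⟨v, hv1, hv2⟩ := exists_both hf hf'
    have hmem : g' ∈ G := by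
      refine key g' hg'i ?_ ⟨v, ?_⟩
      · intro x hx
        rw [mem_fx] at hx ⊢
        change stv hB a 1 (g x) = x
        have : B x a = 0 := by
          rw [ha, map_sub, sub_eq_zero]
          conv_lhs => rw [← hx]
          exact hg x u
        rw [hx, stv_apply, this, mul_zero, zero_smul, add_zero]
      · change B (stv hB a 1 (g v)) v ≠ 0
        have e1 : B (g v) a ≠ 0 := by simpa [LinearMap.BilinForm.flip_apply] using hv2
        have e2 : B v a ≠ 0 := by simpa [LinearMap.BilinForm.flip_apply] using hv1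
        have e3 : B a v = - B v a := (hB.neg_eq v a).symm
        rw [stv_apply]
        simp only [map_add, map_smul, LinearMap.add_apply, LinearMap.smul_apply, smul_eq_mul, hb v,
          zero_add, one_mul, e3]
        exact mul_ne_zero e1 (neg_ne_zero.2 e2)
    have : g = (stv hB a 1)⁻¹ * g' := by rw [hg', inv_mul_cancel_left]
    rw [this]
    exact G.mul_mem (G.inv_mem (hG a 1)) hmem

end

end Cfsg.Agent.H741
end

-- part: H889/C7/Extract
section
/-!
Extraction of pure operators from slot-invariant subspaces of `End (T n)`.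
-/

set_option autoImplicit false
set_option linter.unusedSectionVars false
set_option linter.unusedVariables false
set_option linter.unusedSimpArgs false

namespace Cfsg.Agent.H889.C7

open Module Cfsg.Agent.H889

variable {F : Type*} [Field F] {k : ℕ} {ω : LinearMap.BilinForm F (Fin k → F)}

/-- `c_w`. -/
def IsC (ω : LinearMap.BilinForm F (Fin k → F)) (x : Module.End F (Fin k → F)) : Prop :=
  ∃ w : Fin k → F, w ≠ 0 ∧ x = rk ω w w

/-- An isotropic bivector. -/
def IsN (ω : LinearMap.BilinForm F (Fin k → F)) (x : Module.End F (Fin k → F)) : Prop :=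
  ∃ w w' : Fin k → F, ω w w' = 0 ∧ w ≠ 0 ∧ (∀ c : F, w' ≠ c • w) ∧ x = rk ω w w' - rk ω w' w

/-- The image in slot `m` lies in a hyperplane. -/
def ImP (ω : LinearMap.BilinForm F (Fin k → F)) {n : ℕ} (m : Fin n) (s : Module.End F (T F k n)) : Prop :=
  ∃ y : Fin k → F, y ≠ 0 ∧ sE m (rk ω y y) * s = 0

section

variable (hω : Symp ω)
include hω

theorem κT_sE_ne {n : ℕ} (i : Fin (n + 1)) (m : Fin n) (x : Module.End F (Fin k → F)) (w : Fin k → F)
    (v : T F k (n + 1)) : κT ω i w (sE (i.succAbove m) x v) = sE m x (κT ω i w v) := by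
  have h : κT ω i w ∘ₗ sE (i.succAbove m) x = sE m x ∘ₗ κT ω i w := by
    refine tp_ext fun xs => ?_
    rw [LinearMap.comp_apply, LinearMap.comp_apply, sE_tp, κT_tp, κT_tp, map_smul, sE_tp,
      Function.update_of_ne (Fin.succAbove_ne _ _).symm]
    congr 2
    funext j
    rw [Fin.removeNth_apply]
    by_cases h : j = m
    · subst h
      rw [Function.update_self, Function.update_self]; rfl
    · rw [Function.update_of_ne (fun h' => h (Fin.succAbove_right_injective h')), Function.update_of_ne h]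
      rfl
  exact LinearMap.congr_fun h v

theorem map_slot_conj {n : ℕ} (i : Fin (n + 1)) (m : Fin n) (α : (Module.End F (Fin k → F))ˣ)
    (x : Module.End F (Fin k → F)) (r : Module.End F (T F k n)) :
    sE (i.succAbove m) α.1 * (DT hω i).map hω x r * sE (i.succAbove m) (α⁻¹).1 =
      (DT hω i).map hω x (sE m α.1 * r * sE m (α⁻¹).1) := by
  rw [← map_one_sE hω, ← map_one_sE hω, TD.map_mul, TD.map_mul, one_mul, mul_one]

/-- Slices of invariant subspaces. -/
def slice (hω : Symp ω) {n : ℕ} (i : Fin (n + 1)) (T' : Submodule F (Module.End F (T F k (n + 1))))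
    (x : Module.End F (Fin k → F)) : Submodule F (Module.End F (T F k n)) where
  carrier := {r | (DT hω i).map hω x r ∈ T'}
  zero_mem' := by
    have h : (DT hω i).map hω x 0 = 0 := by
      have := (DT hω i).map_smul_right hω 0 x 0
      rwa [zero_smul, zero_smul] at this
    change (DT hω i).map hω x 0 ∈ T'
    rw [h]; exact T'.zero_mem
  add_mem' := by
    intro r r' hr hr'
    change (DT hω i).map hω x (r + r') ∈ T'
    rw [TD.map_add_right]; exact T'.add_mem hr hr'
  smul_mem' := by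
    intro c r hr
    change (DT hω i).map hω x (c • r) ∈ T'
    rw [TD.map_smul_right]; exact T'.smul_mem c hr

theorem slice_inv {n : ℕ} {i : Fin (n + 1)} {T' : Submodule F (Module.End F (T F k (n + 1)))}
    (hT : SlotInv ω T') (x : Module.End F (Fin k → F)) : SlotInv ω (slice hω i T' x) := by
  intro m α hα r hr
  change (DT hω i).map hω x _ ∈ T'
  rw [← map_slot_conj]
  exact hT _ _ hα _ hr

theorem map_inj {n : ℕ} (hk : 0 < k) (i : Fin (n + 1)) {s : Module.End F (T F k n)}
    (h : (DT hω i).map hω 1 s = 0) : s = 0 := by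
  obtain ⟨a₀, ha₀⟩ := exists_ne_vec (F := F) hk
  refine LinearMap.ext fun b => ?_
  have h1 := LinearMap.congr_fun h ((DT hω i).ι a₀ b)
  rw [TD.map_ι, LinearMap.zero_apply, Module.End.one_apply] at h1
  exact (DT hω i).ι_inj hω ha₀ h1

theorem ImP.one_map {n : ℕ} (hk : 0 < k) {i : Fin (n + 1)} {m : Fin n} {s : Module.End F (T F k n)}
    (h : ImP ω (i.succAbove m) ((DT hω i).map hω 1 s)) : ImP ω m s := by
  obtain ⟨y, hy, h⟩ := h
  refine ⟨y, hy, ?_⟩
  rw [← map_one_sE hω, TD.map_mul, one_mul] at h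
  exact map_inj hω hk i h

theorem not_ImP_one {n : ℕ} (hk : 0 < k) {i : Fin (n + 1)} {s : Module.End F (T F k n)}
    (h : ImP ω i ((DT hω i).map hω 1 s)) : s = 0 := by
  obtain ⟨y, hy, h⟩ := h
  obtain ⟨y', hy'⟩ := hω.exists_pair hy
  refine LinearMap.ext fun b => ?_
  have h1 := LinearMap.congr_fun h ((DT hω i).ι y' b)
  rw [Module.End.mul_apply, TD.map_ι, DT_ι, sE_ιT_self, Module.End.one_apply, rk_apply, hy', one_smul,
    LinearMap.zero_apply] at h1
  exact (DT hω i).ι_inj hω hy h1

/-- One extraction step. -/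
theorem extract_step (hk : 4 ≤ k) {n : ℕ} (i : Fin (n + 1))
    {T' : Submodule F (Module.End F (T F k (n + 1)))} (hT : SlotInv ω T')
    {s : Module.End F (T F k (n + 1))} (hs : s ∈ T') (hne : ∃ u, s * (DT hω i).cs u 1 ≠ (DT hω i).cs u 1 * s) :
    ∃ x r, (IsC ω x ∨ IsN ω x) ∧ r ≠ 0 ∧ (DT hω i).map hω x r ∈ T' ∧
      ∀ m : Fin n, ImP ω (i.succAbove m) s → ImP ω m r := by
  -- a nonzero symbol
  obtain ⟨w, w', hww', hw, hw', hr₁⟩ : ∃ w w' : Fin k → F, ω w w' = 0 ∧ w ≠ 0 ∧ (∀ c : F, w' ≠ c • w) ∧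
      κT ω i w ∘ₗ s ∘ₗ ιT i w' ≠ 0 := by
    by_contra hcon
    push Not at hcon
    obtain ⟨u, hu⟩ := hne
    apply hu
    apply comm_of_stab _ hω
    intro a b
    by_cases ha : a = 0
    · exact ⟨0, by rw [ha]; simp⟩
    apply (DT hω i).exists_of_perp hω ha
    have key : ∀ m, ω a m = 0 → (∀ c : F, m ≠ c • a) → (DT hω i).κ m (s (ιT i a b)) = 0 := by
      intro m hm hma
      have hm0 : m ≠ 0 := by simpa using hma 0
      have h := hcon m a (by rw [hω.skew, hm, neg_zero]) hm0 (by
        intro c hc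
        have hc0 : c ≠ 0 := by
          rintro rfl
          rw [zero_smul] at hc
          exact ha hc
        exact hma c⁻¹ (by rw [hc, inv_smul_smul₀ hc0]))
      exact LinearMap.congr_fun h b
    intro n' hn'
    by_cases hna : ∃ c : F, n' = c • a
    · obtain ⟨c, rfl⟩ := hna
      obtain ⟨m, hm, hma⟩ := exists_perp_avoid hω ![a] a (by omega)
      have hm0 := hm 0
      simp only [Matrix.cons_val_zero, Matrix.cons_val_fin_one] at hm0
      have e1 := key m hm0 hma
      have e2 := key (m + c • a) (by rw [map_add, hm0, map_smul, hω.alt, smul_zero, add_zero]) (by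
        intro d hd
        apply hma (d - c)
        rw [sub_smul, ← hd]; abel)
      rw [map_add, LinearMap.add_apply, e1, zero_add] at e2
      exact e2
    · push Not at hna
      exact key n' hn' hna
  set r₁ := κT ω i w ∘ₗ s ∘ₗ ιT i w' with hr₁'
  set r₂ := κT ω i w' ∘ₗ s ∘ₗ ιT i w with hr₂'
  have hw'0 : w' ≠ 0 := by simpa using hw' 0
  have he : ιT i w ∘ₗ r₁ ∘ₗ κT ω i w' + ιT i w' ∘ₗ r₂ ∘ₗ κT ω i w ∈ T' := by
    have := inv_pair hω hT i hww' hs
    rwa [csc_eq hω, csc_eq hω] at this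
  have hI : ∀ m : Fin n, ImP ω (i.succAbove m) s → ∃ y : Fin k → F, y ≠ 0 ∧
      sE m (rk ω y y) * r₁ = 0 ∧ sE m (rk ω y y) * r₂ = 0 := by
    rintro m ⟨y, hy, h⟩
    refine ⟨y, hy, ?_, ?_⟩
    · refine LinearMap.ext fun b => ?_
      rw [Module.End.mul_apply, hr₁', LinearMap.comp_apply, LinearMap.comp_apply, ← κT_sE_ne hω,
        ← Module.End.mul_apply, h, LinearMap.zero_apply, map_zero, LinearMap.zero_apply]
    · refine LinearMap.ext fun b => ?_
      rw [Module.End.mul_apply, hr₂', LinearMap.comp_apply, LinearMap.comp_apply, ← κT_sE_ne hω,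
        ← Module.End.mul_apply, h, LinearMap.zero_apply, map_zero, LinearMap.zero_apply]
  by_cases hsum : r₁ + r₂ = 0
  · refine ⟨rk ω w w' - rk ω w' w, r₁, Or.inr ⟨w, w', hww', hw, hw', rfl⟩, hr₁, ?_, ?_⟩
    · have h2 : r₂ = -r₁ := eq_neg_of_add_eq_zero_right hsum
      have e : ∀ r : Module.End F (T F k n), (DT hω i).map hω (rk ω w w' - rk ω w' w) r =
          ιT i w ∘ₗ r ∘ₗ κT ω i w' + ιT i w' ∘ₗ (-r) ∘ₗ κT ω i w := by
        intro r
        refine (DT hω i).ext hω fun x b => ?_
        have k1 : ∀ u v b, κT ω i u (ιT i v b) = ω u v • b := fun u v b => (DT hω i).κι _ _ _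
        rw [TD.map_ι, DT_ι, LinearMap.add_apply, LinearMap.comp_apply, LinearMap.comp_apply, LinearMap.comp_apply,
          LinearMap.comp_apply, k1, k1, LinearMap.sub_apply, rk_apply, rk_apply, map_sub, LinearMap.sub_apply]
        simp only [map_smul, LinearMap.smul_apply, LinearMap.neg_apply, map_neg, smul_neg]
        rw [sub_eq_add_neg]
      rw [h2, ← e] at he
      exact he
    · intro m hm
      obtain ⟨y, hy, h1, _⟩ := hI m hm
      exact ⟨y, hy, h1⟩
  · refine ⟨rk ω w w, r₁ + r₂, Or.inl ⟨w, hw, rfl⟩, hsum, ?_, ?_⟩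
    · obtain ⟨γ, hγ, hγw, hγw'⟩ := exists_iso hω (a := w) (x := w') (y := w' + w) hww'
        (by rw [map_add, hww', hω.alt, add_zero]) hw' (by
          intro c hc
          apply hw' (c - 1)
          rw [sub_smul, one_smul, ← hc]; abel)
      have h1 := hT i γ hγ _ he
      rw [mul_add, add_mul, conj_cs_self hω i hγ, conj_cs_self hω i hγ, hγw, hγw'] at h1
      have h2 := T'.sub_mem h1 he
      have e : (DT hω i).map hω (rk ω w w) (r₁ + r₂) =
          ιT i w ∘ₗ r₁ ∘ₗ κT ω i (w' + w) + ιT i (w' + w) ∘ₗ r₂ ∘ₗ κT ω i w -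
            (ιT i w ∘ₗ r₁ ∘ₗ κT ω i w' + ιT i w' ∘ₗ r₂ ∘ₗ κT ω i w) := by
        rw [← TD.el_eq_map]
        refine LinearMap.ext fun v => ?_
        simp only [TD.el_apply, LinearMap.sub_apply, LinearMap.add_apply, LinearMap.comp_apply, map_add, DT_ι, DT_κ]
        abel
      rw [e]; exact h2
    · intro m hm
      obtain ⟨y, hy, h1, h2⟩ := hI m hm
      exact ⟨y, hy, by rw [mul_add, h1, h2, add_zero]⟩

/-- **Extraction.** -/
theorem extract (hk : 4 ≤ k) : ∀ (n : ℕ) (T' : Submodule F (Module.End F (T F k n))), SlotInv ω T' →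
    ∀ s ∈ T', s ≠ 0 → ∃ x : Fin n → Module.End F (Fin k → F), (∀ m, IsC ω (x m) ∨ IsN ω (x m) ∨ x m = 1) ∧
      (∀ m, ImP ω m s → x m ≠ 1) ∧ pm' x ∈ T' := by
  intro n
  induction n with
  | zero =>
    intro T' _ s hs hs0
    refine ⟨fun m => m.elim0, fun m => m.elim0, fun m => m.elim0, ?_⟩
    obtain ⟨τ, hτ⟩ := scalar_T0 s
    have h1 : pm' (fun m : Fin 0 => (m.elim0 : Module.End F (Fin k → F))) = 1 := by
      refine tp_ext fun xs => ?_
      rw [pm'_tp, Module.End.one_apply]
      congr 1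
      funext i
      exact i.elim0
    have hτ0 : τ ≠ 0 := by
      rintro rfl
      rw [zero_smul] at hτ
      exact hs0 hτ
    have h2 : (1 : Module.End F (T F k 0)) = τ⁻¹ • s := by
      rw [hτ, inv_smul_smul₀ hτ0]
    rw [h1, h2]
    exact T'.smul_mem _ hs
  | succ n ih =>
    intro T' hT s hs hs0
    have hone : ∀ x : Module.End F (Fin k → F), IsC ω x ∨ IsN ω x → x ≠ 1 := by
      rintro x hx rfl
      rcases hx with ⟨w, hw, h⟩ | ⟨w, w', hww', hw, hw', h⟩
      · have := congrArg (fun z : Module.End F (Fin k → F) => z w) h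
        simp only [Module.End.one_apply, rk_apply, hω.alt, zero_smul] at this
        exact hw this
      · have := congrArg (fun z : Module.End F (Fin k → F) => z w) h
        simp only [Module.End.one_apply, LinearMap.sub_apply, rk_apply, hω.alt, zero_smul] at this
        rw [hω.skew w' w, hww', neg_zero, zero_smul, sub_zero] at this
        exact hw this
    by_cases hcomm : ∃ u, s * (DT hω (0 : Fin (n + 1))).cs u 1 ≠ (DT hω (0 : Fin (n + 1))).cs u 1 * s
    · obtain ⟨x₀, r, hx₀, hr, hmem, hI⟩ := extract_step hω hk 0 hT hs hcomm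
      obtain ⟨x, h1, h2, h3⟩ := ih (slice hω 0 T' x₀) (slice_inv hω hT x₀) r hmem hr
      refine ⟨(0 : Fin (n + 1)).insertNth x₀ x, ?_, ?_, ?_⟩
      · intro m
        rcases Fin.eq_self_or_eq_succAbove (0 : Fin (n + 1)) m with rfl | ⟨m', rfl⟩
        · rw [Fin.insertNth_apply_same]
          rcases hx₀ with h | h
          · exact Or.inl h
          · exact Or.inr (Or.inl h)
        · rw [Fin.insertNth_apply_succAbove]
          exact h1 m'
      · intro m hm
        rcases Fin.eq_self_or_eq_succAbove (0 : Fin (n + 1)) m with rfl | ⟨m', rfl⟩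
        · rw [Fin.insertNth_apply_same]
          exact hone x₀ hx₀
        · rw [Fin.insertNth_apply_succAbove]
          exact h2 m' (hI m' hm)
      · rw [← map_pm' hω]
        exact h3
    · push Not at hcomm
      obtain ⟨a₀, ha₀⟩ := exists_ne_vec (F := F) (k := k) (by omega)
      obtain ⟨s', hs'⟩ := one_map_of_comm (DT hω (0 : Fin (n + 1))) hω ha₀ hcomm
      have hs'0 : s' ≠ 0 := by
        rintro rfl
        apply hs0
        rw [hs']
        have := (DT hω (0 : Fin (n + 1))).map_smul_right hω 0 1 0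
        rwa [zero_smul, zero_smul] at this
      rw [hs'] at hs
      obtain ⟨x, h1, h2, h3⟩ := ih (slice hω 0 T' 1) (slice_inv hω hT 1) s' hs hs'0
      refine ⟨(0 : Fin (n + 1)).insertNth 1 x, ?_, ?_, ?_⟩
      · intro m
        rcases Fin.eq_self_or_eq_succAbove (0 : Fin (n + 1)) m with rfl | ⟨m', rfl⟩
        · rw [Fin.insertNth_apply_same]
          exact Or.inr (Or.inr rfl)
        · rw [Fin.insertNth_apply_succAbove]
          exact h1 m'
      · intro m hm
        rcases Fin.eq_self_or_eq_succAbove (0 : Fin (n + 1)) m with rfl | ⟨m', rfl⟩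
        · exfalso
          rw [hs'] at hm
          exact hs'0 (not_ImP_one hω (by omega) hm)
        · rw [Fin.insertNth_apply_succAbove]
          rw [hs'] at hm
          exact h2 m' (ImP.one_map hω (by omega) hm)
      · rw [← map_pm' hω]
        exact h3

/-- A nonscalar element gives an element with property `ImP` at some slot. -/
theorem exists_ImP (hk : 4 ≤ k) {n : ℕ} {T' : Submodule F (Module.End F (T F k (n + 1)))} (hT : SlotInv ω T')
    {s : Module.End F (T F k (n + 1))} (hs : s ∈ T') (hns : ¬ ∃ τ : F, s = τ • 1) :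
    ∃ (m : Fin (n + 1)) (e : Module.End F (T F k (n + 1))), e ∈ T' ∧ e ≠ 0 ∧ ImP ω m e := by
  obtain ⟨m, u, hmu⟩ : ∃ (m : Fin (n + 1)) (u : Fin k → F), s * sE m (rk ω u u) ≠ sE m (rk ω u u) * s := by
    by_contra hcon
    push Not at hcon
    exact hns (schur hω (by omega) (n + 1) s hcon)
  rw [C_eq hω] at hmu
  obtain ⟨x, r, hx, hr, hmem, _⟩ := extract_step hω hk m hT hs ⟨u, hmu⟩
  refine ⟨m, _, hmem, ?_, ?_⟩
  · intro h0
    apply hr
    -- find a vector not killed by `x`
    obtain ⟨v, hv⟩ : ∃ v, x v ≠ 0 := by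
      rcases hx with ⟨w, hw, rfl⟩ | ⟨w, w', hww', hw, hw', rfl⟩
      · obtain ⟨v, hv⟩ := hω.exists_pair hw
        exact ⟨v, by rw [rk_apply, hv, one_smul]; exact hw⟩
      · obtain ⟨v, hv⟩ := hω.exists_pair hw
        refine ⟨v, fun h => ?_⟩
        rw [LinearMap.sub_apply, rk_apply, rk_apply, hv, one_smul, sub_eq_zero] at h
        exact hw' _ h.symm
    refine LinearMap.ext fun b => ?_
    have h1 := LinearMap.congr_fun h0 ((DT hω m).ι v b)
    rw [TD.map_ι, LinearMap.zero_apply] at h1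
    exact (DT hω m).ι_inj hω hv h1
  · rcases hx with ⟨w, hw, rfl⟩ | ⟨w, w', hww', hw, hw', rfl⟩
    · refine ⟨w, hw, ?_⟩
      rw [← map_sE hω, TD.map_mul]
      have : rk ω w w * rk ω w w = 0 := by
        refine LinearMap.ext fun v => ?_
        rw [Module.End.mul_apply, rk_apply, rk_apply, map_smul, hω.alt]; simp
      rw [this]
      have h0 := (DT hω m).map_smul_left hω 0 0 (1 * r)
      rwa [zero_smul, zero_smul] at h0
    · refine ⟨w, hw, ?_⟩
      rw [← map_sE hω, TD.map_mul]
      have : rk ω w w * (rk ω w w' - rk ω w' w) = 0 := by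
        refine LinearMap.ext fun v => ?_
        rw [Module.End.mul_apply, LinearMap.sub_apply, rk_apply, rk_apply, rk_apply, map_sub, map_smul, map_smul,
          hω.alt, hww']
        simp
      rw [this]
      have h0 := (DT hω m).map_smul_left hω 0 0 (1 * r)
      rwa [zero_smul, zero_smul] at h0

end

end Cfsg.Agent.H889.C7
end

-- part: H889/C7/Enlarge
section
/-!
Enlarging the support of pure elements of `M`, `k ≥ 6`.
-/

set_option autoImplicit false
set_option linter.unusedSectionVars false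
set_option linter.unusedVariables false
set_option linter.unusedSimpArgs false

namespace Cfsg.Agent.H889.C7

open Module Cfsg.Agent.H889

variable {F : Type*} [Field F] {k : ℕ} {ω : LinearMap.BilinForm F (Fin k → F)}

theorem rk_mul_rk (y x y' x' : Fin k → F) : rk ω y x * rk ω y' x' = ω x y' • rk ω y x' := by
  refine LinearMap.ext fun v => ?_
  rw [Module.End.mul_apply, rk_apply, rk_apply, map_smul, LinearMap.smul_apply, rk_apply, smul_eq_mul, smul_smul,
    mul_comm]

theorem rk_conj {α : (Module.End F (Fin k → F))ˣ} (hα : IsoW ω α) (y x : Fin k → F) :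
    α.1 * rk ω y x * (α⁻¹).1 = rk ω (α.1 y) (α.1 x) := by
  refine LinearMap.ext fun v => ?_
  rw [Module.End.mul_apply, Module.End.mul_apply, rk_apply, map_smul, rk_apply]
  congr 1
  conv_rhs => rw [← apply_inv α v]
  rw [hα]

section Pairs

variable (hω : Symp ω)
include hω

theorem exists_iso_pair {w w' z z' : Fin k → F} (h : ω w w' = 0) (hw : w ≠ 0) (hw' : ∀ c : F, w' ≠ c • w)
    (h' : ω z z' = 0) (hz : z ≠ 0) (hz' : ∀ c : F, z' ≠ c • z) :
    ∃ α, IsoW ω α ∧ α.1 w = z ∧ α.1 w' = z' := by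
  obtain ⟨α, hα, hαw⟩ := exists_iso_of_ne hω hw hz
  obtain ⟨β, hβ, hβz, hβw⟩ := exists_iso hω (a := z) (x := α.1 w') (y := z')
    (by rw [← hαw, hα, h]) h' (by
      intro c hc
      apply hw' c
      have e1 : α.1 (w' - c • w) = 0 := by rw [map_sub, map_smul, hc, hαw, sub_self]
      have e2 := inv_apply α (w' - c • w)
      rw [e1, map_zero] at e2
      exact sub_eq_zero.1 e2.symm) hz'
  exact ⟨β * α, hβ.mul hα, by rw [mul_app, hαw, hβz], by rw [mul_app, hβw]⟩

/-- A conjugate with non-zero products and image in a hyperplane. -/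
theorem slot_pair (hk : 4 ≤ k) {x : Module.End F (Fin k → F)} (hx : IsC ω x ∨ IsN ω x ∨ x = 1) :
    ∃ α : (Module.End F (Fin k → F))ˣ, IsoW ω α ∧ x * (α.1 * x * (α⁻¹).1) ≠ 0 ∧
      (x ≠ 1 → ∃ y : Fin k → F, y ≠ 0 ∧ rk ω y y * (x * (α.1 * x * (α⁻¹).1)) = 0 ∧
        rk ω y y * ((α.1 * x * (α⁻¹).1) * x) = 0) := by
  rcases hx with ⟨w, hw, rfl⟩ | ⟨w, w', hww', hw, hw', rfl⟩ | rfl
  · obtain ⟨w₂, hw₂⟩ := hω.exists_pair hw
    have hw₂0 : w₂ ≠ 0 := by
      rintro rfl
      simp at hw₂
    obtain ⟨α, hα, hαw⟩ := exists_iso_of_ne hω hw hw₂0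
    obtain ⟨y, hy, hy0⟩ := exists_perp_avoid hω ![w, w₂] 0 (by omega)
    have y0 := hy 0
    have y1 := hy 1
    simp only [Matrix.cons_val_zero, Matrix.cons_val_one, Matrix.cons_val_fin_one] at y0 y1
    rw [hω.skew, neg_eq_zero] at y0 y1
    refine ⟨α, hα, ?_, fun _ => ⟨y, by simpa using hy0 0, ?_, ?_⟩⟩
    · rw [rk_conj hα, hαw, rk_mul_rk, hw₂, one_smul]
      intro h0
      have := LinearMap.congr_fun h0 w
      rw [rk_apply, hω.skew, hw₂, LinearMap.zero_apply, neg_one_smul, neg_eq_zero] at this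
      exact hw this
    · rw [rk_conj hα, hαw, rk_mul_rk, mul_smul_comm, rk_mul_rk, y0, zero_smul, smul_zero]
    · rw [rk_conj hα, hαw, rk_mul_rk, mul_smul_comm, rk_mul_rk, y1, zero_smul, smul_zero]
  · -- bivector
    obtain ⟨u', hu1, hu2⟩ := hω.exists_sep hw' trivial
    set u := -u' with hu
    have h1 : ω w' u = 1 := by rw [hu, map_neg, ← hω.skew, hu1]
    have h2 : ω w u = 0 := by rw [hu, map_neg, ← hω.skew, hu2]
    have h2' : ω u w = 0 := by rw [hω.skew, h2, neg_zero]
    have h3 : ω w' w = 0 := by rw [hω.skew, hww', neg_zero]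
    have h4 : ω u w' = -1 := by rw [hω.skew, h1]
    have hu0 : u ≠ 0 := by
      intro h0
      rw [h0, map_zero] at h1
      exact zero_ne_one h1
    obtain ⟨α, hα, hαw, hαw'⟩ := exists_iso_pair hω hww' hw hw' h2' hu0 (by
      intro c hc
      have h5 := h3
      rw [hc, map_smul, h1, smul_eq_mul, mul_one] at h5
      exact hw (by rw [hc, h5, zero_smul]))
    have e : α.1 * (rk ω w w' - rk ω w' w) * (α⁻¹).1 = rk ω u w - rk ω w u := by
      rw [mul_sub, sub_mul, rk_conj hα, rk_conj hα, hαw, hαw']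
    have e1 : (rk ω w w' - rk ω w' w) * (rk ω u w - rk ω w u) = rk ω w w := by
      simp only [mul_sub, sub_mul, rk_mul_rk, h1, h2, h3, hω.alt, one_smul, zero_smul, sub_zero]
    have e2 : (rk ω u w - rk ω w u) * (rk ω w w' - rk ω w' w) = (-1 : F) • rk ω w w := by
      simp only [mul_sub, sub_mul, rk_mul_rk, hww', h2', h4, hω.alt, zero_smul, sub_zero, zero_sub, neg_zero]
      exact neg_neg _
    refine ⟨α, hα, ?_, fun _ => ⟨w, hw, ?_, ?_⟩⟩
    · rw [e, e1]
      intro h0
      obtain ⟨v, hv⟩ := hω.exists_pair hw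
      have := LinearMap.congr_fun h0 v
      rw [rk_apply, hv, one_smul, LinearMap.zero_apply] at this
      exact hw this
    · rw [e, e1, rk_mul_rk, hω.alt, zero_smul]
    · rw [e, e2, mul_smul_comm, rk_mul_rk, hω.alt, zero_smul, smul_zero]
  · refine ⟨1, IsoW.one, ?_, fun h => absurd rfl h⟩
    rw [Units.val_one, inv_one, Units.val_one, mul_one, mul_one, mul_one]
    have : NeZero k := ⟨by omega⟩
    have : Nontrivial (Fin k → F) := by
      obtain ⟨a, ha⟩ := exists_ne_vec (F := F) (k := k) (by omega)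
      exact ⟨⟨a, 0, ha⟩⟩
    exact one_ne_zero

/-- The special slot. -/
theorem slot_j (hk : 4 ≤ k) {x : Module.End F (Fin k → F)} (hx : IsC ω x ∨ IsN ω x) :
    ∃ b : Fin k → F, b ≠ 0 ∧ (∃ v, (x * rk ω b b) v ≠ 0 ∧ (rk ω b b * x) v = 0) ∧
      ∃ y : Fin k → F, y ≠ 0 ∧ rk ω y y * (x * rk ω b b) = 0 ∧ rk ω y y * (rk ω b b * x) = 0 := by
  rcases hx with ⟨w, hw, rfl⟩ | ⟨w, w', hww', hw, hw', rfl⟩
  · obtain ⟨b, hb⟩ := hω.exists_pair hw
    have hb0 : b ≠ 0 := by
      rintro rfl
      simp at hb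
    have hb' : ω b w = -1 := by rw [hω.skew, hb]
    obtain ⟨y, hy, hy0⟩ := exists_perp_avoid hω ![w, b] 0 (by omega)
    have y0 := hy 0
    have y1 := hy 1
    simp only [Matrix.cons_val_zero, Matrix.cons_val_one, Matrix.cons_val_fin_one] at y0 y1
    rw [hω.skew, neg_eq_zero] at y0 y1
    refine ⟨b, hb0, ⟨w, ?_, ?_⟩, y, by simpa using hy0 0, ?_, ?_⟩
    · rw [rk_mul_rk, hb, one_smul, rk_apply, hb', neg_one_smul]
      exact neg_ne_zero.2 hw
    · rw [rk_mul_rk, LinearMap.smul_apply, rk_apply, hω.alt, zero_smul, smul_zero]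
    · rw [rk_mul_rk, mul_smul_comm, rk_mul_rk, y0, zero_smul, smul_zero]
    · rw [rk_mul_rk, mul_smul_comm, rk_mul_rk, y1, zero_smul, smul_zero]
  · obtain ⟨u', hu1, hu2⟩ := hω.exists_sep hw' trivial
    set b := -u' with hb
    have h1 : ω w' b = 1 := by rw [hb, map_neg, ← hω.skew, hu1]
    have h2 : ω w b = 0 := by rw [hb, map_neg, ← hω.skew, hu2]
    have h2' : ω b w = 0 := by rw [hω.skew, h2, neg_zero]
    have h4 : ω b w' = -1 := by rw [hω.skew, h1]
    have hb0 : b ≠ 0 := by
      intro h0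
      rw [h0, map_zero] at h1
      exact zero_ne_one h1
    obtain ⟨y, hy, hy0⟩ := exists_perp_avoid hω ![w, b] 0 (by omega)
    have y0 := hy 0
    have y1 := hy 1
    simp only [Matrix.cons_val_zero, Matrix.cons_val_one, Matrix.cons_val_fin_one] at y0 y1
    rw [hω.skew, neg_eq_zero] at y0 y1
    have e1 : (rk ω w w' - rk ω w' w) * rk ω b b = rk ω w b := by
      simp only [sub_mul, rk_mul_rk, h1, h2, one_smul, zero_smul, sub_zero]
    have e2 : rk ω b b * (rk ω w w' - rk ω w' w) = rk ω b w := by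
      simp only [mul_sub, rk_mul_rk, h2', h4, zero_smul, zero_sub]
      rw [neg_one_smul_end]
      exact neg_neg _
    refine ⟨b, hb0, ⟨w', ?_, ?_⟩, y, by simpa using hy0 0, ?_, ?_⟩
    · rw [e1, rk_apply, h4, neg_one_smul]
      exact neg_ne_zero.2 hw
    · rw [e2, rk_apply, hww', zero_smul]
    · rw [e1, rk_mul_rk, y0, zero_smul]
    · rw [e2, rk_mul_rk, y1, zero_smul]

/-- Image of a `c` or `n`. -/
theorem slot_im {x : Module.End F (Fin k → F)} (hx : IsC ω x ∨ IsN ω x) :
    ∃ y : Fin k → F, y ≠ 0 ∧ rk ω y y * x = 0 := by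
  rcases hx with ⟨w, hw, rfl⟩ | ⟨w, w', hww', hw, hw', rfl⟩
  · exact ⟨w, hw, by rw [rk_mul_rk, hω.alt, zero_smul]⟩
  · exact ⟨w, hw, by rw [mul_sub, rk_mul_rk, rk_mul_rk, hω.alt, hww', zero_smul, zero_smul, sub_zero]⟩

theorem slot_ne {x : Module.End F (Fin k → F)} (hx : IsC ω x ∨ IsN ω x) : x ≠ 0 ∧ x * x = 0 := by
  rcases hx with ⟨w, hw, rfl⟩ | ⟨w, w', hww', hw, hw', rfl⟩
  · obtain ⟨v, hv⟩ := hω.exists_pair hw
    refine ⟨fun h0 => ?_, by rw [rk_mul_rk, hω.alt, zero_smul]⟩
    have := LinearMap.congr_fun h0 v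
    rw [rk_apply, hv, one_smul, LinearMap.zero_apply] at this
    exact hw this
  · obtain ⟨v, hv⟩ := hω.exists_pair hw
    have h3 : ω w' w = 0 := by rw [hω.skew, hww', neg_zero]
    refine ⟨fun h0 => ?_, ?_⟩
    · have := LinearMap.congr_fun h0 v
      rw [LinearMap.sub_apply, rk_apply, rk_apply, hv, one_smul, LinearMap.zero_apply, sub_eq_zero] at this
      exact hw' _ this.symm
    · simp only [mul_sub, sub_mul, rk_mul_rk, hww', h3, hω.alt, zero_smul, sub_zero]

/-- Conjugates with rank one products, `k ≥ 6`. -/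
theorem slot_jordan (hk : 6 ≤ k) {x : Module.End F (Fin k → F)} (hx : IsC ω x ∨ IsN ω x) :
    ∃ (α : (Module.End F (Fin k → F))ˣ) (p r : Fin k → F), IsoW ω α ∧ p ≠ 0 ∧ (∀ c : F, r ≠ c • p) ∧
      x * (α.1 * x * (α⁻¹).1) = rk ω p r ∧ (α.1 * x * (α⁻¹).1) * x = -rk ω r p := by
  rcases hx with ⟨w, hw, rfl⟩ | ⟨w, w', hww', hw, hw', rfl⟩
  · obtain ⟨w₂, hw₂⟩ := hω.exists_pair hw
    have hw₂0 : w₂ ≠ 0 := by
      rintro rfl
      simp at hw₂
    have hw₂' : ω w₂ w = -1 := by rw [hω.skew, hw₂]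
    obtain ⟨α, hα, hαw⟩ := exists_iso_of_ne hω hw hw₂0
    refine ⟨α, w, w₂, hα, hw, ?_, ?_, ?_⟩
    · intro c hc
      rw [hc, map_smul, hω.alt, smul_zero] at hw₂
      exact zero_ne_one hw₂
    · rw [rk_conj hα, hαw, rk_mul_rk, hw₂, one_smul]
    · rw [rk_conj hα, hαw, rk_mul_rk, hw₂']
      exact neg_one_smul_end _
  · obtain ⟨u', hu1, hu2⟩ := hω.exists_sep hw' trivial
    set u := -u' with hu
    have h1 : ω w' u = 1 := by rw [hu, map_neg, ← hω.skew, hu1]
    have h2 : ω w u = 0 := by rw [hu, map_neg, ← hω.skew, hu2]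
    have h2' : ω u w = 0 := by rw [hω.skew, h2, neg_zero]
    have h3 : ω w' w = 0 := by rw [hω.skew, hww', neg_zero]
    have h4 : ω u w' = -1 := by rw [hω.skew, h1]
    have hu0 : u ≠ 0 := by
      intro h0
      rw [h0, map_zero] at h1
      exact zero_ne_one h1
    obtain ⟨w₂, hw₂, hw₂'⟩ := exists_perp_avoid hω ![w, w', u] w (by omega)
    have a0 := hw₂ 0
    have a1 := hw₂ 1
    have a2 := hw₂ 2
    simp only [Matrix.cons_val_zero, Matrix.cons_val_one, Matrix.cons_val_fin_one, Matrix.cons_val] at a0 a1 a2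
    have b0 : ω w₂ w = 0 := by rw [hω.skew, a0, neg_zero]
    have b1 : ω w₂ w' = 0 := by rw [hω.skew, a1, neg_zero]
    have b2 : ω w₂ u = 0 := by rw [hω.skew, a2, neg_zero]
    have hw₂0 : w₂ ≠ 0 := by
      intro h0
      exact hw₂' 0 (by rw [h0, zero_smul])
    obtain ⟨α, hα, hαw, hαw'⟩ := exists_iso_pair hω hww' hw hw' a2 hu0 (by
      intro c hc
      have h5 := a1
      rw [hc, map_smul, h1, smul_eq_mul, mul_one] at h5
      exact hw₂0 (by rw [hc, h5, zero_smul]))
    have e : α.1 * (rk ω w w' - rk ω w' w) * (α⁻¹).1 = rk ω u w₂ - rk ω w₂ u := by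
      rw [mul_sub, sub_mul, rk_conj hα, rk_conj hα, hαw, hαw']
    refine ⟨α, w, w₂, hα, hw, hw₂', ?_, ?_⟩
    · rw [e]
      simp only [mul_sub, sub_mul, rk_mul_rk, h1, h2, a0, a1, one_smul, zero_smul, sub_zero]
    · rw [e]
      simp only [mul_sub, sub_mul, rk_mul_rk, b0, b1, h2', h4, zero_smul, sub_zero, zero_sub]
      rw [neg_one_smul_end]
      exact neg_neg _

end Pairs

end Cfsg.Agent.H889.C7
end

-- part: H889/C7/CaseII
section
/-!
Case II in characteristic two, `k ≥ 6`: `M` contains a long root element of the orthogonal group.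
-/

set_option autoImplicit false
set_option linter.unusedSectionVars false
set_option linter.unusedVariables false
set_option linter.unusedSimpArgs false

namespace Cfsg.Agent.H889.C7

open Module Cfsg.Agent.H889

variable {F : Type*} [Field F] {k : ℕ} {ω : LinearMap.BilinForm F (Fin k → F)}

/-- Groups containing the slot groups and the even slot permutations. -/
structure SlotsM (ω : LinearMap.BilinForm F (Fin k → F)) {n : ℕ}
    (M : Subgroup (Module.End F (T F k (n + 1)))ˣ) : Prop where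
  sp : ∀ (i : Fin (n + 1)) (α : (Module.End F (Fin k → F))ˣ), IsoW ω α → sU i α ∈ M
  al : ∀ π : Equiv.Perm (Fin (n + 1)), Equiv.Perm.sign π = 1 → pU π ∈ M

theorem unit_inv_val {R : Type*} [Ring R] {g : Rˣ} {N : R} (hg : g.1 = 1 + N) (h : N * N = 0) :
    (g⁻¹).1 = 1 - N := by
  have h1 : g = oneAdd N h := Units.ext hg
  rw [h1]; rfl

theorem unit_comm_val {R : Type*} [Ring R] {g h : Rˣ} {N N' : R} (hg : g.1 = 1 + N) (hh : h.1 = 1 + N')
    (h1 : N * N = 0) (h2 : N' * N' = 0) (h3 : N * N' * N = 0) (h4 : N' * N * N' = 0) :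
    (g * h * g⁻¹ * h⁻¹).1 = 1 + (N * N' - N' * N) := by
  rw [Units.val_mul, Units.val_mul, Units.val_mul, hg, hh, unit_inv_val hg h1, unit_inv_val hh h2]
  have e : (1 + N) * (1 + N') * (1 - N) * (1 - N') = 1 + (N * N' - N' * N) - N * N - N' * N'
      + N * N * N' + N' * N * N' - N * (N' * N') - N * N' * N + N * N' * N * N' := by
    noncomm_ring
  rw [e, h1, h2, h3, h4]
  simp only [zero_mul, mul_zero, sub_zero, add_zero]

theorem ring_three {R : Type*} [Ring R] (A B C : R) (h1 : A * B = 0) (h2 : A * C = 0) (h3 : B * C = 0) :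
    (1 + A) * (1 - B) * (1 - C) = 1 + A - B - C := by
  have : (1 + A) * (1 - B) * (1 - C) = 1 + A - B - C + B * C - A * B - A * C + A * B * C := by noncomm_ring
  rw [this, h1, h2, h3, zero_mul, add_zero, add_zero, sub_zero, sub_zero]

theorem map_zero_right' (hω : Symp ω) {n : ℕ} (i : Fin (n + 1)) (x : Module.End F (Fin k → F)) :
    (DT hω i).map hω x 0 = 0 := by
  have := (DT hω i).map_smul_right hω 0 x 0
  rwa [zero_smul, zero_smul] at this

theorem map_zero_left' (hω : Symp ω) {n : ℕ} (i : Fin (n + 1)) (s : Module.End F (T F k n)) :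
    (DT hω i).map hω 0 s = 0 := by
  have := (DT hω i).map_smul_left hω 0 0 s
  rwa [zero_smul, zero_smul] at this

theorem rk_smul_smul (d : F) (a : Fin k → F) : rk ω (d • a) (d • a) = (d * d) • rk ω a a := by
  refine LinearMap.ext fun v => ?_
  rw [LinearMap.smul_apply, rk_apply, rk_apply, map_smul, LinearMap.smul_apply, smul_eq_mul, smul_smul, smul_smul]
  congr 1
  ring

theorem rk_zero : rk ω 0 0 = 0 := by
  refine LinearMap.ext fun v => ?_
  rw [rk_apply, smul_zero, LinearMap.zero_apply]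

theorem rk_sq (hω : Symp ω) (a : Fin k → F) : rk ω a a * rk ω a a = 0 := by
  rw [rk_mul_rk, hω.alt, zero_smul]

section J

variable (hω : Symp ω) {n : ℕ} {M : Subgroup (Module.End F (T F k (n + 1)))ˣ}

/-- The operators `s` with `1 + c_a ⊗ s ∈ M` for all `a`. -/
def J (hω : Symp ω) {n : ℕ} (M : Subgroup (Module.End F (T F k (n + 1)))ˣ) (hsq : ∀ c : F, ∃ d, c = d * d)
    (i : Fin (n + 1)) : Submodule F (Module.End F (T F k n)) where
  carrier := {s | ∀ a, ∃ g ∈ M, g.1 = 1 + (DT hω i).map hω (rk ω a a) s}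
  zero_mem' := fun a => ⟨1, M.one_mem, by rw [map_zero_right', add_zero]; rfl⟩
  add_mem' := by
    intro s s' hs hs' a
    obtain ⟨g, hg, e⟩ := hs a
    obtain ⟨g', hg', e'⟩ := hs' a
    refine ⟨g * g', M.mul_mem hg hg', ?_⟩
    rw [Units.val_mul, e, e', TD.map_add_right]
    have : (DT hω i).map hω (rk ω a a) s * (DT hω i).map hω (rk ω a a) s' = 0 := by
      rw [TD.map_mul, rk_sq hω, map_zero_left']
    rw [add_mul, mul_add, mul_add, this, add_zero, one_mul, one_mul, mul_one]
    abel
  smul_mem' := by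
    intro c s hs a
    obtain ⟨d, hd⟩ := hsq c
    obtain ⟨g, hg, e⟩ := hs (d • a)
    refine ⟨g, hg, ?_⟩
    rw [e, rk_smul_smul, TD.map_smul_left, TD.map_smul_right, hd]

variable {hsq : ∀ c : F, ∃ d, c = d * d}

theorem mem_J {i : Fin (n + 1)} {s : Module.End F (T F k n)} :
    s ∈ J hω M hsq i ↔ ∀ a, ∃ g ∈ M, g.1 = 1 + (DT hω i).map hω (rk ω a a) s := Iff.rfl

theorem mem_J_of (hM : SlotsM ω M) {i : Fin (n + 1)} {s : Module.End F (T F k n)} {a : Fin k → F} (ha : a ≠ 0)
    {g : (Module.End F (T F k (n + 1)))ˣ} (hg : g ∈ M) (h : g.1 = 1 + (DT hω i).map hω (rk ω a a) s) :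
    s ∈ J hω M hsq i := by
  intro a'
  by_cases ha' : a' = 0
  · exact ⟨1, M.one_mem, by rw [ha', rk_zero, map_zero_left', add_zero]; rfl⟩
  obtain ⟨α, hα, hαa⟩ := exists_iso_of_ne hω ha ha'
  refine ⟨sU i α * g * (sU i α)⁻¹, M.mul_mem (M.mul_mem (hM.sp i α hα) hg) (M.inv_mem (hM.sp i α hα)), ?_⟩
  have e1 : (sU i α : (Module.End F (T F k (n + 1)))ˣ).1 = (DT hω i).map hω α.1 1 := (map_sE hω i _).symm
  have e2 : ((sU i α : (Module.End F (T F k (n + 1)))ˣ)⁻¹).1 = (DT hω i).map hω (α⁻¹).1 1 := (map_sE hω i _).symm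
  rw [Units.val_mul, Units.val_mul, h, mul_add, add_mul, mul_one, ← Units.val_mul, mul_inv_cancel, Units.val_one,
    e1, e2, TD.map_mul, TD.map_mul, one_mul, mul_one, rk_conj hα, hαa]

theorem J_inv (hM : SlotsM ω M) (i : Fin (n + 1)) : SlotInv ω (J hω M hsq i) := by
  intro j α hα s hs a
  obtain ⟨g, hg, e⟩ := hs a
  have hU := hM.sp (i.succAbove j) α hα
  refine ⟨sU (i.succAbove j) α * g * (sU (i.succAbove j) α)⁻¹, M.mul_mem (M.mul_mem hU hg) (M.inv_mem hU), ?_⟩
  rw [Units.val_mul, Units.val_mul, e, mul_add, add_mul, mul_one, ← Units.val_mul, mul_inv_cancel, Units.val_one]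
  congr 1
  exact map_slot_conj hω i j α _ _

/-- Closure under the Jordan product. -/
theorem J_jordan (hM : SlotsM ω M) (hk : 4 ≤ k) (i : Fin (n + 1)) {s s' : Module.End F (T F k n)}
    (hs : s ∈ J hω M hsq i) (hs' : s' ∈ J hω M hsq i) : s * s' + s' * s ∈ J hω M hsq i := by
  obtain ⟨w, hw⟩ := exists_ne_vec (F := F) (k := k) (by omega)
  obtain ⟨w', hww'⟩ := hω.exists_pair hw
  obtain ⟨x, x', hxx', hwx, hwx', _, _⟩ := exists_two_pairs hω hk hww'
  have hxw : ω x w = 0 := by rw [hω.skew, hwx, neg_zero]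
  have hx'w : ω x' w = 0 := by rw [hω.skew, hwx', neg_zero]
  have hx'x : ω x' x = -1 := by rw [hω.skew, hxx']
  -- sums of two isotropic directions
  have key : ∀ (s : Module.End F (T F k n)), s ∈ J hω M hsq i → ∀ u v : Fin k → F, ω u v = 0 →
      ∃ g ∈ M, g.1 = 1 + (DT hω i).map hω (rk ω u v + rk ω v u) s := by
    intro s hs u v huv
    have hvu : ω v u = 0 := by rw [hω.skew, huv, neg_zero]
    obtain ⟨g₁, hg₁, e₁⟩ := hs (u + v)
    obtain ⟨g₂, hg₂, e₂⟩ := hs u
    obtain ⟨g₃, hg₃, e₃⟩ := hs v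
    refine ⟨g₁ * g₂⁻¹ * g₃⁻¹, M.mul_mem (M.mul_mem hg₁ (M.inv_mem hg₂)) (M.inv_mem hg₃), ?_⟩
    have z : ∀ a b : Fin k → F, ω a b = 0 → (DT hω i).map hω (rk ω a a) s * (DT hω i).map hω (rk ω b b) s = 0 := by
      intro a b hab
      rw [TD.map_mul, rk_mul_rk, hab, zero_smul, map_zero_left']
    have e : rk ω (u + v) (u + v) = rk ω u u + rk ω v v + (rk ω u v + rk ω v u) := by
      refine LinearMap.ext fun y => ?_
      simp only [LinearMap.add_apply, rk_apply, map_add, add_smul, smul_add]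
      abel
    rw [Units.val_mul, Units.val_mul, unit_inv_val e₂ (z u u (hω.alt u)), unit_inv_val e₃ (z v v (hω.alt v)), e₁]
    have z1 := z (u + v) u (by rw [map_add, LinearMap.add_apply, hω.alt, hvu, add_zero])
    have z2 := z (u + v) v (by rw [map_add, LinearMap.add_apply, hω.alt, huv, add_zero])
    have z3 := z u v huv
    have e' : (DT hω i).map hω (rk ω (u + v) (u + v)) s = (DT hω i).map hω (rk ω u u) s +
        (DT hω i).map hω (rk ω v v) s + (DT hω i).map hω (rk ω u v + rk ω v u) s := by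
      rw [e, TD.map_add_left, TD.map_add_left]
    generalize (DT hω i).map hω (rk ω (u + v) (u + v)) s = A at *
    generalize (DT hω i).map hω (rk ω u u) s = B at *
    generalize (DT hω i).map hω (rk ω v v) s = C at *
    generalize (DT hω i).map hω (rk ω u v + rk ω v u) s = D at *
    rw [ring_three A B C z1 z2 z3, e']
    abel
  obtain ⟨g, hg, e⟩ := key s hs w x hwx
  obtain ⟨g', hg', e'⟩ := key s' hs' x' w hx'w
  refine mem_J_of hω hM hw (M.mul_mem (M.mul_mem (M.mul_mem hg hg') (M.inv_mem hg)) (M.inv_mem hg')) ?_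
  have m1 : (rk ω w x + rk ω x w) * (rk ω w x + rk ω x w) = 0 := by
    simp only [mul_add, add_mul, rk_mul_rk, hwx, hxw, hω.alt, zero_smul, add_zero]
  have m2 : (rk ω x' w + rk ω w x') * (rk ω x' w + rk ω w x') = 0 := by
    simp only [mul_add, add_mul, rk_mul_rk, hwx', hx'w, hω.alt, zero_smul, add_zero]
  have m3 : (rk ω w x + rk ω x w) * (rk ω x' w + rk ω w x') = rk ω w w := by
    simp only [mul_add, add_mul, rk_mul_rk, hxx', hxw, hwx', hω.alt, zero_smul, add_zero, one_smul]
  have m4 : (rk ω x' w + rk ω w x') * (rk ω w x + rk ω x w) = (-1 : F) • rk ω w w := by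
    simp only [mul_add, add_mul, rk_mul_rk, hx'x, hx'w, hwx, hω.alt, zero_smul, add_zero, zero_add]
  have m5 : rk ω w w * (rk ω w x + rk ω x w) = 0 := by
    simp only [mul_add, rk_mul_rk, hwx, hω.alt, zero_smul, add_zero]
  have m6 : rk ω w w * (rk ω x' w + rk ω w x') = 0 := by
    simp only [mul_add, rk_mul_rk, hwx', hω.alt, zero_smul, add_zero]
  rw [unit_comm_val e e' (by rw [TD.map_mul, m1, map_zero_left']) (by rw [TD.map_mul, m2, map_zero_left'])
    (by rw [TD.map_mul, TD.map_mul, m3, m5, map_zero_left'])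
    (by rw [TD.map_mul, TD.map_mul, m4, smul_mul_assoc, m6, smul_zero, map_zero_left']),
    TD.map_mul, TD.map_mul, m3, m4, TD.map_smul_left, neg_one_smul_end, TD.map_add_right]
  congr 1
  exact sub_neg_eq_add _ _

end J

end Cfsg.Agent.H889.C7
end

-- part: H889/C7/CaseIIb
section
/-!
Case II in characteristic two: full support and the long root element.
-/

set_option autoImplicit false
set_option linter.unusedSectionVars false
set_option linter.unusedVariables false
set_option linter.unusedSimpArgs false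

namespace Cfsg.Agent.H889.C7

open Module Cfsg.Agent.H889

variable {F : Type*} [Field F] {k : ℕ} {ω : LinearMap.BilinForm F (Fin k → F)}

/-- Conjugate in all slots. -/
theorem conj_all {n : ℕ} (R : Set (Module.End F (T F k n)))
    (hR : ∀ (j : Fin n) (α : (Module.End F (Fin k → F))ˣ), IsoW ω α → ∀ s ∈ R,
      sE j α.1 * s * sE j (α⁻¹).1 ∈ R) (x : Fin n → Module.End F (Fin k → F)) (hx : pm' x ∈ R)
    (α : Fin n → (Module.End F (Fin k → F))ˣ) (hα : ∀ m, IsoW ω (α m)) :
    pm' (fun m => (α m).1 * x m * ((α m)⁻¹).1) ∈ R := by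
  classical
  have key : ∀ S : Finset (Fin n), pm' (fun m => if m ∈ S then (α m).1 * x m * ((α m)⁻¹).1 else x m) ∈ R := by
    intro S
    induction S using Finset.induction_on with
    | empty => simpa using hx
    | insert m S hm ih =>
      have h := hR m (α m) (hα m) _ ih
      rw [pm'_conj, if_neg hm] at h
      convert h using 2
      funext m'
      by_cases h' : m' = m
      · subst h'
        rw [Function.update_self, if_pos (Finset.mem_insert_self _ _)]
      · rw [Function.update_of_ne h']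
        simp only [Finset.mem_insert, h', false_or]
  simpa using key Finset.univ

theorem pm'_eq_zero {n : ℕ} {x : Fin n → Module.End F (Fin k → F)} {j : Fin n} (h : x j = 0) : pm' x = 0 := by
  refine tp_ext fun xs => ?_
  rw [pm'_tp, LinearMap.zero_apply]
  exact tp_eq_zero (i := j) (by rw [h, LinearMap.zero_apply])

theorem pm'_add {n : ℕ} (x : Fin n → Module.End F (Fin k → F)) (j : Fin n)
    (y z : Module.End F (Fin k → F)) :
    pm' (Function.update x j (y + z)) = pm' (Function.update x j y) + pm' (Function.update x j z) := by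
  refine tp_ext fun xs => ?_
  rw [LinearMap.add_apply, pm'_update_tp, pm'_update_tp, pm'_update_tp, LinearMap.add_apply, tp_update_add]

section Enl

variable (hω : Symp ω) {n : ℕ} {M : Subgroup (Module.End F (T F k (n + 1)))ˣ} {hsq : ∀ c : F, ∃ d, c = d * d}
include hω

theorem enlarge (hM : SlotsM ω M) (hk : 4 ≤ k) (i : Fin (n + 1)) {x : Fin n → Module.End F (Fin k → F)}
    (hx : ∀ m, IsC ω (x m) ∨ IsN ω (x m) ∨ x m = 1) (hxJ : pm' x ∈ J hω M hsq i) {j l : Fin n}
    (hj : x j ≠ 1) (hl : x l = 1) :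
    ∃ x' : Fin n → Module.End F (Fin k → F), (∀ m, IsC ω (x' m) ∨ IsN ω (x' m) ∨ x' m = 1) ∧
      pm' x' ∈ J hω M hsq i ∧ x' l ≠ 1 ∧ ∀ m, x m ≠ 1 → x' m ≠ 1 := by
  have hjl : j ≠ l := by
    rintro rfl
    exact hj hl
  have hxj : IsC ω (x j) ∨ IsN ω (x j) := by
    rcases hx j with h | h | h
    · exact Or.inl h
    · exact Or.inr h
    · exact absurd h hj
  -- the special slot
  obtain ⟨b, hb, ⟨v, hv1, hv2⟩, yj, hyj, hyj1, hyj2⟩ := slot_j hω hk hxj
  -- the three-cycle
  set j' := i.succAbove j with hj'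
  set l' := i.succAbove l with hl'
  have hij : i ≠ j' := (Fin.succAbove_ne i j).symm
  have hil : i ≠ l' := (Fin.succAbove_ne i l).symm
  have hjl' : j' ≠ l' := fun h => hjl (Fin.succAbove_right_injective h)
  set ρ : Equiv.Perm (Fin (n + 1)) := Equiv.swap i j' * Equiv.swap j' l' with hρ
  have hsign : Equiv.Perm.sign ρ = 1 := by
    rw [hρ, Equiv.Perm.sign_mul, Equiv.Perm.sign_swap hij, Equiv.Perm.sign_swap hjl']
    decide
  have hρs : ρ.symm = Equiv.swap j' l' * Equiv.swap i j' := by
    have : ρ⁻¹ = Equiv.swap j' l' * Equiv.swap i j' := by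
      rw [hρ, mul_inv_rev, Equiv.swap_inv, Equiv.swap_inv]
    exact this
  -- the conjugate of `g_b`
  set x₀ : Fin n → Module.End F (Fin k → F) := Function.update (Function.update x j (rk ω b b)) l (x j) with hx₀
  obtain ⟨g₀, hg₀, e₀⟩ := hxJ b
  have hR0 : ∃ h ∈ M, h.1 = 1 + (DT hω i).map hω 1 (pm' x₀) := by
    refine ⟨pU ρ * g₀ * (pU ρ)⁻¹, M.mul_mem (M.mul_mem (hM.al ρ hsign) hg₀) (M.inv_mem (hM.al ρ hsign)), ?_⟩
    have e1 : (pU ρ * g₀ * (pU ρ)⁻¹).1 = cj (pU ρ) g₀.1 := rfl
    have e2 : cj (pU ρ) (1 : Module.End F (T F k (n + 1))) = 1 := by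
      rw [cj_eq_iff, mul_one, one_mul]
    rw [e1, e₀, map_add, e2, map_pm' hω, map_pm' hω, pm'_perm]
    congr 2
    funext m
    rw [hρs, Equiv.Perm.mul_apply]
    rcases Fin.eq_self_or_eq_succAbove i m with rfl | ⟨m', rfl⟩
    · rw [Equiv.swap_apply_left, Equiv.swap_apply_left, Fin.insertNth_apply_same, hl', Fin.insertNth_apply_succAbove, hl]
    · rw [Fin.insertNth_apply_succAbove]
      by_cases h1 : m' = j
      · subst h1
        rw [Equiv.swap_apply_right, Equiv.swap_apply_of_ne_of_ne hij hil, Fin.insertNth_apply_same, hx₀,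
          Function.update_of_ne hjl, Function.update_self]
      · by_cases h2 : m' = l
        · subst h2
          rw [Equiv.swap_apply_of_ne_of_ne (Ne.symm hil) (Ne.symm hjl'), Equiv.swap_apply_right, hj',
            Fin.insertNth_apply_succAbove, hx₀, Function.update_self]
        · have h3 : i.succAbove m' ≠ j' := fun h => h1 (Fin.succAbove_right_injective h)
          have h4 : i.succAbove m' ≠ l' := fun h => h2 (Fin.succAbove_right_injective h)
          rw [Equiv.swap_apply_of_ne_of_ne (Fin.succAbove_ne i m') h3, Equiv.swap_apply_of_ne_of_ne h3 h4,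
            Fin.insertNth_apply_succAbove, hx₀, Function.update_of_ne h2, Function.update_of_ne h1]
  -- conjugate the other slots
  have hpair := fun m => slot_pair hω hk (hx m)
  choose α hα hα1 hα2 using hpair
  set β : Fin n → (Module.End F (Fin k → F))ˣ := Function.update (Function.update α j 1) l 1 with hβ
  have hβiso : ∀ m, IsoW ω (β m) := by
    intro m
    rw [hβ]
    by_cases h2 : m = l
    · rw [h2, Function.update_self]; exact IsoW.one
    · rw [Function.update_of_ne h2]
      by_cases h1 : m = j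
      · rw [h1, Function.update_self]; exact IsoW.one
      · rw [Function.update_of_ne h1]; exact hα m
  set y : Fin n → Module.End F (Fin k → F) := fun m => (β m).1 * x₀ m * ((β m)⁻¹).1 with hy
  have hyR : ∃ h ∈ M, h.1 = 1 + (DT hω i).map hω 1 (pm' y) := by
    refine conj_all (ω := ω) {r | ∃ h ∈ M, h.1 = 1 + (DT hω i).map hω 1 r} ?_ x₀ hR0 β hβiso
    rintro m γ hγ s ⟨h, hh, e⟩
    have hU := hM.sp (i.succAbove m) γ hγ
    refine ⟨sU (i.succAbove m) γ * h * (sU (i.succAbove m) γ)⁻¹, M.mul_mem (M.mul_mem hU hh) (M.inv_mem hU), ?_⟩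
    rw [Units.val_mul, Units.val_mul, e, mul_add, add_mul, mul_one, ← Units.val_mul, mul_inv_cancel, Units.val_one]
    congr 1
    exact map_slot_conj hω i m γ _ _
  have hyj' : y j = rk ω b b := by
    rw [hy]
    simp only [hβ, hx₀, Function.update_of_ne hjl, Function.update_self, Units.val_one, inv_one, one_mul, mul_one]
  have hyl : y l = x j := by
    rw [hy]
    simp only [hβ, hx₀, Function.update_self, Units.val_one, inv_one, one_mul, mul_one]
  have hym : ∀ m, m ≠ j → m ≠ l → y m = (α m).1 * x m * ((α m)⁻¹).1 := by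
    intro m h1 h2
    rw [hy]
    simp only [hβ, hx₀, Function.update_of_ne h2, Function.update_of_ne h1]
  obtain ⟨h, hh, eh⟩ := hyR
  -- the commutator
  set s := pm' (fun m => x m * y m) - pm' (fun m => y m * x m) with hs
  have hxj2 := (slot_ne hω hxj)
  have hsJ : s ∈ J hω M hsq i := by
    intro a
    obtain ⟨g, hg, e⟩ := hxJ a
    refine ⟨g * h * g⁻¹ * h⁻¹, M.mul_mem (M.mul_mem (M.mul_mem hg hh) (M.inv_mem hg)) (M.inv_mem hh), ?_⟩
    have m1 : pm' y * pm' y = 0 := by
      rw [pm'_mul]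
      exact pm'_eq_zero (j := j) (by rw [hyj', rk_sq hω])
    have m2 : pm' y * pm' x * pm' y = 0 := by
      rw [pm'_mul, pm'_mul]
      exact pm'_eq_zero (j := l) (by rw [hyl, hl, mul_one, hxj2.2])
    rw [unit_comm_val e eh (by rw [TD.map_mul, rk_sq hω, map_zero_left'])
      (by rw [TD.map_mul, m1, map_zero_right'])
      (by rw [TD.map_mul, TD.map_mul, mul_one, rk_sq hω, map_zero_left'])
      (by rw [TD.map_mul, TD.map_mul, m2, map_zero_right']),
      TD.map_mul, TD.map_mul, mul_one, one_mul, pm'_mul, pm'_mul]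
    congr 1
    have : s = pm' (fun m => x m * y m) + (-1 : F) • pm' (fun m => y m * x m) := by
      rw [neg_one_smul_end, hs, sub_eq_add_neg]
    rw [this, TD.map_add_right, TD.map_smul_right, neg_one_smul_end, sub_eq_add_neg]
  -- it is non-zero
  have hs0 : s ≠ 0 := by
    intro h0
    have hz : ∀ m, m ≠ j → ∃ z, (x m * y m) z ≠ 0 := by
      intro m hm
      by_contra hcon
      push Not at hcon
      have hcon' : x m * y m = 0 := LinearMap.ext hcon
      by_cases h2 : m = l
      · rw [h2, hl, one_mul, hyl] at hcon'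
        exact hxj2.1 hcon'
      · rw [hym m hm h2] at hcon'
        exact hα1 m hcon'
    have hz' : ∀ m, ∃ z, (x m * y m) z ≠ 0 ∧ (m = j → (y m * x m) z = 0) := by
      intro m
      by_cases hm : m = j
      · subst hm
        rw [hyj']
        exact ⟨v, hv1, fun _ => hv2⟩
      · obtain ⟨z, hz⟩ := hz m hm
        exact ⟨z, hz, fun h => absurd h hm⟩
    choose z hz1 hz2 using hz'
    have h1 := LinearMap.congr_fun h0 (tp z)
    rw [hs, LinearMap.sub_apply, pm'_tp, pm'_tp, LinearMap.zero_apply,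
      tp_eq_zero (xs := fun m => (y m * x m) (z m)) (i := j) (hz2 j rfl), sub_zero] at h1
    exact tp_ne_zero hz1 h1
  -- the images
  have hI : ∀ m, (x m ≠ 1 ∨ m = l) → ImP ω m s := by
    intro m hm
    obtain ⟨u, hu, h1, h2⟩ : ∃ u : Fin k → F, u ≠ 0 ∧ rk ω u u * (x m * y m) = 0 ∧ rk ω u u * (y m * x m) = 0 := by
      by_cases h1 : m = j
      · subst h1
        rw [hyj']
        exact ⟨yj, hyj, hyj1, hyj2⟩
      · by_cases h2 : m = l
        · subst h2
          rw [hyl, hl, one_mul, mul_one]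
          obtain ⟨u, hu, h⟩ := slot_im hω hxj
          exact ⟨u, hu, h, h⟩
        · rw [hym m h1 h2]
          exact hα2 m (hm.resolve_right h2)
    refine ⟨u, hu, ?_⟩
    rw [hs, mul_sub, sE_mul_pm', sE_mul_pm', pm'_eq_zero (j := m) (by rw [Function.update_self, h1]),
      pm'_eq_zero (j := m) (by rw [Function.update_self, h2]), sub_zero]
  obtain ⟨x', h1, h2, h3⟩ := extract hω hk n (J hω M hsq i) (J_inv hω hM i) s hsJ hs0
  exact ⟨x', h1, h3, h2 l (hI l (Or.inr rfl)), fun m hm => h2 m (hI m (Or.inl hm))⟩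

/-- Full support. -/
theorem full_supp (hM : SlotsM ω M) (hk : 4 ≤ k) (i : Fin (n + 1)) {x : Fin n → Module.End F (Fin k → F)}
    (hx : ∀ m, IsC ω (x m) ∨ IsN ω (x m) ∨ x m = 1) (hxJ : pm' x ∈ J hω M hsq i) {j : Fin n}
    (hj : x j ≠ 1) :
    ∃ x' : Fin n → Module.End F (Fin k → F), (∀ m, IsC ω (x' m) ∨ IsN ω (x' m)) ∧ pm' x' ∈ J hω M hsq i := by
  classical
  have key : ∀ d : ℕ, ∃ x' : Fin n → Module.End F (Fin k → F), (∀ m, IsC ω (x' m) ∨ IsN ω (x' m) ∨ x' m = 1) ∧
      pm' x' ∈ J hω M hsq i ∧ x' j ≠ 1 ∧ ((∀ m, x' m ≠ 1) ∨ d ≤ (Finset.univ.filter fun m => x' m ≠ 1).card) := by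
    intro d
    induction d with
    | zero => exact ⟨x, hx, hxJ, hj, Or.inr (Nat.zero_le _)⟩
    | succ d ih =>
      obtain ⟨x', h1, h2, h3, h4⟩ := ih
      rcases h4 with h4 | h4
      · exact ⟨x', h1, h2, h3, Or.inl h4⟩
      by_cases h5 : ∀ m, x' m ≠ 1
      · exact ⟨x', h1, h2, h3, Or.inl h5⟩
      push Not at h5
      obtain ⟨l, hl⟩ := h5
      obtain ⟨x'', g1, g2, g3, g4⟩ := enlarge hω hM hk i h1 h2 h3 hl
      refine ⟨x'', g1, g2, g4 j h3, Or.inr ?_⟩
      refine lt_of_le_of_lt h4 (Finset.card_lt_card ?_)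
      rw [Finset.ssubset_iff_of_subset]
      · exact ⟨l, by simpa using g3, by simpa using hl⟩
      · intro m hm
        rw [Finset.mem_filter] at hm ⊢
        exact ⟨hm.1, g4 m hm.2⟩
  obtain ⟨x', h1, h2, h3, h4⟩ := key n
  refine ⟨x', fun m => ?_, h2⟩
  have h5 : x' m ≠ 1 := by
    rcases h4 with h4 | h4
    · exact h4 m
    · have h6 : (Finset.univ.filter fun m => x' m ≠ 1) = Finset.univ := by
        apply Finset.eq_univ_of_card
        rw [Fintype.card_fin]
        refine le_antisymm ?_ h4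
        calc _ ≤ (Finset.univ : Finset (Fin n)).card := Finset.card_le_card (Finset.filter_subset _ _)
          _ = n := by rw [Finset.card_univ, Fintype.card_fin]
      have h7 : m ∈ (Finset.univ.filter fun m => x' m ≠ 1) := by rw [h6]; exact Finset.mem_univ m
      exact (Finset.mem_filter.1 h7).2
  rcases h1 m with h | h | h
  · exact Or.inl h
  · exact Or.inr h
  · exact absurd h h5

/-- The sum of two rank one operators. -/
noncomputable def S2 (ω : LinearMap.BilinForm F (Fin k → F)) {n : ℕ} (p r : Fin n → (Fin k → F)) :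
    Module.End F (T F k n) :=
  pm' (fun m => rk ω (p m) (r m)) + pm' (fun m => rk ω (r m) (p m))

/-- `S(p, r) ∈ J` for some `p`, `r` independent in each slot. -/
theorem exists_S2 (h2 : (2 : F) = 0) (hM : SlotsM ω M) (hk : 6 ≤ k) (i : Fin (n + 1))
    {x : Fin n → Module.End F (Fin k → F)} (hx : ∀ m, IsC ω (x m) ∨ IsN ω (x m)) (hxJ : pm' x ∈ J hω M hsq i) :
    ∃ p r : Fin n → (Fin k → F), (∀ m, p m ≠ 0) ∧ (∀ m, ∀ c : F, r m ≠ c • p m) ∧ S2 ω p r ∈ J hω M hsq i := by
  have hpair := fun m => slot_jordan hω hk (hx m)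
  choose α p r hα hp hr h3 h4 using hpair
  refine ⟨p, r, hp, hr, ?_⟩
  have hinv := J_inv (hsq := hsq) hω hM i
  have h5 := conj_all (ω := ω) {s | s ∈ J hω M hsq i} (fun j α hα s hs => hinv j α hα s hs) x hxJ α hα
  have h6 := J_jordan hω hM (by omega) i hxJ h5
  rw [pm'_mul, pm'_mul] at h6
  have e1 : (fun m => x m * ((α m).1 * x m * ((α m)⁻¹).1)) = fun m => rk ω (p m) (r m) := funext h3
  have e2 : (fun m => (α m).1 * x m * ((α m)⁻¹).1 * x m) = fun m => rk ω (r m) (p m) := by
    funext m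
    rw [h4, ← neg_one_smul_end]
    have : (-1 : F) = 1 := by linear_combination -h2
    rw [this, one_smul]
  rw [e1, e2] at h6
  exact h6

theorem exists_shift {p r : Fin k → F} (hp : p ≠ 0) (hr : ∀ c : F, r ≠ c • p) :
    ∃ (α : (Module.End F (Fin k → F))ˣ) (μ : F), IsoW ω α ∧ μ ≠ 0 ∧ α.1 p = p ∧ α.1 r = r + μ • p := by
  by_cases h : ω p r = 0
  · obtain ⟨α, h1, h2, h3⟩ := exists_iso hω (a := p) (x := r) (y := r + (1 : F) • p) h
      (by rw [map_add, h, map_smul, hω.alt, smul_zero, add_zero]) hr (by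
        intro c hc
        apply hr (c - 1)
        rw [sub_smul, ← hc]; abel)
    exact ⟨α, 1, h1, one_ne_zero, h2, h3⟩
  · refine ⟨tv hω 1 p, ω p r, isoW_tv hω 1 p, h, ?_, ?_⟩
    · rw [tv_apply, hω.alt, mul_zero, zero_smul, add_zero]
    · rw [tv_apply, one_mul]

theorem S2_step (hM : SlotsM ω M) (i : Fin (n + 1)) {p r : Fin n → (Fin k → F)} (h : S2 ω p r ∈ J hω M hsq i)
    (m : Fin n) (hp : p m ≠ 0) (hr : ∀ c : F, r m ≠ c • p m) :
    S2 ω p (Function.update r m (p m)) ∈ J hω M hsq i := by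
  obtain ⟨α, μ, hα, hμ, hαp, hαr⟩ := exists_shift hω hp hr
  have h1 := J_inv hω hM (hsq := hsq) i m α hα _ h
  have e1 : sE m α.1 * S2 ω p r * sE m (α⁻¹).1 =
      S2 ω p r + μ • S2 ω p (Function.update r m (p m)) := by
    rw [S2, mul_add, add_mul, pm'_conj, pm'_conj, rk_conj hα, rk_conj hα, hαp, hαr]
    have f1 : rk ω (p m) (r m + μ • p m) = rk ω (p m) (r m) + μ • rk ω (p m) (p m) := by
      refine LinearMap.ext fun v => ?_
      simp only [LinearMap.add_apply, LinearMap.smul_apply, rk_apply, map_add, map_smul, add_smul, smul_eq_mul,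
        mul_smul]
    have f2 : rk ω (r m + μ • p m) (p m) = rk ω (r m) (p m) + μ • rk ω (p m) (p m) := by
      refine LinearMap.ext fun v => ?_
      simp only [LinearMap.add_apply, LinearMap.smul_apply, rk_apply, smul_add]
      rw [smul_comm]
    rw [f1, f2, pm'_add, pm'_add, pm'_smul, pm'_smul]
    have g1 : Function.update (fun m => rk ω (p m) (r m)) m (rk ω (p m) (r m)) = fun m => rk ω (p m) (r m) :=
      Function.update_eq_self _ _
    have g2 : Function.update (fun m => rk ω (r m) (p m)) m (rk ω (r m) (p m)) = fun m => rk ω (r m) (p m) :=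
      Function.update_eq_self _ _
    have g3 : Function.update (fun m => rk ω (p m) (r m)) m (rk ω (p m) (p m)) =
        fun m' => rk ω (p m') (Function.update r m (p m) m') := by
      funext m'
      by_cases h' : m' = m
      · subst h'; rw [Function.update_self, Function.update_self]
      · rw [Function.update_of_ne h', Function.update_of_ne h']
    have g4 : Function.update (fun m => rk ω (r m) (p m)) m (rk ω (p m) (p m)) =
        fun m' => rk ω (Function.update r m (p m) m') (p m') := by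
      funext m'
      by_cases h' : m' = m
      · subst h'; rw [Function.update_self, Function.update_self]
      · rw [Function.update_of_ne h', Function.update_of_ne h']
    rw [g1, g2, g3, g4, S2, smul_add]
    abel
  rw [e1] at h1
  have h3 := (J hω M hsq i).sub_mem h1 h
  rw [add_sub_cancel_left] at h3
  have h4 := (J hω M hsq i).smul_mem μ⁻¹ h3
  rwa [smul_smul, inv_mul_cancel₀ hμ, one_smul] at h4

theorem S2_one (hM : SlotsM ω M) (i : Fin (n + 1)) {p r : Fin n → (Fin k → F)} (h : S2 ω p r ∈ J hω M hsq i)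
    (hp : ∀ m, p m ≠ 0) (hr : ∀ m, ∀ c : F, r m ≠ c • p m) (m₀ : Fin n) :
    S2 ω p (Function.update p m₀ (r m₀)) ∈ J hω M hsq i := by
  classical
  have key : ∀ S : Finset (Fin n), m₀ ∉ S → S2 ω p (fun m => if m ∈ S then p m else r m) ∈ J hω M hsq i := by
    intro S
    induction S using Finset.induction_on with
    | empty => intro _; simpa using h
    | insert m S hm ih =>
      intro hS
      rw [Finset.mem_insert, not_or] at hS
      have h1 := S2_step hω hM i (ih hS.2) m (hp m) (by rw [if_neg hm]; exact hr m)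
      convert h1 using 2
      funext m'
      by_cases h' : m' = m
      · subst h'
        rw [Function.update_self, if_pos (Finset.mem_insert_self _ _)]
      · rw [Function.update_of_ne h']
        simp only [Finset.mem_insert, h', false_or]
  have h1 := key (Finset.univ.erase m₀) (Finset.notMem_erase _ _)
  convert h1 using 2
  funext m
  by_cases h' : m = m₀
  · subst h'
    rw [Function.update_self, if_neg (Finset.notMem_erase _ _)]
  · rw [Function.update_of_ne h', if_pos (Finset.mem_erase.2 ⟨h', Finset.mem_univ _⟩)]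

end Enl

/-- The long root element attached to two pure vectors differing in one slot. -/
def HasLong (ω : LinearMap.BilinForm F (Fin k → F)) {n : ℕ} (M : Subgroup (Module.End F (T F k n))ˣ) : Prop :=
  ∃ (P : Fin n → (Fin k → F)) (j : Fin n) (u : Fin k → F), (∀ m, P m ≠ 0) ∧ (∀ c : F, u ≠ c • P j) ∧
    ∃ g ∈ M, g.1 = 1 + (R1 ω (tp P) (tp (Function.update P j u)) - R1 ω (tp (Function.update P j u)) (tp P))

/-- **Case II, characteristic two.** -/
theorem hasLong_of_caseII (hω : Symp ω) (h2 : (2 : F) = 0) (hsq : ∀ c : F, ∃ d, c = d * d) (hk : 6 ≤ k) {n : ℕ}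
    {M : Subgroup (Module.End F (T F k (n + 2)))ˣ} (hM : SlotsM ω M) {i : Fin (n + 2)} {a : Fin k → F}
    (ha : a ≠ 0) {s : Module.End F (T F k (n + 1))} {g : (Module.End F (T F k (n + 2)))ˣ} (hg : g ∈ M)
    (e : g.1 = 1 + (DT hω i).cs a s) (hs : ¬ ∃ τ : F, s = τ • 1) : HasLong ω M := by
  have hsJ : s ∈ J hω M hsq i := by
    refine mem_J_of hω hM ha hg ?_
    rw [e, TD.cs_eq_el, TD.el_eq_map _ hω]
  obtain ⟨m, e₁, he₁, he₁0, hI⟩ := exists_ImP hω (by omega) (J_inv hω hM i) hsJ hs
  obtain ⟨x, h3, h4, h5⟩ := extract hω (by omega) (n + 1) (J hω M hsq i) (J_inv hω hM i) e₁ he₁ he₁0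
  obtain ⟨x', h6, h7⟩ := full_supp hω hM (by omega) i h3 h5 (h4 m hI)
  obtain ⟨p, r, hp, hr, h8⟩ := exists_S2 hω h2 hM hk i h6 h7
  have h9 := S2_one hω hM i h8 hp hr 0
  obtain ⟨g', hg', e'⟩ := h9 a
  refine ⟨i.insertNth a p, i.succAbove 0, r 0, ?_, ?_, g', hg', ?_⟩
  · intro m
    rcases Fin.eq_self_or_eq_succAbove i m with rfl | ⟨m', rfl⟩
    · rw [Fin.insertNth_apply_same]; exact ha
    · rw [Fin.insertNth_apply_succAbove]; exact hp m'
  · intro c
    rw [Fin.insertNth_apply_succAbove]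
    exact hr 0 c
  · have e1 : Function.update (i.insertNth a p : Fin (n + 2) → (Fin k → F)) (i.succAbove 0) (r 0) =
        (i.insertNth a (Function.update p 0 (r 0)) : Fin (n + 2) → (Fin k → F)) := update_insertNth_ne _ _ _ _ _
    have e2 : ∀ p q : Fin (n + 1) → (Fin k → F), R1 ω (tp (i.insertNth a p : Fin (n + 2) → (Fin k → F)))
        (tp (i.insertNth a q : Fin (n + 2) → (Fin k → F))) =
        (DT hω i).map hω (rk ω a a) (pm' fun m => rk ω (p m) (q m)) := by
      intro p q
      rw [map_pm' hω, ← pm'_rk]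
      congr 1
      funext m
      rcases Fin.eq_self_or_eq_succAbove i m with rfl | ⟨m', rfl⟩
      · rw [Fin.insertNth_apply_same, Fin.insertNth_apply_same, Fin.insertNth_apply_same]
      · rw [Fin.insertNth_apply_succAbove, Fin.insertNth_apply_succAbove, Fin.insertNth_apply_succAbove]
    rw [e', e1, e2, e2, S2, TD.map_add_right]
    congr 1
    have h10 : ∀ z : Module.End F (T F k (n + 2)), -z = z := by
      intro z
      rw [← neg_one_smul_end]
      have : (-1 : F) = 1 := by linear_combination -h2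
      rw [this, one_smul]
    rw [sub_eq_add_neg, h10]

end Cfsg.Agent.H889.C7
end

-- part: H889/C7/Contain
section
/-!
The slot groups and the even slot permutations lie in `E Q`.
-/

set_option autoImplicit false
set_option linter.unusedSectionVars false
set_option linter.unusedVariables false
set_option linter.unusedSimpArgs false

namespace Cfsg.Agent.H889.C7

open Module Cfsg.Agent.H889 QuadraticMap
open Cfsg.Agent.LieClassical.OrthCore Cfsg.Agent.LieClassical.OrthTrans Cfsg.Agent.LieClassical.OrthFinite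

variable {F : Type*} [Field F] {k : ℕ} {ω : LinearMap.BilinForm F (Fin k → F)}

/-- Units of the endomorphism ring as linear automorphisms. -/
noncomputable def Θ (F : Type*) [Field F] (V : Type*) [AddCommGroup V] [Module F V] :
    (Module.End F V)ˣ ≃* (V ≃ₗ[F] V) :=
  LinearMap.GeneralLinearGroup.generalLinearEquiv F V

theorem Θ_apply {V : Type*} [AddCommGroup V] [Module F V] (g : (Module.End F V)ˣ) (v : V) :
    Θ F V g v = g.1 v := rfl

theorem Θ_symm_val {V : Type*} [AddCommGroup V] [Module F V] (g : V ≃ₗ[F] V) (v : V) :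
    ((Θ F V).symm g).1 v = g v := rfl

/-- Additive functions vanishing on all multiples of pure tensors vanish. -/
theorem add_zero_of_tp {n : ℕ} {A : Type*} [AddCommGroup A] (φ : T F k n →+ A)
    (h : ∀ (c : F) xs, φ (c • tp xs) = 0) (v : T F k n) : φ v = 0 := by
  have hv : v = ∑ a, v a • tp (fun i => Pi.single (a i) (1 : F)) := by
    funext b
    rw [Finset.sum_apply, Finset.sum_eq_single b]
    · rw [Pi.smul_apply, ← single_eq_tp, Pi.single_eq_same, smul_eq_mul, mul_one]
    · intro a _ hab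
      rw [Pi.smul_apply, ← single_eq_tp, Pi.single_eq_of_ne (Ne.symm hab), smul_zero]
    · intro h'; exact absurd (Finset.mem_univ _) h'
  rw [hv, map_sum]
  exact Finset.sum_eq_zero fun a _ => h _ _

/-- `Q` is the form of the tensor decomposition. -/
structure QForm (hω : Symp ω) {n : ℕ} (Q : QuadraticForm F (T F k n)) (c₀ : F) : Prop where
  ne : c₀ ≠ 0
  polar : ∀ x y, QuadraticMap.polar Q x y = c₀ * fT ω n x y
  pure : ∀ xs, Q (tp xs) = 0

section

variable {hω : Symp ω} {c₀ : F}

theorem fT_ιι (hω : Symp ω) {n : ℕ} (i : Fin (n + 1)) (w w' : Fin k → F) (b b' : T F k n) :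
    fT ω (n + 1) (ιT i w b) (ιT i w' b') = ω w w' * fT ω n b b' := (DT_forms hω i).ιι w w' b b'

theorem QForm.zero_ι {n : ℕ} {Q : QuadraticForm F (T F k (n + 1))} (h : QForm hω Q c₀) (i : Fin (n + 1))
    (w : Fin k → F) (b : T F k n) : Q (ιT i w b) = 0 := by
  let φ : T F k n →+ F :=
    { toFun := fun b => Q (ιT i w b)
      map_zero' := by rw [map_zero, QuadraticMap.map_zero]
      map_add' := fun b b' => by
        rw [map_add, QuadraticMap.map_add (⇑Q), h.polar, fT_ιι hω, hω.alt, zero_mul, mul_zero,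
          add_zero] }
  refine add_zero_of_tp φ (fun c xs => ?_) b
  change Q (ιT i w (c • tp xs)) = 0
  rw [map_smul, QuadraticMap.map_smul, ιT_tp, h.pure, smul_zero]

/-- A linear map preserving the form on pure tensors (polar form and values) preserves `Q`. -/
theorem QForm.preserve {n : ℕ} {Q : QuadraticForm F (T F k n)} (h : QForm hω Q c₀) {g : Module.End F (T F k n)}
    (h1 : ∀ xs ys, fT ω n (g (tp xs)) (g (tp ys)) = fT ω n (tp xs) (tp ys))
    (h2 : ∀ xs, ∃ ys, g (tp xs) = tp ys) (v : T F k n) : Q (g v) = Q v := by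
  have h3 : ∀ x y, fT ω n (g x) (g y) = fT ω n x y := by
    have : (fT ω n).compl₁₂ g g = fT ω n := bilin_ext fun xs ys => h1 xs ys
    intro x y
    exact LinearMap.congr_fun (LinearMap.congr_fun this x) y
  let φ : T F k n →+ F :=
    { toFun := fun v => Q (g v) - Q v
      map_zero' := by rw [map_zero, QuadraticMap.map_zero, sub_self]
      map_add' := fun b b' => by
        rw [map_add, QuadraticMap.map_add (⇑Q), QuadraticMap.map_add (⇑Q), h.polar, h.polar, h3]; ring }
  have h4 := add_zero_of_tp φ (fun c xs => ?_) v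
  · exact sub_eq_zero.1 h4
  · change Q (g (c • tp xs)) - Q (c • tp xs) = 0
    obtain ⟨ys, hys⟩ := h2 xs
    rw [map_smul, QuadraticMap.map_smul, QuadraticMap.map_smul, hys, h.pure, h.pure, sub_self]

theorem fT_pE {n : ℕ} (π : Equiv.Perm (Fin n)) (xs ys : Fin n → (Fin k → F)) :
    fT ω n (pE π (tp xs)) (pE π (tp ys)) = fT ω n (tp xs) (tp ys) := by
  rw [pE_tp, pE_tp, fT_tp, fT_tp]
  exact Equiv.prod_comp π.symm fun i => ω (xs i) (ys i)

theorem QForm.pU_mem_O {n : ℕ} {Q : QuadraticForm F (T F k n)} (h : QForm hω Q c₀) (π : Equiv.Perm (Fin n)) :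
    Θ F (T F k n) (pU π) ∈ O Q :=
  fun v => h.preserve (g := pE π) (fT_pE π) (fun xs => ⟨_, pE_tp π xs⟩) v

theorem alt_le_commutator {n : ℕ} {π : Equiv.Perm (Fin n)} (hπ : Equiv.Perm.sign π = 1) :
    π ∈ commutator (Equiv.Perm (Fin n)) := by
  have h1 : π ∈ alternatingGroup (Fin n) := by rwa [Equiv.Perm.mem_alternatingGroup]
  rw [← Equiv.Perm.closure_three_cycles_eq_alternating] at h1
  refine (Subgroup.closure_le _).2 ?_ h1
  intro g hg
  have hg3 : g.IsThreeCycle := hg
  have h2 : IsConj g (g ^ 2) := by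
    rw [Equiv.Perm.isConj_iff_cycleType_eq, hg3.cycleType, pow_two]
    have := hg3.isThreeCycle_sq
    exact this.cycleType.symm
  have h3 := mem_commutatorSet_of_isConj_sq _ h2
  rw [commutator_eq_closure]
  exact Subgroup.subset_closure h3

/-- The permutations as a homomorphism. -/
def pUhom (F : Type*) [Field F] (k n : ℕ) : Equiv.Perm (Fin n) →* (Module.End F (T F k n))ˣ where
  toFun := pU
  map_one' := Units.ext (LinearMap.ext fun v => rfl)
  map_mul' σ τ := Units.ext (LinearMap.ext fun v => rfl)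

theorem QForm.pU_mem_E {n : ℕ} {Q : QuadraticForm F (T F k n)} (h : QForm hω Q c₀) (hG : Good Q)
    {π : Equiv.Perm (Fin n)} (hπ : Equiv.Perm.sign π = 1) : Θ F (T F k n) (pU π) ∈ E Q := by
  rw [← hG.commutator_eq_E]
  have h1 := alt_le_commutator hπ
  let φ : Equiv.Perm (Fin n) →* (T F k n ≃ₗ[F] T F k n) := (Θ F (T F k n)).toMonoidHom.comp (pUhom F k n)
  have h2 : (commutator (Equiv.Perm (Fin n))).map φ ≤ ⁅O Q, O Q⁆ := by
    rw [commutator_def, Subgroup.map_commutator]
    apply Subgroup.commutator_mono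
    · rintro _ ⟨σ, -, rfl⟩
      exact h.pU_mem_O σ
    · rintro _ ⟨σ, -, rfl⟩
      exact h.pU_mem_O σ
  exact h2 ⟨π, h1, rfl⟩

/-! ### Slots -/

/-- `fT` is alternating when it is symmetric in characteristic two or `n` is odd. -/
theorem fT_alt (hω : Symp ω) {n : ℕ} (hn : Odd n ∨ (2 : F) = 0 ∧ 0 < n) : (fT ω n).IsAlt := by
  rcases hn with hn | ⟨h2, hn⟩
  · -- odd
    have hsk : ∀ x y, fT ω n x y = -fT ω n y x := fun x y => by
      rw [fT_symm hω, hn.neg_one_pow, neg_one_mul]
    intro v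
    let φ : T F k n →+ F :=
      { toFun := fun v => fT ω n v v
        map_zero' := by rw [map_zero]
        map_add' := fun b b' => by
          rw [map_add, map_add (fT ω n), LinearMap.add_apply, LinearMap.add_apply, hsk b' b]; ring }
    refine add_zero_of_tp φ (fun c xs => ?_) v
    change fT ω n (c • tp xs) (c • tp xs) = 0
    have h0 : ∏ i, ω (xs i) (xs i) = 0 := Finset.prod_eq_zero (Finset.mem_univ (⟨0, hn.pos⟩ : Fin n)) (hω.alt _)
    rw [map_smul, map_smul, LinearMap.smul_apply, fT_tp, h0, smul_zero, smul_zero]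
  · have h11 : (-1 : F) = 1 := by linear_combination -h2
    have hsk : ∀ x y, fT ω n x y = -fT ω n y x := fun x y => by
      rw [fT_symm hω, h11, one_pow, one_mul, ← neg_one_mul, h11, one_mul]
    intro v
    let φ : T F k n →+ F :=
      { toFun := fun v => fT ω n v v
        map_zero' := by rw [map_zero]
        map_add' := fun b b' => by
          rw [map_add, map_add (fT ω n), LinearMap.add_apply, LinearMap.add_apply, hsk b' b]; ring }
    refine add_zero_of_tp φ (fun c xs => ?_) v
    change fT ω n (c • tp xs) (c • tp xs) = 0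
    have h0 : ∏ i, ω (xs i) (xs i) = 0 := Finset.prod_eq_zero (Finset.mem_univ (⟨0, hn⟩ : Fin n)) (hω.alt _)
    rw [map_smul, map_smul, LinearMap.smul_apply, fT_tp, h0, smul_zero, smul_zero]

theorem QForm.tv_mem_E {n : ℕ} {Q : QuadraticForm F (T F k (n + 1))} (h : QForm hω Q c₀)
    (hn : Odd n ∨ (2 : F) = 0 ∧ 0 < n) (i : Fin (n + 1)) (c : F) (w : Fin k → F) :
    Θ F (T F k (n + 1)) (sU i (tv hω c w)) ∈ E Q := by
  classical
  obtain ⟨m, r, b, h1, h2, h3, h4⟩ := S0752.result (fT ω n) (fT_alt hω hn)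
  have hr : r = 0 := by
    by_contra hr
    have h5 := fT_ndl hω n _ (h4 ⟨0, Nat.pos_of_ne_zero hr⟩)
    exact b.ne_zero _ h5
  subst hr
  -- the expansion of a vector
  have hsk : ∀ x y, fT ω n x y = -fT ω n y x := by
    intro x y
    have h0 := fT_alt hω hn (x + y)
    rw [map_add, map_add (fT ω n), LinearMap.add_apply, LinearMap.add_apply, fT_alt hω hn x, fT_alt hω hn y, zero_add,
      add_zero] at h0
    exact eq_neg_of_add_eq_zero_right h0
  have hexp : ∀ x : T F k n, ∑ j : Fin m, (fT ω n (b (Sum.inl (Sum.inl j))) x • b (Sum.inl (Sum.inr j)) -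
      fT ω n (b (Sum.inl (Sum.inr j))) x • b (Sum.inl (Sum.inl j))) = x := by
    intro x
    rw [← sub_eq_zero]
    apply fT_ndr hω n
    intro y
    have : ∀ y, fT ω n y (∑ j : Fin m, (fT ω n (b (Sum.inl (Sum.inl j))) x • b (Sum.inl (Sum.inr j)) -
      fT ω n (b (Sum.inl (Sum.inr j))) x • b (Sum.inl (Sum.inl j))) - x) = 0 := by
      have hlin : (fT ω n).flip (∑ j : Fin m, (fT ω n (b (Sum.inl (Sum.inl j))) x • b (Sum.inl (Sum.inr j)) -
          fT ω n (b (Sum.inl (Sum.inr j))) x • b (Sum.inl (Sum.inl j))) - x) = 0 := by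
        refine b.ext fun s => ?_
        change fT ω n (b s) (_ - x) = 0
        rw [map_sub, map_sum]
        simp only [map_sub, map_smul, smul_eq_mul]
        rcases s with (s | s) | s
        · simp only [h1, h2, mul_zero, sub_zero, mul_ite, mul_one]
          rw [Finset.sum_ite_eq, if_pos (Finset.mem_univ _), sub_self]
        · have e1 : ∀ j, fT ω n (b (Sum.inl (Sum.inr s))) (b (Sum.inl (Sum.inl j))) = if j = s then -1 else 0 := by
            intro j
            rw [hsk, h1]
            split_ifs <;> simp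
          simp only [e1, h3, mul_zero, zero_sub, mul_ite, mul_neg, mul_one, Finset.sum_neg_distrib]
          rw [Finset.sum_ite_eq', if_pos (Finset.mem_univ _), neg_neg, sub_self]
        · exact s.elim0
      intro y
      exact LinearMap.congr_fun hlin y
    exact this y
  -- the elements `1 + ι s κ`
  have hadd : ∀ s s' : Module.End F (T F k n),
      (∃ g ∈ E Q, ∀ x, g x = x + ιT i w (s (κT ω i w x))) → (∃ g ∈ E Q, ∀ x, g x = x + ιT i w (s' (κT ω i w x))) →
      ∃ g ∈ E Q, ∀ x, g x = x + ιT i w ((s + s') (κT ω i w x)) := by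
    rintro s s' ⟨g, hg, e⟩ ⟨g', hg', e'⟩
    refine ⟨g * g', (E Q).mul_mem hg hg', fun x => ?_⟩
    have hκ : ∀ b, κT ω i w (ιT i w b) = 0 := fun b => by
      have := (DT hω i).κι w w b
      rwa [hω.alt, zero_smul] at this
    rw [LinearEquiv.mul_apply, e', e, map_add, hκ, add_zero, LinearMap.add_apply, map_add]
    abel
  have hroot : ∀ (d : F) (x y : T F k n), ∃ g ∈ E Q, ∀ v, g v = v + ιT i w
      ((d • (R1 ω y x - R1 ω x y)) (κT ω i w v)) := by
    intro d x y
    have hu : Q (ιT i w x) = 0 := h.zero_ι i w x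
    have hv : Q (ιT i w ((d * c₀⁻¹) • y)) = 0 := h.zero_ι i w _
    have huv : QuadraticMap.polar Q (ιT i w x) (ιT i w ((d * c₀⁻¹) • y)) = 0 := by
      rw [h.polar, fT_ιι hω, hω.alt, zero_mul, mul_zero]
    refine ⟨siegel Q _ _ hu huv, siegel_mem_E hu huv, fun v => ?_⟩
    rw [siegel_apply, hv, zero_mul, zero_smul, sub_zero, h.polar, h.polar, fT_adj, fT_adj]
    rw [LinearMap.smul_apply, LinearMap.sub_apply, R1_apply, R1_apply]
    have e1 : fT ω n ((d * c₀⁻¹) • y) (κT ω i w v) = (d * c₀⁻¹) * fT ω n y (κT ω i w v) := by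
      rw [map_smul, LinearMap.smul_apply, smul_eq_mul]
    have hc := h.ne
    have e2 : ∀ f : F, c₀ * f * (d * c₀⁻¹) = d * f := fun f => by field_simp
    have e3 : ∀ f : F, c₀ * (d * c₀⁻¹ * f) = d * f := fun f => by field_simp
    rw [e1]
    simp only [map_smul, map_sub, smul_sub, smul_smul, e2, e3]
    abel
  have hsum : ∀ S : Finset (Fin m), ∃ g ∈ E Q, ∀ v, g v = v + ιT i w
      ((∑ j ∈ S, c • (R1 ω (b (Sum.inl (Sum.inr j))) (b (Sum.inl (Sum.inl j))) -
        R1 ω (b (Sum.inl (Sum.inl j))) (b (Sum.inl (Sum.inr j))))) (κT ω i w v)) := by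
    intro S
    induction S using Finset.induction_on with
    | empty => exact ⟨1, (E Q).one_mem, fun v => by rw [Finset.sum_empty, LinearMap.zero_apply, map_zero, add_zero]; rfl⟩
    | insert j S hj ih =>
      rw [Finset.sum_insert hj]
      exact hadd _ _ (hroot _ _ _) ih
  obtain ⟨g, hg, e⟩ := hsum Finset.univ
  convert hg
  refine LinearEquiv.ext fun v => ?_
  rw [e]
  change sE i (tv hω c w).1 v = _
  rw [sE_tv_apply hω]
  congr 2
  rw [LinearMap.sum_apply]
  simp only [LinearMap.smul_apply, LinearMap.sub_apply, R1_apply]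
  rw [← Finset.smul_sum, hexp]

/-- The slot embedding as a homomorphism. -/
noncomputable def sUhom (F : Type*) [Field F] (k : ℕ) {n : ℕ} (i : Fin n) :
    (Module.End F (Fin k → F))ˣ →* (Module.End F (T F k n))ˣ where
  toFun := sU i
  map_one' := Units.ext (sE_one i)
  map_mul' x y := Units.ext (sE_mul i _ _)

theorem QForm.sU_mem_E {n : ℕ} {Q : QuadraticForm F (T F k (n + 1))} (h : QForm hω Q c₀)
    (hn : Odd n ∨ (2 : F) = 0 ∧ 0 < n) (i : Fin (n + 1)) {α : (Module.End F (Fin k → F))ˣ} (hα : IsoW ω α) :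
    Θ F (T F k (n + 1)) (sU i α) ∈ E Q := by
  have hA : LinearMap.BilinForm.IsAlt ω := hω.alt
  have hnd : LinearMap.BilinForm.Nondegenerate ω := by
    constructor
    · intro x hx
      exact hω.nd x hx
    · intro x hx
      exact hω.nd x fun y => by rw [hω.skew, hx, neg_zero]
  let φ : ((Fin k → F) ≃ₗ[F] (Fin k → F)) →* (T F k (n + 1) ≃ₗ[F] T F k (n + 1)) :=
    ((Θ F (T F k (n + 1))).toMonoidHom.comp (sUhom F k i)).comp (Θ F (Fin k → F)).symm.toMonoidHom
  have h1 : Θ F (Fin k → F) α ∈ (E Q).comap φ := by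
    refine H741.sp_le hA hnd ((E Q).comap φ) ?_ (fun x y => hα x y)
    intro a c
    rw [Subgroup.mem_comap]
    have e : (Θ F (Fin k → F)).symm (H741.stv hA a c) = tv hω (-c) a := by
      apply Units.ext
      refine LinearMap.ext fun x => ?_
      rw [Θ_symm_val, H741.stv_apply, tv_apply, hω.skew a x, neg_mul_neg]
    change Θ F (T F k (n + 1)) (sU i ((Θ F (Fin k → F)).symm (H741.stv hA a c))) ∈ E Q
    rw [e]
    exact h.tv_mem_E hn i _ _
  rw [Subgroup.mem_comap] at h1
  change Θ F (T F k (n + 1)) (sU i ((Θ F (Fin k → F)).symm (Θ F (Fin k → F) α))) ∈ E Q at h1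
  rwa [MulEquiv.symm_apply_apply] at h1

end

end Cfsg.Agent.H889.C7
end
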